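import Cfsg.Agent.Class.SU.Basic

/-! Stabilisers in `SU(V)` of orthogonal decompositions into non-degenerate subspaces of
dimension at least two. -/

namespace Cfsg.Lib.Class.Form
open Module

variable {F V : Type*} [Field F] [AddCommGroup V] [Module F V] {σ : F →+* F}
  {B : V →ₛₗ[σ] V →ₗ[F] F} {M : Subgroup (isomGroup B)} {τ : Type*} [Fintype τ]
  {D : τ → Submodule F V} {p : τ → V →ₗ[F] V}

theorem mem_of_forall_sq {A : AddSubgroup V} {y : V} [Finite F]
    (h : ∀ l : F, (l * l) • y ∈ A) (s : F) : s • y ∈ A := by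
  by_cases h2 : (2 : F) = 0
  · have : CharP F 2 := (CharP.charP_iff_prime_eq_zero Nat.prime_two).2 (by exact_mod_cast h2)
    obtain ⟨l, rfl⟩ := FiniteField.isSquare_of_char_two (F := F) (ringChar.eq F 2) s
    exact h l
  · have := sub_mem (h ((s + 1) / 2)) (h ((s - 1) / 2))
    rw [← sub_smul] at this
    convert this using 2
    field_simp
    ring

/-- An orthogonal decomposition with its projections. -/
structure UDec (B : V →ₛₗ[σ] V →ₗ[F] F) (D : τ → Submodule F V) (p : τ → V →ₗ[F] V) : Prop where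
  herm : Herm B
  proj : IsDecProj D p
  orth : ∀ i j, i ≠ j → ∀ u ∈ D i, ∀ v ∈ D j, B u v = 0

namespace UDec

theorem apply_proj (hD : UDec B D p) {i : τ} {u : V} (hu : u ∈ D i) (a : V) :
    B u (p i a) = B u a := by
  conv_rhs => rw [← hD.proj.sum a, map_sum]
  exact (Finset.sum_eq_single i (fun j _ hj => hD.orth i j hj.symm u hu _ (hD.proj.mem j a))
    (by simp)).symm

theorem proj_apply (hD : UDec B D p) {i : τ} {u : V} (hu : u ∈ D i) (a : V) :
    B (p i a) u = B a u := by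
  rw [← hD.herm.conj, hD.apply_proj hu, hD.herm.conj]

theorem sub_mem_orth (hD : UDec B D p) (i : τ) (a : V) : a - p i a ∈ Form.orth B (D i) :=
  fun u hu => by rw [map_sub, hD.apply_proj hu, sub_self]

theorem nondeg (hD : UDec B D p) (i : τ) : NondegOn B (D i) := fun u hu h =>
  hD.herm.sep u fun v => by rw [← hD.apply_proj hu]; exact h _ (hD.proj.mem i v)

theorem fix_of_mov (hD : UDec B D p) {i j : τ} (hij : i ≠ j) {g : isomGroup B}
    (hg : g ∈ mov B (D i)) {x : V} (hx : x ∈ D j) : (g : V ≃ₗ[F] V) x = x :=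
  mov_fix hD.herm (hD.nondeg i) hg fun u hu => hD.orth i j hij u hu x hx

variable [FiniteDimensional F V]

theorem mov_le (hD : UDec B D p) (i : τ) : mov B (D i) ≤ stabFam B D := fun g hg =>
  mem_stabFam_of_forall fun j v hv => by
    by_cases hij : i = j
    · subst hij; exact mov_apply_mem hg hv
    · rwa [hD.fix_of_mov hij hg hv]

theorem exists_perm [Finite F] (hD : UDec B D p) {k : ℕ} (hk : ∀ i, finrank F (D i) = k)
    (π : Equiv.Perm τ) : ∃ s : isomGroup B,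
      (∀ i, (D i).map ((s : V ≃ₗ[F] V) : V →ₗ[F] V) = D (π i)) ∧
        ∀ i, π i = i → ∀ x ∈ D i, (s : V ≃ₗ[F] V) x = x := by
  have : ∀ i, ∃ φ : D i ≃ₗ[F] D (π i), (∀ x y : D i, B (φ x) (φ y) = B x y) ∧
      (π i = i → ∀ x : D i, (φ x : V) = x) := fun i => by
    by_cases hi : π i = i
    · exact ⟨LinearEquiv.ofEq _ _ (by rw [hi]), fun _ _ => rfl, fun _ _ => rfl⟩
    · obtain ⟨e, he⟩ := (hD.herm.restrict (hD.nondeg i)).exists_isometry
        (hD.herm.restrict (hD.nondeg (π i))) (by rw [hk, hk])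
      exact ⟨e, he, fun h => absurd h hi⟩
  choose φ h1 h2 using this
  obtain ⟨g, hg, hg'⟩ := hD.proj.exists_glue_equiv π φ
  refine ⟨⟨g, fun x y => ?_⟩, hg', fun i hi x hx => (hg i ⟨x, hx⟩).trans (h2 i hi _)⟩
  change B (g x) (g y) = B x y
  rw [← hD.proj.sum x, ← hD.proj.sum y]
  simp only [map_sum, LinearMap.sum_apply]
  refine Finset.sum_congr rfl fun j _ => Finset.sum_congr rfl fun i _ => ?_
  rw [hg i ⟨_, hD.proj.mem i x⟩, hg j ⟨_, hD.proj.mem j y⟩]
  by_cases hij : i = j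
  · subst hij; exact h1 i _ _
  · rw [hD.orth _ _ hij _ (hD.proj.mem i x) _ (hD.proj.mem j y)]
    exact hD.orth _ _ (π.injective.ne hij) _ (Subtype.property _) _ (Subtype.property _)

theorem exists_swap [Finite F] [DecidableEq τ] (hD : UDec B D p) {k : ℕ} (hk0 : 0 < k)
    (hk : ∀ i, finrank F (D i) = k) (j l : τ) : ∃ s ∈ stabFam B D, s ∈ sIsom B ∧
      (D j).map ((s : V ≃ₗ[F] V) : V →ₗ[F] V) = D l ∧
        ∀ i, i ≠ j → i ≠ l → ∀ x ∈ D i, (s : V ≃ₗ[F] V) x = x := by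
  obtain ⟨s, h1, h2⟩ := hD.exists_perm hk (Equiv.swap j l)
  have hj : D j ≠ ⊥ := fun e => by have := hk j; rw [e, finrank_bot] at this; omega
  obtain ⟨d, hd, hdd⟩ := hD.herm.exists_norm_of_nondegOn (hD.nondeg j) hj (map_one σ)
  have hdd' : B d d ≠ 0 := by simp [hdd]
  obtain ⟨μ, hμ, hs⟩ := hD.herm.exists_mul_qrefl_mem hdd' s
  have hm := hD.herm.qrefl_mem_mov hd hdd' μ hμ
  refine ⟨_, mul_mem (mem_stabFam.2 ⟨_, h1⟩) (hD.mov_le j hm), hs, ?_, fun i hij hil x hx => ?_⟩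
  · have := mem_stab_iff_map.1 (mem_stab_of_forall_mem fun v hv => mov_apply_mem hm hv)
    have e := h1 j
    rwa [Equiv.swap_apply_left, ← this, ← Submodule.map_comp] at e
  · rw [isom_mul_apply, hD.fix_of_mov hij.symm hm hx,
      h2 i (Equiv.swap_apply_of_ne_of_ne hij hil) x hx]

variable [Finite F]

theorem smul_mem_eichSub (hD : UDec B D p) (hM : ∀ g ∈ stabFam B D, g ∈ sIsom B → g ∈ M)
    {i j : τ} (hij : i ≠ j) {z y : V} (hz : z ∈ D i) (hz0 : z ≠ 0) {hzz : B z z = 0}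
    (hy : y ∈ D j) (hyy : B y y = 0) (hE : y ∈ hD.herm.eichSub M hzz) (s : F) :
    s • y ∈ hD.herm.eichSub M hzz := by
  have h := hD.herm
  by_cases hy0 : y = 0
  · simp [hy0]
  obtain ⟨f, hf, hff, hzf⟩ := h.exists_partner_of_nondeg (hD.nondeg i) hz hz0 hzz
  obtain ⟨f', hf', hff', hyf⟩ := h.exists_partner_of_nondeg (hD.nondeg j) hy hy0 hyy
  refine mem_of_forall_sq (fun l => ?_) s
  by_cases hl : l = 0
  · simp [hl]
  have hl' : σ l ≠ 0 := by simpa using hl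
  have e1 : σ (σ l) * l⁻¹ = 1 := by rw [h.invol, mul_inv_cancel₀ hl]
  have e2 : σ l * (σ l)⁻¹ = 1 := mul_inv_cancel₀ hl'
  have m1 := h.hypDiag_mem_mov hz hf hzz hff hzf _ _ e1
  have m2 := h.hypDiag_mem_mov hy hf' hyy hff' hyf _ _ e2
  have hk := hM _ (mul_mem (hD.mov_le i m1) (hD.mov_le j m2)) (by
    rw [mem_sIsom', Subgroup.coe_mul, map_mul, Units.val_mul, h.det_hypDiag, h.det_hypDiag]
    field_simp)
  have hz' : B (σ l • z) (σ l • z) = 0 := by simp [hzz]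
  have := h.apply_mem_eichSub hk (hz := hzz) (hz' := hz') (by
    rw [isom_mul_apply, hD.fix_of_mov hij.symm m2 hz, h.hypDiag_apply_left]) hE
  rw [isom_mul_apply, h.hypDiag_apply_left, hD.fix_of_mov hij m1 ((D j).smul_mem _ hy),
    ← h.smul_mem_eichSub_iff hl' (hz := hzz), h.invol, smul_smul] at this
  exact this

theorem le_eichSub (hD : UDec B D p) (hM : ∀ g ∈ stabFam B D, g ∈ sIsom B → g ∈ M)
    {i j : τ} (hij : i ≠ j) (hj : 2 ≤ finrank F (D j)) {z w : V} (hz : z ∈ D i) (hz0 : z ≠ 0)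
    {hzz : B z z = 0} (hw : w ∈ hD.herm.eichSub M hzz) (hw0 : p j w ≠ 0) :
    ∀ x ∈ D j, x ∈ hD.herm.eichSub M hzz := by
  have h := hD.herm
  obtain ⟨δ, hδ0, hδ⟩ := h.exists_trace_zero
  have hj' : SUIn M (D j) := fun g hg hg' => hM g (hD.mov_le j hg') hg
  have key : ∀ w ∈ h.eichSub M hzz, ∀ y ∈ D j, B y y = 0 → B y w ≠ 0 →
      ∀ s : F, s • y ∈ h.eichSub M hzz := fun w hw y hy hyy hyw s => by
    have h1 := (h.tvA_of_suIn hj' hy hyy).smul_mem_eichSub (hD.orth j i hij.symm y hy z hz) hw δ hδ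
    have h2 := hD.smul_mem_eichSub hM hij hz hz0 ((D j).smul_mem _ hy) (by simp [hyy]) h1
      (s * (δ * B y w)⁻¹)
    rwa [smul_smul, inv_mul_cancel_right₀ (mul_ne_zero hδ0 hyw)] at h2
  let T : Submodule F V :=
    { carrier := {y | ∀ s : F, s • y ∈ h.eichSub M hzz}
      add_mem' := fun ha hb s => by rw [smul_add]; exact add_mem (ha s) (hb s)
      zero_mem' := fun s => by simp
      smul_mem' := fun c y hy s => by rw [smul_smul]; exact hy _ }
  obtain ⟨y, hy, hyy, hyw⟩ : ∃ y ∈ D j, B y y = 0 ∧ B y w ≠ 0 := by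
    by_contra! hcon
    have := h.le_of_isotropic (hD.nondeg j) hj (T := LinearMap.ker (B w))
      fun v hv hvv => h.comm (hcon v hv hvv)
    exact hw0 (hD.nondeg j _ (hD.proj.mem j w) fun v hv => by
      rw [hD.proj_apply hv]; exact this hv)
  have hy0 : y ≠ 0 := by rintro rfl; simp at hyw
  have hy1 : y ∈ h.eichSub M hzz := by simpa using key w hw y hy hyy hyw 1
  intro x hx
  simpa using h.le_of_isotropic (hD.nondeg j) hj (T := T) (fun v hv hvv => by
    by_cases hv0 : v = 0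
    · simp [hv0]
    by_cases hyv : B y v = 0
    · obtain ⟨u, hu, huu, h1, h2⟩ := h.exists_iso_ne_ne_mem (hD.nondeg j) hy hv hy0 hv0 hyy hyv
      exact key u (by simpa using key y hy1 u hu huu (h.ne_comm h1) 1) v hv hvv h2
    · exact key y hy1 v hv hvv (h.ne_comm hyv)) hx 1

theorem exists_eich (hD : UDec B D p) (hM : ∀ g ∈ stabFam B D, g ∈ sIsom B → g ∈ M) {k : ℕ}
    (hk : ∀ i, finrank F (D i) = k) (h2 : 2 ≤ k)
    (hq : 3 ≤ k ∨ ∃ l : F, σ l = l ∧ l ≠ 0 ∧ l ≠ 1) {a : V} (ha : hD.herm.TvA M a) {i j : τ}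
    (hij : i ≠ j) (hi : p i a ≠ 0) (hj : p j a ≠ 0) :
    ∃ i j, i ≠ j ∧ ∃ z ∈ D i, z ≠ 0 ∧ ∃ hzz : B z z = 0, ∃ w ∈ hD.herm.eichSub M hzz,
      p j w ≠ 0 := by
  have h := hD.herm
  have hS : ∀ i, SUIn M (D i) := fun i g hg hg' => hM g (hD.mov_le i hg') hg
  have key : ∀ a i j, h.TvA M a → i ≠ j → p i a ≠ 0 → p j a ≠ 0 → B (p i a) (p i a) = 0 →
      ∃ i j, i ≠ j ∧ ∃ z ∈ D i, z ≠ 0 ∧ ∃ hzz : B z z = 0, ∃ w ∈ hD.herm.eichSub M hzz,
        p j w ≠ 0 := fun a i j ha hij hi hj hii => by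
    obtain ⟨c, hc, h1⟩ := h.exists_eich_iso (hD.nondeg i) (hS i) (by rwa [hk]) ha
      (hD.proj.mem i a) hi hii (hD.sub_mem_orth i a)
    exact ⟨i, j, hij, _, hD.proj.mem i a, hi, hii, _, h1, by simpa [hc] using hj⟩
  by_cases hii : B (p i a) (p i a) = 0
  · exact key a i j ha hij hi hj hii
  by_cases hjj : B (p j a) (p j a) = 0
  · exact key a j i ha hij.symm hj hi hjj
  rcases h2.eq_or_lt with rfl | h3
  swap
  · obtain ⟨z, hz, hz0, hzz, c, hc, h1⟩ := h.exists_eich_three (hD.nondeg i) (hS i)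
      (by rw [hk]; exact h3) ha (hD.proj.mem i a) hi (hD.sub_mem_orth i a)
    exact ⟨i, j, hij, z, hz, hz0, hzz, _, h1, by simpa [hc] using hj⟩
  obtain ⟨l, hl, hl0, hl1⟩ := hq.resolve_left (by omega)
  have ex : ∀ i, p i a ≠ 0 → ∃ u ∈ D i, B u u = 0 ∧ B u a ≠ 0 := fun i hi => by
    by_contra! hcon
    have := h.le_of_isotropic (hD.nondeg i) (hk i).ge (T := LinearMap.ker (B a))
      fun v hv hvv => h.comm (hcon v hv hvv)
    exact hi (hD.nondeg i _ (hD.proj.mem i a) fun v hv => by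
      rw [hD.proj_apply hv]; exact this hv)
  obtain ⟨u, hu, huu, hua⟩ := ex i hi
  obtain ⟨v, hv, hvv, hva⟩ := ex j hj
  obtain ⟨δ, hδ0, hδ⟩ := h.exists_trace_zero
  have huv : B u v = 0 := hD.orth i j hij u hu v hv
  obtain ⟨c, hc0, hc, hβ⟩ : ∃ c : F, c ≠ 0 ∧ c + σ c = 0 ∧
      δ * B u a * B a u + c * B v a * B a v ≠ 0 := by
    by_cases e : δ * B u a * B a u + δ * B v a * B a v = 0
    · refine ⟨l * δ, mul_ne_zero hl0 hδ0, by rw [map_mul, hl]; linear_combination l * hδ,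
        fun e' => ?_⟩
      have : (l - 1) * δ * B v a * B a v = 0 := by linear_combination e' - e
      simp [sub_eq_zero, hl1, hδ0, hva, h.ne_comm hva] at this
    · exact ⟨δ, hδ0, hδ, e⟩
  set β := δ * B u a * B a u + c * B v a * B a v with hβdef
  have hβ' : β + σ β = 0 := by
    simp only [hβdef, map_add, map_mul, h.conj]
    linear_combination B u a * B a u * hδ + B v a * B a v * hc
  have hβ2 : -β⁻¹ + σ (-β⁻¹) = 0 := by
    rw [map_neg, map_inv₀, eq_neg_of_add_eq_zero_right hβ', inv_neg]; ring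
  have h1 := ((ha.apply ((h.tvA_of_suIn (hS j) hv hvv).mem hvv c hc)).apply
    ((h.tvA_of_suIn (hS i) hu huu).mem huu δ hδ)).apply (ha.mem ha.iso _ hβ2)
  have e : (h.transv a ha.iso _ hβ2 : V ≃ₗ[F] V) ((h.transv u huu δ hδ : V ≃ₗ[F] V)
      ((h.transv v hvv c hc : V ≃ₗ[F] V) a)) = (δ * B u a) • u + (c * B v a) • v := by
    simp only [Herm.transv_apply, map_add, map_smul, huv, ha.iso]
    have := inv_mul_cancel₀ hβ
    match_scalars
    · rw [hβdef] at this ⊢; linear_combination -this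
    · ring
    · ring
  rw [e] at h1
  have e1 : p i ((δ * B u a) • u + (c * B v a) • v) = (δ * B u a) • u := by
    simp [hD.proj.self i u hu, hD.proj.ne i j hij v hv]
  have e2 : p j ((δ * B u a) • u + (c * B v a) • v) = (c * B v a) • v := by
    simp [hD.proj.self j v hv, hD.proj.ne j i hij.symm u hu]
  have hu0 : u ≠ 0 := by rintro rfl; simp at hua
  have hv0 : v ≠ 0 := by rintro rfl; simp at hva
  exact key _ i j h1 hij (by simp [e1, hδ0, hua, hu0]) (by simp [e2, hc0, hva, hv0])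
    (by simp [e1, huu])

omit [Finite F] in
theorem add_le_finrank (hD : UDec B D p) {i j : τ} (hij : i ≠ j) :
    finrank F (D i) + finrank F (D j) ≤ finrank F V := by
  rw [← Submodule.finrank_sup_add_finrank_inf_eq, (Submodule.eq_bot_iff (D i ⊓ D j)).2
    fun v hv => hD.proj.eq_zero_of_mem hij hv.1 hv.2, finrank_bot, add_zero]
  exact Submodule.finrank_le _

theorem maxS [Nontrivial τ] (hD : UDec B D p) {k : ℕ} (hk : ∀ i, finrank F (D i) = k)
    (h2 : 2 ≤ k) (hq : 3 ≤ k ∨ ∃ l : F, σ l = l ∧ l ≠ 0 ∧ l ≠ 1) : MaxS B (stabFam B D) := by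
  classical
  have h := hD.herm
  refine ⟨fun hle => ?_, fun M hM _ g hg hgD => ?_⟩
  · obtain ⟨i, j, hij⟩ := exists_pair_ne τ
    obtain ⟨z, hz, hz0, hzz⟩ := h.exists_isotropic_mem (hD.nondeg i) (by rwa [hk])
    obtain ⟨y, hy, hy0, hyy⟩ := h.exists_isotropic_mem (hD.nondeg j) (by rwa [hk])
    obtain ⟨f, hf, hff, hzf⟩ := h.exists_partner_of_nondeg (hD.nondeg i) hz hz0 hzz
    obtain ⟨π, hπ⟩ := mem_stabFam.1 (hle (h.eich_mem_sIsom hzz (hD.orth i j hij z hz y hy) 0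
      (by simp [hyy])))
    have := (hπ i).le (Submodule.mem_map_of_mem hf)
    simp only [LinearEquiv.coe_coe, Herm.eich_apply, hzf, hD.orth j i hij.symm y hy f hf,
      one_smul, zero_mul, add_zero, zero_smul, sub_zero] at this
    exact hD.proj.add_notMem hij hf hy (by rintro rfl; simp at hzf) hy0 _ this
  have hS : ∀ i, SUIn M (D i) := fun i g hg hg' => hM g (hD.mov_le i hg') hg
  obtain ⟨i, v, hv, hvv, hgv⟩ : ∃ i, ∃ v ∈ D i, B v v = 0 ∧ ∀ j, (g : V ≃ₗ[F] V) v ∉ D j := by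
    by_contra! hcon
    obtain ⟨i, v, hv, hgv⟩ := hD.proj.exists_notMem_of_notMem_stabDec (by omega) hk hgD
    obtain ⟨j, hj⟩ := h.exists_le_of_isotropic (hD.nondeg i) (by rwa [hk]) hD.orth g (hcon i)
    exact hgv j (hj v hv)
  obtain ⟨j, l, hjl, hj, hl⟩ : ∃ j l, j ≠ l ∧ p j ((g : V ≃ₗ[F] V) v) ≠ 0 ∧
      p l ((g : V ≃ₗ[F] V) v) ≠ 0 := by
    have h1 := hgv i
    rw [hD.proj.mem_iff] at h1
    push Not at h1
    obtain ⟨j, -, hj⟩ := h1
    have h1 := hgv j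
    rw [hD.proj.mem_iff] at h1
    push Not at h1
    obtain ⟨l, hl, hl'⟩ := h1
    exact ⟨l, j, hl, hl', hj⟩
  obtain ⟨i, j, hij, z, hz, hz0, hzz, w, hw, hw0⟩ := hD.exists_eich hM hk h2 hq
    ((h.tvA_of_suIn (hS i) hv hvv).apply hg) hjl hj hl
  have hj := hD.le_eichSub hM hij (by rwa [hk]) hz hz0 hw hw0
  have hall : ∀ l, l ≠ i → ∀ x ∈ D l, x ∈ h.eichSub M hzz := fun l hl x hx => by
    obtain ⟨s, hs, hs', e, hfix⟩ := hD.exists_swap (by omega) hk j l
    obtain ⟨y, hy, rfl⟩ := e.ge hx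
    exact h.apply_mem_eichSub (hM s hs hs') (hfix i hij hl.symm z hz) (hj y hy)
  have hn := hD.add_le_finrank hij
  rw [hk, hk] at hn
  have hfull : h.Full M z := h.full_of_forall (by omega) hzz fun w hw => ⟨0, by
    rw [zero_smul, add_zero, ← hD.proj.sum w]
    refine sum_mem fun l _ => ?_
    by_cases hl : l = i
    · subst hl
      exact h.mem_eichSub_of_suIn (hS l) hz (hD.proj.mem l w) hzz (by rwa [hD.apply_proj hz])
    · exact hall l hl _ (hD.proj.mem l w)⟩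
  obtain ⟨f, hf, hff, hzf⟩ := h.exists_partner_of_nondeg (hD.nondeg i) hz hz0 hzz
  obtain ⟨δ, hδ0, hδ⟩ := h.exists_trace_zero
  exact h.sIsom_le_of_full_of_transv (by omega) hfull hff (by simp [hzf]) hδ0 hδ
    ((h.tvA_of_suIn (hS i) hf hff).mem hff δ hδ)

end UDec
end Cfsg.Lib.Class.Form
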