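import Cfsg.Agent.Class.HermMaxND
import Cfsg.Agent.Class.HermSpFour

/-! Transvection centres of overgroups of `SU(U)`, and stabilisers of non-degenerate subspaces
in dimension at least four. -/

namespace Cfsg.Lib.Class.Form
open Module

variable {F V : Type*} [Field F] [AddCommGroup V] [Module F V] {σ : F →+* F}
  {B : V →ₛₗ[σ] V →ₗ[F] F} {M : Subgroup (isomGroup B)} {U : Submodule F V}

/-- The isometries `g` with `g x - x ∈ U` for all `x`. -/
def mov (B : V →ₛₗ[σ] V →ₗ[F] F) (U : Submodule F V) : Subgroup (isomGroup B) where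
  carrier := {g | ∀ x, (g : V ≃ₗ[F] V) x - x ∈ U}
  one_mem' x := by simp
  mul_mem' {g g'} hg hg' x := by
    have := add_mem (hg ((g' : V ≃ₗ[F] V) x)) (hg' x)
    rwa [sub_add_sub_cancel, ← isom_mul_apply] at this
  inv_mem' {g} hg x := by
    have := neg_mem (hg (((g⁻¹ : isomGroup B) : V ≃ₗ[F] V) x))
    rwa [isom_apply_inv, neg_sub] at this

theorem mem_mov {g : isomGroup B} : g ∈ mov B U ↔ ∀ x, (g : V ≃ₗ[F] V) x - x ∈ U := Iff.rfl

theorem mov_mono {U' : Submodule F V} (h : U ≤ U') : mov B U ≤ mov B U' :=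
  fun _ hg x => h (hg x)

theorem mov_apply_mem {g : isomGroup B} (hg : g ∈ mov B U) {x : V} (hx : x ∈ U) :
    (g : V ≃ₗ[F] V) x ∈ U := by
  simpa using add_mem (hg x) hx

theorem mov_fix (h : Herm B) (hU : NondegOn B U) {g : isomGroup B} (hg : g ∈ mov B U) {x : V}
    (hx : x ∈ orth B U) : (g : V ≃ₗ[F] V) x = x := by
  refine sub_eq_zero.1 (hU _ (hg x) fun u hu => h.comm ?_)
  have h1 : B u ((g : V ≃ₗ[F] V) x) = 0 := by
    rw [← isom_apply_inv g u, isom_apply]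
    exact hx _ (mov_apply_mem (inv_mem hg) hu)
  rw [map_sub, h1, hx u hu, sub_zero]

/-- `M` contains `SU(U)`. -/
def SUIn (M : Subgroup (isomGroup B)) (U : Submodule F V) : Prop :=
  ∀ g ∈ sIsom B, g ∈ mov B U → g ∈ M

theorem SUIn.mono (h : SUIn M U) {U' : Submodule F V} (hU : U' ≤ U) : SUIn M U' :=
  fun g hg hg' => h g hg (mov_mono hU hg')

namespace Herm

theorem transv_mem_mov (h : Herm B) {v : V} (hv : v ∈ U) (hvv : B v v = 0) (c : F)
    (hc : c + σ c = 0) : h.transv v hvv c hc ∈ mov B U := fun x => by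
  rw [transv_apply, add_sub_cancel_left]; exact U.smul_mem _ hv

theorem qrefl_mem_mov (h : Herm B) {d : V} (hd : d ∈ U) (hdd : B d d ≠ 0) (μ : F)
    (hμ : σ μ * μ = 1) : h.qrefl d hdd μ hμ ∈ mov B U := fun x => by
  rw [qrefl_apply, add_sub_cancel_left]; exact U.smul_mem _ hd

/-- All transvections with centre `a` lie in `M`. -/
def TvA (h : Herm B) (M : Subgroup (isomGroup B)) (a : V) : Prop :=
  ∃ ha : B a a = 0, ∀ c hc, h.transv a ha c hc ∈ M

theorem TvA.iso {h : Herm B} {a : V} (ha : h.TvA M a) : B a a = 0 := ha.1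

theorem TvA.mem {h : Herm B} {a : V} (ha : h.TvA M a) (haa : B a a = 0) (c : F)
    (hc : c + σ c = 0) : h.transv a haa c hc ∈ M := ha.2 c hc

theorem TvA.apply {h : Herm B} {a : V} (ha : h.TvA M a) {g : isomGroup B} (hg : g ∈ M) :
    h.TvA M ((g : V ≃ₗ[F] V) a) :=
  ⟨by rw [isom_apply, ha.iso], fun c hc => by
    rw [← h.conj_transv g a ha.iso]
    exact mul_mem (mul_mem hg (ha.mem _ c hc)) (inv_mem hg)⟩

theorem TvA.smul {h : Herm B} {a : V} (ha : h.TvA M a) (s : F) : h.TvA M (s • a) := by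
  refine ⟨by simp [ha.iso], fun c hc => ?_⟩
  have hc' : c * (σ s * s) + σ (c * (σ s * s)) = 0 := by
    simp only [map_mul, h.invol]; linear_combination (σ s * s) * hc
  convert ha.mem ha.iso _ hc' using 1
  refine isom_ext fun x => ?_
  simp only [transv_apply, map_smulₛₗ, LinearMap.smul_apply, smul_eq_mul, smul_smul]
  congr 2; ring

variable [FiniteDimensional F V]

theorem eich_mem_mov (h : Herm B) {u w : V} (hu : u ∈ U) (hw : w ∈ U) (huu : B u u = 0)
    (huw : B u w = 0) (b : F) (hb : b + σ b = B w w) : h.eich huu huw b hb ∈ mov B U := fun x => by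
  rw [eich_apply, add_sub_assoc, add_sub_cancel_left]
  exact sub_mem (U.smul_mem _ hw) (U.smul_mem _ hu)

theorem hypDiag_mem_mov (h : Herm B) {e f : V} (heU : e ∈ U) (hfU : f ∈ U) (he : B e e = 0)
    (hf : B f f = 0) (hef : B e f = 1) (l m : F) (hlm : σ l * m = 1) :
    h.hypDiag he hf hef l m hlm ∈ mov B U := fun x => by
  rw [hypDiag_apply, add_assoc, add_sub_cancel_left]
  exact add_mem (U.smul_mem _ heU) (U.smul_mem _ hfU)

theorem hypDiag_apply_left (h : Herm B) {e f : V} (he : B e e = 0)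
    (hf : B f f = 0) (hef : B e f = 1) (l m : F) (hlm : σ l * m = 1) :
    (h.hypDiag he hf hef l m hlm : V ≃ₗ[F] V) e = l • e := by
  have hfe : B f e = 1 := by rw [← h.conj, hef, map_one]
  rw [hypDiag_apply, he, hfe]; module

theorem tvA_of_suIn (h : Herm B) (hM : SUIn M U) {a : V} (ha : a ∈ U) (haa : B a a = 0) :
    h.TvA M a :=
  ⟨haa, fun c hc => hM _ (h.transv_mem_sIsom ..) (h.transv_mem_mov ha haa c hc)⟩

theorem mem_eichSub_of_suIn (h : Herm B) (hM : SUIn M U) {z w : V} (hz : z ∈ U) (hw : w ∈ U)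
    (hzz : B z z = 0) (hzw : B z w = 0) : w ∈ h.eichSub M hzz :=
  h.mem_eichSub_of_forall hzz hzw fun b hb =>
    hM _ (h.eich_mem_sIsom ..) (h.eich_mem_mov hz hw hzz hzw b hb)

omit [FiniteDimensional F V] in
theorem exists_partner_of_nondeg (h : Herm B) (hU : NondegOn B U) {z : V} (hz : z ∈ U)
    (hz0 : z ≠ 0) (hzz : B z z = 0) : ∃ f ∈ U, B f f = 0 ∧ B z f = 1 := by
  obtain ⟨w, hw, hzw⟩ : ∃ w ∈ U, B z w ≠ 0 := by
    by_contra! hcon
    exact hz0 (hU z hz hcon)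
  exact h.exists_partner_mem hz hw hzz hzw

theorem exists_aniso_perp_of_three (h : Herm B) (hU : NondegOn B U) (hd : 3 ≤ finrank F U)
    (z : V) (hz : z ∈ U) : ∃ d ∈ U, B z d = 0 ∧ B d d ≠ 0 := by
  obtain ⟨d, hd1, hdd⟩ := (h.restrict hU).exists_nonisotropic_orth_of_lt
    (W := Submodule.span F {(⟨z, hz⟩ : U)}) (by
      have := finrank_span_singleton_le (F := F) (⟨z, hz⟩ : U)
      omega)
  exact ⟨d, d.2, (mem_orth_span_singleton (B := restr B U)).1 hd1, hdd⟩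

/-- The difference of a vector of the Eichler group and its image under a transvection. -/
theorem TvA.smul_mem_eichSub {h : Herm B} {a z w : V} (ha : h.TvA M a) {hz : B z z = 0}
    (haz : B a z = 0) (hw : w ∈ h.eichSub M hz) (c : F) (hc : c + σ c = 0) :
    (c * B a w) • a ∈ h.eichSub M hz := by
  have h1 := h.apply_mem_eichSub (ha.mem ha.iso c hc) (hz := hz) (hz' := hz)
    (by simp [transv_apply, haz]) hw
  rwa [transv_apply, (h.eichSub M hz).add_mem_cancel_left hw] at h1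

theorem exists_eich_iso [Finite F] (h : Herm B) (hU : NondegOn B U) (hM : SUIn M U)
    (hq : 3 ≤ finrank F U ∨ ∃ l : F, σ l = l ∧ l ≠ 0 ∧ l ≠ 1) {a z : V} (ha : h.TvA M a)
    (hz : z ∈ U) (hz0 : z ≠ 0) (hzz : B z z = 0) (haz : a - z ∈ orth B U) :
    ∃ c : F, c ≠ 0 ∧ c • a ∈ h.eichSub M hzz := by
  obtain ⟨f, hf, hff, hzf⟩ := h.exists_partner_of_nondeg hU hz hz0 hzz
  obtain ⟨k, hk, hkU, l, hl, hkz⟩ : ∃ k ∈ M, k ∈ mov B U ∧ ∃ l : F, l ≠ 1 ∧
      (k : V ≃ₗ[F] V) z = l • z := by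
    rcases hq with hq | ⟨l, hl, hl0, hl1⟩
    · obtain ⟨l, hl, hl'⟩ := exists_normOne_ne_one h.ne_id h.invol
      obtain ⟨d, hd, hzd, hdd⟩ := h.exists_aniso_perp_of_three hU hq z hz
      obtain ⟨μ, hμ, hk⟩ := h.exists_mul_qrefl_mem hdd (h.hypDiag hzz hff hzf l l hl)
      have hk' := mul_mem (h.hypDiag_mem_mov hz hf hzz hff hzf l l hl) (h.qrefl_mem_mov hd hdd μ hμ)
      refine ⟨_, hM _ hk hk', hk', l, fun e => hl' (by simp [e]), ?_⟩
      rw [isom_mul_apply, h.qrefl_apply_of_orth hdd μ hμ (h.comm hzd), hypDiag_apply_left]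
    · have hlm : σ l * l⁻¹ = 1 := by rw [hl, mul_inv_cancel₀ hl0]
      have hk' := h.hypDiag_mem_mov hz hf hzz hff hzf l l⁻¹ hlm
      refine ⟨_, hM _ ?_ hk', hk', l, hl1, h.hypDiag_apply_left ..⟩
      rw [mem_sIsom', det_hypDiag, mul_inv_cancel₀ hl0]
  have hl1 : l - 1 ≠ 0 := sub_ne_zero.2 hl
  have e : (l - 1)⁻¹ • (k : V ≃ₗ[F] V) a = z + (l - 1)⁻¹ • a := by
    have : (k : V ≃ₗ[F] V) a = a + (l - 1) • z := by
      conv_lhs => rw [← sub_add_cancel a z, map_add, mov_fix h hU hkU haz, hkz]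
      module
    rw [this, smul_add, smul_smul, inv_mul_cancel₀ hl1, one_smul, add_comm]
  have h3 := (ha.apply hk).smul (l - 1)⁻¹
  rw [e] at h3
  obtain ⟨δ, hδ0, hδ⟩ := h.exists_trace_zero
  have hza : B z a = 0 := by simpa [hzz] using haz z hz
  exact ⟨δ * (l - 1)⁻¹, mul_ne_zero hδ0 (inv_ne_zero hl1),
    h.smul_mem_eichSub_of_transv hzz ha.iso hza hδ (h.tvA_of_suIn hM hz hzz).2 ha.2
      (h3.mem h3.iso δ hδ)⟩

theorem exists_eich_three [Finite F] (h : Herm B) (hU : NondegOn B U) (hM : SUIn M U)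
    (hd : 3 ≤ finrank F U) {a u : V} (ha : h.TvA M a) (hu : u ∈ U) (hu0 : u ≠ 0)
    (hau : a - u ∈ orth B U) :
    ∃ z ∈ U, z ≠ 0 ∧ ∃ (hzz : B z z = 0) (c : F), c ≠ 0 ∧ c • a ∈ h.eichSub M hzz := by
  by_cases huu : B u u = 0
  · exact ⟨u, hu, hu0, huu, h.exists_eich_iso hU hM (.inl hd) ha hu hu0 huu hau⟩
  obtain ⟨z, hz, huz, hz0, hzz⟩ := h.exists_iso_in U [B u] [] (by simpa using hd)
  replace huz : B u z = 0 := huz _ (by simp)
  obtain ⟨δ, hδ0, hδ⟩ := h.exists_trace_zero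
  have e : ∀ y ∈ U, B a y = B u y := fun y hy => by
    have := h.comm (hau y hy)
    rwa [map_sub, LinearMap.sub_apply, sub_eq_zero] at this
  refine ⟨z, hz, ne_zero_of_notMem_spanL hz0, hzz, δ * B a u, mul_ne_zero hδ0 (by rwa [e u hu]),
    ha.smul_mem_eichSub (by rw [e z hz, huz]) (h.mem_eichSub_of_suIn hM hz hu hzz (h.comm huz)) δ hδ⟩

theorem exists_iso_ne_ne_mem (h : Herm B) (hU : NondegOn B U) {x y : V} (hx : x ∈ U) (hy : y ∈ U)
    (hx0 : x ≠ 0) (hy0 : y ≠ 0) (hxx : B x x = 0) (hxy : B x y = 0) :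
    ∃ z ∈ U, B z z = 0 ∧ B x z ≠ 0 ∧ B y z ≠ 0 := by
  obtain ⟨z, h1, h2, h3⟩ := (h.restrict hU).exists_isotropic_ne_ne (x := ⟨x, hx⟩) (y := ⟨y, hy⟩)
    (fun e => hx0 (congrArg Subtype.val e)) (fun e => hy0 (congrArg Subtype.val e)) hxx hxy
  exact ⟨z, z.2, h1, h2, h3⟩

/-- An isometry sending the isotropic vectors of `U` into a union of mutually orthogonal
subspaces sends `U` into one of them. -/
theorem exists_le_of_isotropic [Finite F] (h : Herm B) (hU : NondegOn B U) (hd : 2 ≤ finrank F U)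
    {τ : Type*} {D : τ → Submodule F V}
    (hD : ∀ i j, i ≠ j → ∀ u ∈ D i, ∀ v ∈ D j, B u v = 0) (g : isomGroup B)
    (hg : ∀ v ∈ U, B v v = 0 → ∃ j, (g : V ≃ₗ[F] V) v ∈ D j) :
    ∃ j, ∀ v ∈ U, (g : V ≃ₗ[F] V) v ∈ D j := by
  obtain ⟨e, he, he0, hee⟩ := h.exists_isotropic_mem hU hd
  obtain ⟨j, hj⟩ := hg e he hee
  have key : ∀ x y, (g : V ≃ₗ[F] V) x ∈ D j → y ∈ U → B y y = 0 → B x y ≠ 0 →
      (g : V ≃ₗ[F] V) y ∈ D j := fun x y hx hy hyy hxy => by
    obtain ⟨i, hi⟩ := hg y hy hyy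
    by_contra hn
    exact hxy (by rw [← isom_apply g]; exact hD j i (fun e => hn (e ▸ hi)) _ hx _ hi)
  refine ⟨j, h.le_of_isotropic hU hd (T := (D j).comap ((g : V ≃ₗ[F] V) : V →ₗ[F] V))
    fun v hv hvv => ?_⟩
  change (g : V ≃ₗ[F] V) v ∈ D j
  by_cases hv0 : v = 0
  · simp [hv0]
  by_cases hev : B e v = 0
  · obtain ⟨z, hz, hzz, h1, h2⟩ := h.exists_iso_ne_ne_mem hU he hv he0 hv0 hee hev
    exact key z v (key e z hj hz hzz h1) hv hvv (h.ne_comm h2)
  · exact key e v hj hv hvv hev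

theorem maxS_stab_nondeg' [Finite F] (h : Herm B) {W : Submodule F V}
    (hW0 : W ≠ ⊥) (hW : NondegOn B W) (hd : 2 * finrank F W < finrank F V)
    (hn : 4 ≤ finrank F V) : MaxS B (stab B W) := by
  obtain ⟨δ, hδ0, hδ⟩ := h.exists_trace_zero
  have hdim := h.finrank_orth W
  have hU := h.nondegOn_orth hW
  have hc := h.isCompl_orth hW
  set U := orth B W with hUdef
  have hWU : orth B U = W := h.orth_orth W
  refine ⟨h.not_sIsom_le_stab (by omega) hW0 (fun ht => ?_), fun M hM _ g hg hgW => ?_⟩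
  · rw [ht, finrank_top] at hd; omega
  have hMU : SUIn M U := fun k hk hk' =>
    hM k (mem_stab_of_forall_mem fun v hv => by rwa [mov_fix h hU hk' (hWU.ge hv)]) hk
  obtain ⟨v, hvU, hv, hg'⟩ : ∃ v ∈ U, B v v = 0 ∧ ∀ j, (g : V ≃ₗ[F] V) v ∉ ![U, W] j := by
    by_contra! hcon
    obtain ⟨j, hj⟩ := h.exists_le_of_isotropic hU (by omega) (D := ![U, W]) (by
      intro i j hij u hu v hv
      fin_cases i <;> fin_cases j
      · exact absurd rfl hij
      · exact h.comm (hu v hv)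
      · exact hv u hu
      · exact absurd rfl hij) g hcon
    fin_cases j
    · exact hgW (h.mem_stab_orth_iff.1 (mem_stab_of_forall_mem hj))
    · have := finrank_le_of_forall_mem (g : V ≃ₗ[F] V) (W := U) (W' := W) hj
      omega
  obtain ⟨a, ha, b, hb, hab⟩ := Submodule.mem_sup.1
    (hc.sup_eq_top.ge (Submodule.mem_top (x := (g : V ≃ₗ[F] V) v)))
  have ha0 : a ≠ 0 := by rintro rfl; exact hg' 0 (by rwa [← hab, zero_add])
  have hb0 : b ≠ 0 := by rintro rfl; exact hg' 1 (by rwa [← hab, add_zero])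
  obtain ⟨z, hzU, hz0, hz, c, hc0, h1⟩ := h.exists_eich_three hU hMU (by omega)
    ((h.tvA_of_suIn hMU hvU hv).apply hg) hb hb0 (by rw [← hab, add_sub_cancel_right, hWU]; exact ha)
  have hE : ∀ y ∈ U, B z y = 0 → y ∈ h.eichSub M hz := fun y hy hzy =>
    h.mem_eichSub_of_suIn hMU hzU hy hz hzy
  have hzb : B z (c • b) = 0 := by
    have := h1.1
    rwa [← hab, smul_add, map_add, h.comm (hzU _ (W.smul_mem c ha)), zero_add] at this
  rw [← hab, smul_add, (h.eichSub M hz).add_mem_cancel_right (hE _ (U.smul_mem _ hb) hzb)] at h1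
  obtain ⟨d, hd, hzd, hdd⟩ := h.exists_aniso_perp_of_three hU (by omega) z hzU
  have hWE : ∀ x ∈ W, x ∈ h.eichSub M hz := fun x hx => by
    refine h.le_eichSub_of_nondeg hz hW (fun φ => ?_) (W.smul_mem _ ha)
      (smul_ne_zero hc0 ha0) h1 hx
    obtain ⟨μ, hμ, hk⟩ := h.exists_mul_qrefl_mem hdd (h.glue hW (φ, 1))
    have e : ∀ x : W, ((h.glue hW (φ, 1) * h.qrefl d hdd μ hμ : isomGroup B) : V ≃ₗ[F] V) x =
        (φ : W ≃ₗ[F] W) x := fun x => by
      rw [isom_mul_apply, h.qrefl_apply_of_orth hdd μ hμ (h.comm (hd x x.2)),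
        h.glue_apply_left]
    refine ⟨_, hM _ (mem_stab_of_forall_mem fun v hv => ?_) hk, ?_, e⟩
    · rw [e ⟨v, hv⟩]; exact Subtype.property _
    · rw [isom_mul_apply, h.qrefl_apply_of_orth hdd μ hμ (h.comm hzd)]
      exact h.glue_apply_right hW (φ, 1) ⟨z, hzU⟩
  have hfull : h.Full M z := h.full_of_forall (by omega) hz fun w hw => ⟨0, by
    obtain ⟨a, ha, b, hb, rfl⟩ := Submodule.mem_sup.1
      (hc.sup_eq_top.ge (Submodule.mem_top (x := w)))
    rw [zero_smul, add_zero]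
    exact add_mem (hWE a ha) (hE b hb (by simpa [h.comm (hzU a ha)] using hw))⟩
  obtain ⟨f, hf, hff, hzf⟩ := h.exists_partner_of_nondeg hU hzU hz0 hz
  exact h.sIsom_le_of_full_of_transv (by omega) hfull hff (by simp [hzf]) hδ0 hδ
    ((h.tvA_of_suIn hMU hf hff).mem hff δ hδ)

end Herm
end Cfsg.Lib.Class.Form
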