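import Cfsg.Agent.Class.SU.Basic
import Cfsg.Agent.Class.UField
import Cfsg.Agent.Class.FieldAvg
import Cfsg.Agent.Class.FieldExt

/-!
Overgroups of `SU(V, K)` in `SU(V, F)` for a field extension `K/F` of odd prime degree whose point
stabilisers are semilinear on the point: the conjugates of an isotropic `K`-point form a partial
spread, so the group normalises `K`.
-/

set_option autoImplicit false
set_option linter.unusedSectionVars false

namespace Cfsg.Lib.Class.UFX

open Module Form FAvg TvP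

variable {F K V : Type*} [Field F] [Field K] [Algebra F K] [AddCommGroup V] [Module F V]
  [Module K V] [IsScalarTower F K V] {σ : F →+* F} {s : K →+* K} {B : V →ₛₗ[σ] V →ₗ[F] F}
  {C : V →ₛₗ[s] V →ₗ[K] K} {X : Subgroup (isomGroup B)}

/-- The `F`-linear automorphisms which are semilinear over `K`. -/
def semiK (F K V : Type*) [Field F] [Field K] [AddCommGroup V] [Module F V] [Module K V] :
    Subgroup (V ≃ₗ[F] V) where
  carrier := {g | ∃ τ : K ≃ K, ∀ k x, g (k • x) = τ k • g x}
  mul_mem' := by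
    rintro a b ⟨ρ, hρ⟩ ⟨τ, hτ⟩
    exact ⟨τ.trans ρ, fun k x => by simp [hρ, hτ]⟩
  one_mem' := ⟨1, fun _ _ => rfl⟩
  inv_mem' := by
    rintro a ⟨τ, hτ⟩
    exact ⟨τ.symm, fun k x => a.injective (by simp [hτ])⟩

omit [Algebra F K] [IsScalarTower F K V] in
theorem mem_semiK_of [Finite K] [Nontrivial V] {g : V ≃ₗ[F] V}
    (h : ∀ k : K, ∃ k' : K, ∀ x, g (k • x) = k' • g x) : g ∈ semiK F K V := by
  choose τ hτ using h
  obtain ⟨x, hx⟩ := exists_ne (0 : V)
  exact ⟨Equiv.ofBijective τ (Finite.injective_iff_bijective.1 fun k l hkl =>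
    smul_left_injective K hx (g.injective (by simp only [hτ, hkl]))), hτ⟩

/-- The sum of a product of two affine functions over a large elementary abelian group. -/
theorem sum_affine_mul {A : Type*} [AddCommGroup A] [Fintype A] {p : ℕ} [Fact p.Prime]
    [Module (ZMod p) A] [Algebra (ZMod p) F] (h3 : p ^ 3 ≤ Fintype.card A) (φ ψ : A →+ F)
    (a b : F) : ∑ t, (a + φ t) * (b + ψ t) = 0 := by
  have : Module.Finite (ZMod p) A := Module.Finite.of_finite
  have hp := (Fact.out : p.Prime)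
  have h4 : 3 ≤ finrank (ZMod p) A := by
    rw [Module.card_eq_pow_finrank (K := ZMod p), ZMod.card] at h3
    exact (Nat.pow_le_pow_iff_right hp.one_lt).1 h3
  refine (Module.forall_dual_apply_eq_zero_iff (ZMod p) _).1 fun l => ?_
  have h := ((PolyFn.const (d := 2) (l (a * b))).add ((PolyFn.linear
    (l ∘ₗ (LinearMap.mulLeft _ a ∘ₗ ψ.toZModLinearMap p +
      LinearMap.mulLeft _ b ∘ₗ φ.toZModLinearMap p))).mono one_le_two)).add
    (PolyFn.bilin (((LinearMap.mul (ZMod p) F).compl₁₂ (φ.toZModLinearMap p)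
      (ψ.toZModLinearMap p)).compr₂ l))
  rw [map_sum, ← h.sum_eq_zero (by
    have := hp.two_le
    rw [Nat.card_zmod]
    exact lt_of_lt_of_le (by norm_num) (Nat.mul_le_mul (show 1 ≤ _ by omega) h4))]
  refine Finset.sum_congr rfl fun t _ => ?_
  simp only [LinearMap.comp_apply, LinearMap.add_apply, LinearMap.mulLeft_apply,
    AddMonoidHom.coe_toZModLinearMap, LinearMap.compr₂_apply, LinearMap.compl₁₂_apply,
    LinearMap.mul_apply', ← map_add]
  congr 1
  ring

/-- `B` is the trace of the hermitian form `C` over the extension field `K` of odd prime degree. -/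
structure TrH (B : V →ₛₗ[σ] V →ₗ[F] F) (C : V →ₛₗ[s] V →ₗ[K] K) : Prop where
  hB : Herm B
  hC : Herm C
  tr : ∀ u v, B u v = Algebra.trace F K (C u v)
  ext : ∀ a, s (algebraMap F K a) = algebraMap F K (σ a)
  prime : (finrank F K).Prime
  three : 3 ≤ finrank F K
  two : 2 ≤ finrank K V

/-- The elements of trace zero. -/
def skew (s : K →+* K) : AddSubgroup K where
  carrier := {t | t + s t = 0}
  add_mem' {a b} ha hb := by
    simp only [Set.mem_ofPred_eq, map_add] at *
    linear_combination ha + hb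
  zero_mem' := by simp
  neg_mem' {a} ha := by
    simp only [Set.mem_ofPred_eq, map_neg] at *
    linear_combination -ha

namespace TrH

theorem fin (h : TrH B C) : FiniteDimensional K V :=
  Module.finite_of_finrank_pos (by have := h.two; omega)

theorem zero (h : TrH B C) {x y : V} (H : C x y = 0) : B x y = 0 := by rw [h.tr, H, map_zero]

/-- Restriction of scalars for isometries. -/
def res (h : TrH B C) : isomGroup C →* isomGroup B where
  toFun g := ⟨g.1.restrictScalars F, fun u v => by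
    change B (g.1 u) (g.1 v) = B u v
    rw [h.tr, h.tr, isom_apply]⟩
  map_one' := rfl
  map_mul' _ _ := rfl

@[simp] theorem res_apply (h : TrH B C) (g : isomGroup C) (x : V) : (h.res g).1 x = g.1 x := rfl

theorem s_smul (h : TrH B C) (c : F) (k : K) : s (c • k) = σ c • s k := by
  rw [Algebra.smul_def, Algebra.smul_def, map_mul, h.ext]

/-- An `F`-subspace of `K` containing the elements of trace zero is everything. -/
theorem mem_of_skew (h : TrH B C) {T : Submodule F K} (hT : ∀ t, t + s t = 0 → t ∈ T) (k : K) :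
    k ∈ T := by
  obtain ⟨ω, hω⟩ := DFunLike.ne_iff.1 h.hB.ne_id
  replace hω : ω - σ ω ≠ 0 := sub_ne_zero.2 (Ne.symm hω)
  have h1 : ∀ k, k - s k ∈ T := fun k => hT _ (by rw [map_sub, h.hC.invol]; ring)
  have h2 := T.smul_mem (ω - σ ω)⁻¹ (T.sub_mem (h1 (ω • k)) (T.smul_mem (σ ω) (h1 k)))
  rwa [h.s_smul, show ω • k - σ ω • s k - σ ω • (k - s k) = (ω - σ ω) • k by module, smul_smul,
    inv_mul_cancel₀ hω, one_smul] at h2

variable [Finite K]

theorem finiteF (_ : TrH B C) : Finite F := Finite.of_injective _ (algebraMap F K).injective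

theorem finF (h : TrH B C) : FiniteDimensional F V :=
  have := h.fin
  have : Finite V := Module.finite_of_finite K
  Module.Finite.of_finite

theorem eq_zero_of_forall (h : TrH B C) {x y : V} (H : ∀ k : K, B x (k • y) = 0) : C x y = 0 :=
  eq_of_trace (F := F) fun k => by
    rw [zero_mul, map_zero, mul_comm, ← smul_eq_mul, ← map_smul, ← h.tr, H]

theorem smul_left (h : TrH B C) (k : K) (x y : V) : B (k • x) y = B x (s k • y) := by
  simp [h.tr, map_smulₛₗ]

theorem exists_eq (h : TrH B C) {x y : V} (H : C x y ≠ 0) (c : F) : ∃ k : K, B x (k • y) = c := by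
  obtain ⟨k, hk⟩ : ∃ k : K, B x (k • y) ≠ 0 := by
    by_contra! hc
    exact H (h.eq_zero_of_forall hc)
  exact ⟨(c / B x (k • y)) • k, by rw [smul_assoc, map_smul, smul_eq_mul, div_mul_cancel₀ _ hk]⟩

theorem finrank_span (_ : TrH B C) {p : V} (hp : p ≠ 0) :
    finrank F ((Submodule.span K {p}).restrictScalars F) = finrank F K :=
  ((LinearEquiv.toSpanNonzeroSingleton K V p hp).restrictScalars F).finrank_eq.symm

theorem card_skew (h : TrH B C) : ringChar F ^ 3 ≤ Nat.card (skew s) := by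
  have := h.finiteF
  have := Fintype.ofFinite F
  have := Fintype.ofFinite K
  obtain ⟨q, hq, -⟩ := exists_card_eq_sq h.hB.ne_id h.hB.invol
  obtain ⟨Q, hQ, hs⟩ := exists_card_eq_sq h.hC.ne_id h.hC.invol
  have h1 : Nat.card (skew s) = Q := by
    rw [← card_trace_eq hQ (n := 0) (zero_pow (by rintro rfl; simp at hQ))]
    exact Nat.card_congr (Equiv.subtypeEquivRight fun x => by rw [← hs]; rfl)
  obtain ⟨n, hp, hn⟩ := FiniteField.card F (ringChar F)
  have h2 : ringChar F ≤ q := Nat.le_of_dvd (Nat.pos_of_ne_zero (by rintro rfl; simp at hq))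
    (hp.dvd_of_dvd_pow (n := 2) (by rw [← hq, hn]; exact dvd_pow_self _ n.ne_zero))
  rw [h1, ← Nat.pow_le_pow_iff_left two_ne_zero, ← hQ, Module.card_eq_pow_finrank (K := F), hq,
    ← pow_mul, mul_comm, pow_mul]
  exact (Nat.pow_le_pow_left (Nat.pow_le_pow_left h2 2) 3).trans
    (Nat.pow_le_pow_right (hq ▸ Fintype.card_pos) h.three)

/-- Averaging over the orbits of the unipotent radical of an isotropic `K`-point. -/
theorem sum_notMem_eq_zero (h : TrH B C) {p : V} (hp : C p p = 0) (hp0 : p ≠ 0) {S : Finset V}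
    (hS : ∀ u ∈ sIsom C, u.1 p = p → ∀ x ∈ S, u.1 x ∈ S)
    (hS' : ∀ x ∈ S, x ∉ Submodule.span K {p}) (β γ : V →ₗ[F] F) : ∑ x ∈ S, β x * γ x = 0 := by
  classical
  have := h.fin
  have := h.finiteF
  let a : V → K := fun x => if C p x = 0 then 1 else C p x
  have ha : ∀ x (k : K), a (x + k • p) = a x := fun x k => by simp [a, hp]
  have ha0 : ∀ x, a x ≠ 0 := fun x => by
    by_cases hx : C p x = 0 <;> simp [a, hx]
  let R : Setoid V := ⟨fun y x => ∃ t ∈ skew s, x + (t * a x) • p = y,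
    fun x => ⟨0, zero_mem _, by simp⟩,
    fun ⟨t, h, e⟩ => ⟨-t, neg_mem h, by rw [← e, ha]; module⟩,
    fun ⟨t, h, e⟩ ⟨t', h', e'⟩ => ⟨t + t', add_mem h h', by rw [← e, ← e', ha]; module⟩⟩
  refine Finset.sum_cancels_of_partition_cancels R fun x hx => ?_
  have := Fintype.ofFinite (skew s)
  have : Fact (ringChar F).Prime := ⟨CharP.char_is_prime F _⟩
  let ι : skew s →+ V := (LinearMap.toSpanSingleton K V (a x • p)).toAddMonoidHom.comp (skew s).subtype
  have hι : ∀ t : skew s, ι t = (t * a x) • p := fun t => (mul_smul _ _ _).symm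
  have : CharP K (ringChar F) := charP_of_injective_algebraMap (algebraMap F K).injective _
  let _ : Module (ZMod (ringChar F)) (skew s) :=
    AddCommGroup.zmodModule fun t => Subtype.ext (by simp)
  let _ := ZMod.algebra F (ringChar F)
  rw [← sum_affine_mul (A := skew s) (p := ringChar F)
    (Nat.card_eq_fintype_card (α := skew s) ▸ h.card_skew)
    (β.toAddMonoidHom.comp ι) (γ.toAddMonoidHom.comp ι) (β x) (γ x)]
  symm
  refine Finset.sum_bij (fun t _ => x + ι t) (fun t _ => Finset.mem_filter.2 ⟨?_, t, t.2, by rw [hι]⟩)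
    (fun t _ t' _ e => Subtype.ext (mul_right_cancel₀ (ha0 x) (smul_left_injective K hp0
      (by simpa only [hι, add_right_inj] using e)))) (fun y hy => ?_) fun t _ => by simp
  · rw [hι]
    by_cases hb : C p x = 0
    · obtain ⟨w, h1, h2⟩ := h.hC.exists_orth_of_notMem (hS' x hx)
      have h3 : C p ((s (-t / C w x)) • w) = 0 := by
        rw [map_smul, h.hC.comm (h1 p (Submodule.mem_span_singleton_self p)), smul_zero]
      obtain ⟨b, hb'⟩ := h.hC.exists_trace_eq (h.hC.conj (s (-t / C w x) • w) _)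
      have := hS _ (h.hC.eich_mem_sIsom hp h3 b hb') (by
        rw [h.hC.eich_apply, hp, h.hC.comm h3]; simp) x hx
      rw [h.hC.eich_apply, hb, map_smulₛₗ, h.hC.invol] at this
      convert this using 1
      simp only [a, hb, if_true, LinearMap.smul_apply, smul_eq_mul, div_mul_cancel₀ _ h2]
      module
    · have ht : (t : K) + s t = 0 := t.2
      have := hS _ (h.hC.transv_mem_sIsom p hp t ht) (by simp [h.hC.transv_apply, hp]) x hx
      rw [h.hC.transv_apply] at this
      simpa only [a, hb, if_false] using this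
  · obtain ⟨-, t, ht, rfl⟩ := Finset.mem_filter.1 hy
    exact ⟨⟨t, ht⟩, Finset.mem_univ _, by rw [hι]⟩

end TrH

/-- The stabilisers in `X` of the isotropic `K`-points act semilinearly on them. -/
def SemiPt (C : V →ₛₗ[s] V →ₗ[K] K) (X : Subgroup (isomGroup B)) : Prop :=
  ∀ p, C p p = 0 → p ≠ 0 → ∀ b ∈ X, (∀ k : K, b.1 (k • p) ∈ Submodule.span K {p}) →
    ∀ k : K, ∃ k' : K, ∀ l : K, b.1 (k • l • p) = k' • b.1 (l • p)

namespace TrH

variable [Finite K]

/-- The conjugates of an isotropic `K`-point form a partial spread. -/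
theorem spread (h : TrH B C) (hX : ∀ g ∈ sIsom C, h.res g ∈ X) (hS : SemiPt C X) {p : V}
    (hp : C p p = 0) {g : isomGroup B} (hg : g ∈ X) (hp0 : p ≠ 0)
    (hgp : g.1 p ∈ Submodule.span K {p}) (k : K) : g.1 (k • p) ∈ Submodule.span K {p} := by
  classical
  have := h.fin
  have := h.finF
  have := h.finiteF
  have : Finite V := Module.finite_of_finite K
  have := Fintype.ofFinite V
  have : FiniteDimensional F K := Module.Finite.of_finite
  have : Finite (isomGroup B) := Finite.of_injective (fun g (x : V) => g.1 x) fun _ _ e =>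
    isom_ext (congrFun e)
  by_contra hc
  set P := (Submodule.span K {p}).restrictScalars F with hP
  obtain ⟨g₀, ⟨hg₀, hg₀'⟩, hmax⟩ := Set.exists_max_image
    {g | g ∈ X ∧ ¬ P ≤ P.comap g.1.toLinearMap}
    (fun g => finrank F (P ⊓ P.comap g.1.toLinearMap : Submodule F V)) (Set.toFinite _)
    ⟨g, hg, fun H => hc (H (Submodule.smul_mem _ _ (Submodule.mem_span_singleton_self p)))⟩
  set J := P ⊓ P.comap g₀.1.toLinearMap with hJ
  obtain ⟨j, hj, hj0⟩ := Submodule.exists_mem_ne_zero_of_ne_bot (p := J) fun H => by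
    have h1 := hmax g ⟨hg, fun H => hc (H (Submodule.smul_mem _ _
      (Submodule.mem_span_singleton_self p)))⟩
    rw [H, finrank_bot, Nat.le_zero, Submodule.finrank_eq_zero, Submodule.eq_bot_iff] at h1
    exact hp0 (h1 p ⟨Submodule.mem_span_singleton_self p, hgp⟩)
  have hpj : Submodule.span K {j} = Submodule.span K {p} := by
    obtain ⟨c, rfl⟩ := Submodule.mem_span_singleton.1 hj.1
    exact Submodule.span_singleton_smul_eq (IsUnit.mk0 _ (left_ne_zero_of_smul hj0)) p
  have hj1 : C j j = 0 := by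
    obtain ⟨c, rfl⟩ := Submodule.mem_span_singleton.1 hj.1
    simp [hp]
  let ι : K →ₗ[F] V := (LinearMap.toSpanSingleton K V j).restrictScalars F
  have hι : ∀ k, ι k ∈ P := fun k =>
    hpj.le (Submodule.smul_mem _ _ (Submodule.mem_span_singleton_self j))
  have hι' : ∀ y ∈ P, ∃ k, ι k = y := fun y hy => Submodule.mem_span_singleton.1 (hpj.ge hy)
  obtain ⟨y, hy, β₀, hβ, hβ'⟩ := exists_sep (J := J.comap ι) fun H => hg₀' fun y hy => by
    obtain ⟨k, rfl⟩ := hι' y hy
    exact (H.ge (Submodule.mem_top (x := k))).2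
  obtain ⟨π, hπ⟩ := ι.exists_leftInverse_of_injective
    (LinearMap.ker_eq_bot.2 (smul_left_injective K hj0))
  have hπ' : ∀ k, π (ι k) = k := LinearMap.congr_fun hπ
  obtain ⟨γ, hγ, hγ'⟩ := LinearMap.exists_extend_of_notMem
    (0 : P.comap g₀.1.toLinearMap →ₗ[F] F) (fun H => hy ⟨hι y, H⟩) 1
  set S := Finset.univ.filter fun x => ∃ t ∈ X, (∀ v ∈ J, t.1 v = v) ∧ t.1 (ι y) = x with hSdef
  have key : ∀ g ∈ X, (∀ v ∈ J, g.1 v ∈ P) →
      ∑ x ∈ S, β₀ (π x) * γ x = ∑ x ∈ S with g.1 x ∈ P, β₀ (π x) * γ x := by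
    intro g hg hgJ
    rw [← Finset.sum_filter_add_sum_filter_not S fun x => g.1 x ∈ P, add_eq_left]
    have H := h.sum_notMem_eq_zero hp hp0
      (S := (S.filter fun x => g.1 x ∉ P).image g.1) ?_ ?_ (β₀ ∘ₗ π ∘ₗ (g⁻¹).1.toLinearMap)
      (γ ∘ₗ (g⁻¹).1.toLinearMap)
    · rw [Finset.sum_image fun _ _ _ _ H => g.1.injective H] at H
      simpa using H
    · intro u hu hup x hx
      have hu' : ∀ v ∈ P, u.1 v = v := fun v hv => by
        obtain ⟨c, rfl⟩ := Submodule.mem_span_singleton.1 hv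
        rw [map_smul, hup]
      obtain ⟨z, hz, rfl⟩ := Finset.mem_image.1 hx
      obtain ⟨hz', hx'⟩ := Finset.mem_filter.1 hz
      obtain ⟨t, ht, ht', rfl⟩ := (Finset.mem_filter.1 hz').2
      refine Finset.mem_image.2 ⟨(g⁻¹ * h.res u * g * t).1 (ι y), Finset.mem_filter.2
        ⟨Finset.mem_filter.2 ⟨Finset.mem_univ _, _, X.mul_mem (X.mul_mem (X.mul_mem (X.inv_mem hg)
          (hX _ hu)) hg) ht, fun v hv => ?_, rfl⟩, fun H => hx' ?_⟩, by simp⟩
      · simp [ht' v hv, hu' _ (hgJ v hv)]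
      · simp only [isom_mul_apply, isom_apply_inv, res_apply] at H
        rwa [← u.1.injective (hu' _ H)]
    · intro x hx
      obtain ⟨z, hz, rfl⟩ := Finset.mem_image.1 hx
      exact (Finset.mem_filter.1 hz).2
  have k1 := key 1 X.one_mem fun v hv => hv.1
  rw [key g₀ hg₀ fun v hv => hv.2, Finset.sum_eq_zero fun x hx => by
    rw [show γ x = 0 from LinearMap.congr_fun hγ ⟨x, (Finset.mem_filter.1 hx).2⟩, mul_zero],
    Finset.sum_eq_single_of_mem (s := S.filter fun x => (1 : isomGroup B).1 x ∈ P) (ι y)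
      (Finset.mem_filter.2 ⟨Finset.mem_filter.2
      ⟨Finset.mem_univ _, 1, X.one_mem, fun _ _ => rfl, rfl⟩, hι y⟩), hπ', hβ, hγ'] at k1
  · simp at k1
  intro x hx hxy
  obtain ⟨hx, hx'⟩ := Finset.mem_filter.1 hx
  obtain ⟨t, ht, ht', rfl⟩ := (Finset.mem_filter.1 hx).2
  have htP : P ≤ P.comap t.1.toLinearMap := by
    by_contra H
    refine (hmax t ⟨ht, H⟩).not_gt (Submodule.finrank_lt_finrank_of_lt (lt_of_le_of_ne
      (fun v hv => ⟨hv.1, show t.1 v ∈ P from (ht' v hv).symm ▸ hv.1⟩) fun H' => hy ?_))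
    exact H'.ge ⟨hι y, hx'⟩
  choose τ hτ using hS j hj1 hj0 t ht fun k => hpj.ge (htP (hι k))
  have h1 : ∀ k, t.1 (k • j) = τ k • j := fun k => by simpa [ht' j hj] using hτ k 1
  have h2 := smul_left_injective K hj0
  let τ' : K →ₐ[F] K :=
    { toFun := τ
      map_one' := h2 (by simp only [← h1, one_smul, ht' j hj])
      map_mul' := fun a b => h2 (by simp only [← h1, mul_smul, hτ])
      map_zero' := h2 (by simp only [← h1, zero_smul, map_zero])
      map_add' := fun a b => h2 (by simp only [← h1, add_smul, map_add])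
      commutes' := fun c => h2 (by simp only [← h1, algebraMap_smul, map_smul, ht' j hj]) }
  have h3 : t.1 (ι y) = ι (τ' y) := h1 y
  rw [h3, hπ', hβ' τ' (fun k hk => h2 ((h1 k).symm.trans (ht' _ hk))) fun H => hxy (by rw [h3, H]),
    zero_mul]

theorem exists_apply_eq (h : TrH B C) {p x : V} (hp : C p p = 0) (hp0 : p ≠ 0) (hx : C x x = 0)
    (hx0 : x ≠ 0) : ∃ t ∈ sIsom C, ∃ c : K, t.1 x = c • p := by
  have := h.fin
  obtain ⟨f, hf, hpf⟩ := h.hC.exists_hyperbolic hp0 hp
  obtain ⟨y, hy, hxy⟩ := h.hC.exists_hyperbolic hx0 hx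
  obtain ⟨t, ⟨c, hc⟩, -⟩ := h.hC.exists_sIsom_hyp hx hy (hxy ▸ one_ne_zero) hp hf
    (hpf ▸ one_ne_zero)
  exact ⟨t, t.2, c, hc.symm⟩

theorem exists_ne_ne (h : TrH B C) {p x : V} (hp : C p p = 0) (hp0 : p ≠ 0) (hx : C x x = 0)
    (hx0 : x ≠ 0) : ∃ z, C z z = 0 ∧ C p z ≠ 0 ∧ C x z ≠ 0 := by
  have := h.fin
  by_cases hpx : C p x = 0
  · exact h.hC.exists_isotropic_ne_ne hp0 hx0 hp hpx
  obtain ⟨δ, h0, hδ⟩ := h.hC.exists_trace_zero
  have h1 := h.hC.ne_comm hpx
  refine ⟨p + (δ / C p x) • x, ?_, by simpa [hp, hpx], by simpa [hx]⟩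
  simp only [map_add, map_smulₛₗ, LinearMap.add_apply, LinearMap.smul_apply, hp, hx, smul_eq_mul,
    RingHom.id_apply, map_div₀, h.hC.conj]
  rw [div_mul_cancel₀ _ h1, mul_zero, add_zero, div_mul_cancel₀ _ hpx]
  linear_combination hδ

/-- `X` contains the `K`-linear special isometries of `B`. -/
def HX (h : TrH B C) (X : Subgroup (isomGroup B)) : Prop :=
  ∀ g : isomGroup C, Algebra.norm F (LinearEquiv.det g.1 : K) = 1 → h.res g ∈ X

theorem HX.mem {h : TrH B C} (hX : h.HX X) (g : isomGroup C) (hg : g ∈ sIsom C) : h.res g ∈ X :=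
  hX g (by rw [mem_sIsom'.1 hg, map_one])

/-- The case `SU_2(8) < SU_6(2)` is excluded. -/
def Big (_ : TrH B C) : Prop :=
  3 ≤ finrank K V ∨ ∃ μ : K, s μ * μ = 1 ∧ Algebra.norm F μ = 1 ∧ μ ∉ Set.range (algebraMap F K)

theorem iso_apply (h : TrH B C) (hX : h.HX X) (hb : h.Big) (hS : SemiPt C X) {p : V}
    (hp : C p p = 0) {g : isomGroup B} (hg : g ∈ X) : C (g.1 p) (g.1 p) = 0 := by
  have := h.fin
  have := h.finF
  by_contra hx
  have hp0 : p ≠ 0 := by rintro rfl; simp at hx
  set P := ((Submodule.span K {p}).restrictScalars F).map g.1.toLinearMap with hP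
  have hPr : finrank F P = finrank F K := by
    rw [hP, LinearEquiv.finrank_map_eq, h.finrank_span hp0]
  have hxP : g.1 p ∈ P := ⟨p, Submodule.mem_span_singleton_self p, rfl⟩
  have hst : ∀ t ∈ X, t.1 (g.1 p) = g.1 p → ∀ y ∈ P, t.1 y ∈ P := by
    rintro t ht e _ ⟨y, hy, rfl⟩
    obtain ⟨k, rfl⟩ := Submodule.mem_span_singleton.1 hy
    exact ⟨_, h.spread hX.mem hS hp (X.mul_mem (X.mul_mem (X.inv_mem hg) ht) hg) hp0
      (by simp [e]) k, by simp⟩
  have hPP : ∀ y ∈ P, ∀ z ∈ P, B y z = 0 := by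
    rintro _ ⟨y, hy, rfl⟩ _ ⟨z, hz, rfl⟩
    obtain ⟨k, rfl⟩ := Submodule.mem_span_singleton.1 hy
    obtain ⟨l, rfl⟩ := Submodule.mem_span_singleton.1 hz
    exact (isom_apply g _ _).trans (h.zero (by simp [hp]))
  generalize g.1 p = x at hx hxP hst
  have key : ∀ e, e ≠ 0 → ∃ y ∈ Submodule.span K {e}, y ∉ P := fun e he => by
    by_contra! hc
    have h1 := Submodule.eq_of_le_of_finrank_eq
      (show (Submodule.span K {e}).restrictScalars F ≤ P from hc) (by rw [hPr, h.finrank_span he])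
    obtain ⟨c, rfl⟩ := Submodule.mem_span_singleton.1 (h1.ge hxP)
    have h2 := Submodule.mem_span_singleton_self (R := K) e
    simp [h.eq_zero_of_forall fun k => hPP _ (hc _ h2) _ (hc _ (Submodule.smul_mem _ k h2))] at hx
  have hx0 : x ≠ 0 := by rintro rfl; simp at hx
  obtain ⟨y, hy, hy'⟩ := SetLike.not_le_iff_exists.1
    (show ¬ P ≤ (Submodule.span K {x}).restrictScalars F from fun H => by
      obtain ⟨y, h1, h2⟩ := key x hx0
      exact h2 ((Submodule.eq_of_le_of_finrank_eq H (by rw [hPr, h.finrank_span hx0])).ge h1))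
  have hnd := h.hC.nondegOn_orth (Good.nondegOn_span_singleton hx)
  have hd := h.hC.finrank_orth (Submodule.span K {x})
  rw [finrank_span_singleton hx0] at hd
  by_cases h3 : 3 ≤ finrank K V
  · obtain ⟨e, h1, he, h2⟩ : ∃ e ∈ orth C (Submodule.span K {x}), C e e = 0 ∧ C e y ≠ 0 := by
      by_contra! hc
      have h1 := h.hC.le_of_isotropic (T := orth C (Submodule.span K {y})) hnd (by omega)
        fun v hv hvv => mem_orth_span_singleton.2 (h.hC.comm (hc v hv hvv))
      refine hy' (show y ∈ Submodule.span K {x} from ?_)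
      rw [← h.hC.orth_orth (Submodule.span K {x})]
      exact fun u hu => h.hC.comm (mem_orth_span_singleton.1 (h1 hu))
    obtain ⟨_, hz, hz'⟩ := key e (by rintro rfl; simp at h2)
    obtain ⟨k, rfl⟩ := Submodule.mem_span_singleton.1 hz
    have h4 := h.mem_of_skew (T := P.comap
      ((LinearMap.toSpanSingleton K V (C e y • e)).restrictScalars F)) (fun t ht => by
        have h5 := P.sub_mem (hst _ (hX.mem _ (h.hC.transv_mem_sIsom e he t ht)) (by
          simp [h.hC.transv_apply, h.hC.comm (mem_orth_span_singleton.1 h1)]) y hy) hy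
        simpa [h.hC.transv_apply, mul_smul] using h5) (k / C e y)
    exact hz' (by simpa [smul_smul, h2] using h4)
  obtain ⟨μ, h1, h2, h4⟩ := hb.resolve_left h3
  obtain ⟨d, hd'⟩ : ∃ d, d = y - (C x y / C x x) • x := ⟨_, rfl⟩
  have h5 : C x d = 0 := by simp [hd', hx]
  have h6 : d ≠ 0 := fun e => hy' (Submodule.mem_span_singleton.2 ⟨_, (sub_eq_zero.1 (hd' ▸ e)).symm⟩)
  have h7 : C d d ≠ 0 := fun e => h6 (hnd d (mem_orth_span_singleton.2 h5) fun v hv => by
    obtain ⟨c, rfl⟩ := Submodule.mem_span_singleton.1 ((Submodule.eq_of_le_of_finrank_eq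
      ((Submodule.span_singleton_le_iff_mem _ _).2 (mem_orth_span_singleton.2 h5))
      (by rw [finrank_span_singleton h6]; have := h.two; omega)).ge hv)
    simp [e])
  have h8 := hst _ (hX _ (by rw [h.hC.det_qrefl d h7 μ h1, h2]))
    (h.hC.qrefl_apply_of_orth h7 μ h1 (h.hC.comm h5))
  obtain ⟨z, hz, hz'⟩ := FE.exists_smul_notMem h.prime
    (W := P ⊓ (Submodule.span K {d}).restrictScalars F) (v := d) (fun _ hy => hy.2) (fun e => by
      have h9 := P.sub_mem (h8 y hy) hy
      have h10 : C d y = C d d := by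
        conv_rhs => enter [2]; rw [hd']
        simp [h.hC.comm h5]
      rw [res_apply, h.hC.qrefl_apply, add_sub_cancel_left, h10, div_mul_cancel₀ _ h7] at h9
      have h11 := e.le (show (μ - 1) • d ∈ _ from
        ⟨h9, Submodule.smul_mem _ _ (Submodule.mem_span_singleton_self d)⟩)
      exact h4 ⟨1, by
        rw [map_one, sub_eq_zero.1 ((smul_eq_zero.1 h11).resolve_right h6)]⟩)
    ((key d h6).imp fun _ hy => ⟨hy.1, fun e => hy.2 e.1⟩) h4
  refine hz' ⟨?_, Submodule.smul_mem (Submodule.span K {d}) _ hz.2⟩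
  obtain ⟨c, rfl⟩ := Submodule.mem_span_singleton.1 hz.2
  have h9 := h8 _ hz.1
  rwa [res_apply, map_smul, h.hC.qrefl_apply_self, smul_comm] at h9

theorem mem_semiK (h : TrH B C) (hX : h.HX X) (hb : h.Big) (hS : SemiPt C X) {g : isomGroup B}
    (hg : g ∈ X) : g.1 ∈ semiK F K V := by
  have := h.fin
  have H : ∀ p, C p p = 0 → p ≠ 0 → ∀ k : K, ∃ k' : K, ∀ l : K,
      g.1 (k • l • p) = k' • g.1 (l • p) := by
    intro p hp hp0 k
    obtain ⟨t, ht, c, hc⟩ := h.exists_apply_eq hp hp0 (h.iso_apply hX hb hS hp hg)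
      (by simpa using hp0)
    have h1 := X.mul_mem (hX.mem t ht) hg
    obtain ⟨k', hk'⟩ := hS p hp hp0 _ h1 (h.spread hX.mem hS hp h1 hp0
      (Submodule.mem_span_singleton.2 ⟨c, hc.symm⟩)) k
    exact ⟨k', fun l => t.1.injective (by simpa using hk' l)⟩
  choose! τ hτ using H
  have H : ∀ p p', C p p = 0 → C p' p' = 0 → C p p' ≠ 0 → ∀ k, s (τ p k) = τ p' (s k) := by
    intro p p' hp hp' hpp k
    have hp0 : p ≠ 0 := by rintro rfl; simp at hpp
    have hp0' : p' ≠ 0 := by rintro rfl; simp at hpp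
    by_contra hc
    refine hpp (h.eq_zero_of_forall fun l => ?_)
    have h0 : ∀ a, g.1 (a • p') = τ p' a • g.1 p' := fun a => by simpa using hτ p' hp' hp0' a 1
    obtain ⟨m, hm⟩ : ∃ m, τ p' m = (s (τ p k) - τ p' (s k))⁻¹ * τ p' l :=
      Finite.injective_iff_surjective.1 (fun a b hab => smul_left_injective K hp0' (g.1.injective
        (by simp only [h0, hab]))) _
    have h1 := isom_apply g (k • (1 : K) • p) (m • p')
    rw [h.smul_left, ← isom_apply g ((1 : K) • p), hτ p hp hp0, hτ p' hp' hp0', h.smul_left,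
      ← sub_eq_zero, ← map_sub, ← sub_smul, h0, hm, smul_smul,
      mul_inv_cancel_left₀ (sub_ne_zero.2 hc), ← h0, isom_apply] at h1
    simpa using h1
  obtain ⟨e, he0, he⟩ := h.hC.exists_isotropic h.two
  have : Nontrivial V := ⟨e, 0, he0⟩
  refine mem_semiK_of fun k => ⟨τ e k, fun x => ?_⟩
  let T : Submodule K V :=
    { carrier := {x | ∀ l : K, g.1 (k • l • x) = τ e k • g.1 (l • x)}
      add_mem' := fun ha hb l => by simp only [smul_add, map_add, ha l, hb l]
      zero_mem' := fun l => by simp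
      smul_mem' := fun c x hx l => by simpa only [mul_smul] using hx (l * c) }
  have h1 : T = ⊤ := h.hC.eq_top_of_isotropic h.two fun p hp l => by
    by_cases hp0 : p = 0
    · simp [hp0]
    obtain ⟨z, hz, h1, h2⟩ := h.exists_ne_ne hp hp0 he he0
    rw [s.injective ((H e z he hz h2 k).trans (H p z hp hz h1 k).symm), hτ p hp hp0]
  simpa using h1.ge (Submodule.mem_top (x := x)) 1

end TrH

end Cfsg.Lib.Class.UFX
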