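import Cfsg.Agent.Class.SU.FieldA

/-!
The normaliser in `SU(V, F)` of an adjoint-closed extension field `K` of odd prime degree is maximal
if `V` has dimension at least two over `K`.
-/

set_option autoImplicit false
set_option linter.unusedSectionVars false

namespace Cfsg.Lib.Class.UFX

open Module Form FAvg TvP

variable {F K V : Type*} [Field F] [Field K] [Algebra F K] [AddCommGroup V] [Module F V]
  [Module K V] [IsScalarTower F K V] {σ : F →+* F} {s : K →+* K} {B : V →ₛₗ[σ] V →ₗ[F] F}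
  {C : V →ₛₗ[s] V →ₗ[K] K} {X : Subgroup (isomGroup B)}

/-- The elements of `X` in the centre of the unipotent radical of the point `K p`. -/
def cen (X : Subgroup (isomGroup B)) {p : V} (hp : C p p = 0) : AddSubgroup (End F K) where
  carrier := {A | ∃ g ∈ X, ∀ x, g.1 x = x + A (C p x) • p}
  zero_mem' := ⟨1, X.one_mem, by simp⟩
  add_mem' := by
    rintro A A' ⟨a, ha, ea⟩ ⟨b, hb, eb⟩
    refine ⟨_, X.mul_mem ha hb, fun x => ?_⟩
    simp only [isom_mul_apply, eb, ea, map_add, map_smul, hp, smul_zero, add_zero,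
      LinearMap.add_apply]
    module
  neg_mem' := by
    rintro A ⟨a, ha, ea⟩
    refine ⟨_, X.inv_mem ha, fun x => a.1.injective ?_⟩
    rw [isom_apply_inv, ea]
    simp [hp]

theorem cen_conj {p : V} {hp : C p p = 0} {b : isomGroup B} (hb : b ∈ X) {β γ : End F K}
    (h1 : ∀ k : K, b.1 (k • p) = β k • p) (h2 : ∀ x, C p ((b⁻¹).1 x) = γ (C p x)) {A : End F K}
    (hA : A ∈ cen X hp) : β * A * γ ∈ cen X hp := by
  obtain ⟨a, ha, ea⟩ := hA
  refine ⟨_, X.mul_mem (X.mul_mem hb ha) (X.inv_mem hb), fun x => ?_⟩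
  rw [isom_mul_apply, isom_mul_apply, ea, map_add, isom_apply_inv, h1, h2]
  rfl

theorem span_conj {S : Set (End F K)} {β γ : End F K} (h : ∀ A ∈ S, β * A * γ ∈ S) {A : End F K}
    (hA : A ∈ Submodule.span F S) : β * A * γ ∈ Submodule.span F S := by
  induction hA using Submodule.span_induction with
  | mem A hA => exact Submodule.subset_span (h A hA)
  | zero => simp
  | add A A' _ _ h1 h2 => simpa only [mul_add, add_mul] using add_mem h1 h2
  | smul c A _ h1 => simpa using Submodule.smul_mem _ c h1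

/-- The ring of left multipliers of a space of endomorphisms. -/
def leftRing (M : Submodule F (End F K)) : Subring (End F K) where
  carrier := {ρ | ∀ A ∈ M, ρ * A ∈ M}
  mul_mem' ha hb A hA := by rw [mul_assoc]; exact ha _ (hb A hA)
  one_mem' A hA := by rwa [one_mul]
  add_mem' ha hb A hA := by rw [add_mul]; exact add_mem (ha A hA) (hb A hA)
  zero_mem' A _ := by simp
  neg_mem' ha A hA := neg_mem (ha A hA)

/-- `A'` is the negative of the adjoint of `A`. -/
def Rel (s : K →+* K) (A A' : End F K) : Prop :=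
  ∀ x y, Algebra.trace F K (s (A x) * y) + Algebra.trace F K (s x * A' y) = 0

namespace TrH

theorem exists_fixed (h : TrH B C) (a : K) :
    ∃ μ ν : K, ∃ c : F, s μ = μ ∧ s ν = ν ∧ a = μ + c • ν := by
  obtain ⟨ω, hω⟩ := DFunLike.ne_iff.1 h.hB.ne_id
  replace hω : ω - σ ω ≠ 0 := sub_ne_zero.2 (Ne.symm hω)
  have h1 : ∀ k, s ((ω - σ ω)⁻¹ • (k - s k)) = (ω - σ ω)⁻¹ • (k - s k) := fun k => by
    rw [h.s_smul, map_inv₀, map_sub, map_sub, h.hC.invol, h.hB.invol, ← neg_sub ω, ← neg_sub k,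
      inv_neg, neg_smul_neg]
  refine ⟨_, _, -σ ω, h1 (ω • a), h1 a, ?_⟩
  rw [h.s_smul, smul_comm, ← smul_add, show ω • a - σ ω • s a + -σ ω • (a - s a) = (ω - σ ω) • a by
    module, smul_smul, inv_mul_cancel₀ hω, one_smul]

variable [Finite K]

theorem mul_mem_cen (h : TrH B C) {p : V} {hp : C p p = 0} {t : isomGroup B} (ht : t ∈ X) {l : K}
    (h1 : ∀ k : K, t.1 (k • p) = (l * k) • p) {A : End F K} (hA : A ∈ cen X hp) :
    LinearMap.mulLeft F l * A * LinearMap.mulLeft F (s l) ∈ cen X hp :=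
  cen_conj ht h1 (fun x => eq_of_trace (F := F) fun k => by
    have := isom_apply_left t (s k • p) x
    rw [h1, h.tr, h.tr] at this
    simp only [map_smulₛₗ, h.hC.invol, LinearMap.smul_apply, smul_eq_mul, map_mul] at this
    rw [mul_comm, ← this, LinearMap.mulLeft_apply]
    ring_nf) hA

theorem exists_tor (h : TrH B C) (hX : h.HX X) {p : V} (hp : C p p = 0) (hp0 : p ≠ 0) {l : K}
    (hl : l ≠ 0) (h1 : 3 ≤ finrank K V ∨ Algebra.norm F (l * (s l)⁻¹) = 1) :
    ∃ t ∈ X, ∀ k : K, t.1 (k • p) = (l * k) • p := by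
  have := h.fin
  obtain ⟨f, hf, hpf⟩ := h.hC.exists_hyperbolic hp0 hp
  have h2 : s l * (s l)⁻¹ = 1 := mul_inv_cancel₀ (by simpa)
  have h3 := h.hC.hypDiag_apply_left hp hf hpf l _ h2
  rcases h1 with h1 | h1
  · obtain ⟨d, h4, hd⟩ := h.hC.exists_nonisotropic_orth_of_lt (W := Submodule.span K {p})
      (by rw [finrank_span_singleton hp0]; omega)
    obtain ⟨μ, hμ, h5⟩ := h.hC.exists_mul_qrefl_mem hd (h.hC.hypDiag hp hf hpf l _ h2)
    exact ⟨_, hX.mem _ h5, fun k => by
      rw [res_apply, map_smul, isom_mul_apply, h.hC.qrefl_apply_of_orth hd μ hμ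
        (h.hC.comm (mem_orth_span_singleton.1 h4)), h3, smul_smul, mul_comm]⟩
  · exact ⟨_, hX _ (by rw [h.hC.det_hypDiag hp hf hpf l _ h2, h1]), fun k => by
      rw [res_apply, map_smul, h3, smul_smul, mul_comm]⟩

theorem sq_mem_cen (h : TrH B C) (hX : h.HX X) {p : V} {hp : C p p = 0} (hp0 : p ≠ 0) {μ : K}
    (hμ : s μ = μ) {A : End F K} (hA : A ∈ cen X hp) :
    LinearMap.mulLeft F μ * A * LinearMap.mulLeft F μ ∈ cen X hp := by
  by_cases h0 : μ = 0
  · simp [h0]
  obtain ⟨t, ht, h1⟩ := h.exists_tor hX hp hp0 h0 (.inr (by rw [hμ, mul_inv_cancel₀ h0, map_one]))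
  simpa only [hμ] using h.mul_mem_cen ht h1 hA

theorem mulLeft_mem (h : TrH B C) (hX : h.HX X) (hb : h.Big) {p : V} (hp : C p p = 0) (hp0 : p ≠ 0)
    (k : K) : LinearMap.mulLeft F k ∈ leftRing (Submodule.span F (cen X hp : Set (End F K))) := by
  set M := Submodule.span F (cen X hp : Set (End F K))
  have h1 : ∀ μ, s μ = μ → ∀ A ∈ M, LinearMap.mulLeft F μ * A * LinearMap.mulLeft F μ ∈ M :=
    fun μ hμ A => span_conj fun _ => h.sq_mem_cen hX hp0 hμ
  have h2 : ∀ a, ∀ A ∈ M, LinearMap.mulLeft F a * A * LinearMap.mulLeft F a ∈ M := fun a A hA => by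
    obtain ⟨μ, ν, c, hμ, hν, rfl⟩ := h.exists_fixed a
    convert add_mem (add_mem (h1 μ hμ A hA) (M.smul_mem (c * c) (h1 ν hν A hA))) (M.smul_mem c
      (sub_mem (sub_mem (h1 (μ + ν) (by rw [map_add, hμ, hν]) A hA) (h1 μ hμ A hA)) (h1 ν hν A hA)))
      using 1
    ext x
    simp only [End.mul_apply, LinearMap.mulLeft_apply, LinearMap.add_apply, LinearMap.smul_apply,
      LinearMap.sub_apply, add_mul, smul_mul_assoc, map_add, map_smul]
    module
  obtain ⟨μ, h3, h4, h5⟩ : ∃ μ : K, s μ * μ = 1 ∧ (3 ≤ finrank K V ∨ Algebra.norm F μ = 1) ∧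
      μ ∉ Set.range (algebraMap F K) := by
    rcases hb with hb | ⟨μ, h3, h4, h5⟩
    · by_contra! hc
      obtain ⟨a, ha⟩ := FE.exists_notMem_range (F := F) (K := K) h.prime.two_le
      have := smul_mem_of_normOne h.hC.ne_id h.hC.invol
        (A := (algebraMap F K).range.toAddSubgroup) (d := (1 : K))
        (fun μ hμ => by simpa using hc μ hμ (.inl hb)) a
      exact ha (by simpa using this)
    · exact ⟨μ, h3, .inr h4, h5⟩
  obtain ⟨l, hl, h6⟩ := exists_div_eq_of_norm_one h.hC.ne_id h.hC.invol (μ := s μ)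
    (by rw [h.hC.invol, mul_comm, h3])
  have hl' : s l ≠ 0 := by simpa
  have h7 : l * (s l)⁻¹ = μ := by
    rw [mul_inv_eq_iff_eq_mul₀ hl', h6]
    linear_combination -l * h3
  obtain ⟨t, ht, h8⟩ := h.exists_tor hX hp hp0 hl (h7 ▸ h4)
  let E : Subalgebra F K :=
    { carrier := {k | LinearMap.mulLeft F k ∈ leftRing M}
      mul_mem' := fun ha hb => by
        rw [Set.mem_ofPred_eq, LinearMap.mulLeft_mul]; exact mul_mem ha hb
      add_mem' := fun {a b} ha hb => by
        have : LinearMap.mulLeft F (a + b) = LinearMap.mulLeft F a + LinearMap.mulLeft F b :=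
          LinearMap.ext (add_mul a b)
        rw [Set.mem_ofPred_eq, this]; exact add_mem ha hb
      algebraMap_mem' := fun c A hA => by
        convert M.smul_mem c hA using 1
        ext x
        simp [Algebra.smul_def] }
  have h9 : μ ∈ E := fun A hA => by
    convert span_conj (fun _ => h.mul_mem_cen (hp := hp) ht h8) (h2 (s l)⁻¹ A hA) using 1
    ext x
    simp [← h7, hl', mul_assoc]
  rcases (Subalgebra.isSimpleOrder_of_finrank_prime F K h.prime).eq_bot_or_eq_top E with hE | hE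
  · exact absurd (Algebra.mem_bot.1 (hE ▸ h9)) h5
  · exact (hE ▸ Algebra.mem_top : k ∈ E)

theorem exists_dual (h : TrH B C) {p : V} (hp : C p p = 0) (hp0 : p ≠ 0) {b : isomGroup B}
    {β : K → K} (h1 : ∀ k : K, b.1 (k • p) = β k • p) :
    ∃ γ : End F K, ∀ x, C p ((b⁻¹).1 x) = γ (C p x) := by
  obtain ⟨f, -, hpf⟩ := h.hC.exists_hyperbolic hp0 hp
  refine ⟨(C p).restrictScalars F ∘ₗ (b⁻¹).1.toLinearMap ∘ₗ
    (LinearMap.toSpanSingleton K V f).restrictScalars F, fun x => ?_⟩
  change _ = C p ((b⁻¹).1 (C p x • f))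
  rw [← sub_eq_zero, ← map_sub, ← map_sub]
  refine h.eq_zero_of_forall fun k => ?_
  rw [← h.hC.invol k, ← h.smul_left, ← isom_apply_left, h1]
  exact h.zero (by simp [hpf])

theorem span_cen_eq_top (h : TrH B C) (hX : h.HX X) (hb' : h.Big) {p : V} (hp : C p p = 0)
    (hp0 : p ≠ 0) {b : isomGroup B} (hb : b ∈ X)
    (h1 : ∀ k : K, b.1 (k • p) ∈ Submodule.span K {p}) {k : K}
    (hk : ∀ k' : K, ∃ l : K, b.1 (k • l • p) ≠ k' • b.1 (l • p)) (A : End F K) :
    A ∈ Submodule.span F (cen X hp : Set (End F K)) := by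
  have := h.fin
  have hi := smul_left_injective K hp0
  choose τ hτ using fun k => Submodule.mem_span_singleton.1 (h1 k)
  let β : End F K :=
    { toFun := τ
      map_add' := fun a b => hi (by simp only [hτ, add_smul, map_add])
      map_smul' := fun c a => hi (by simp only [hτ, smul_assoc, map_smul, RingHom.id_apply]) }
  let e := LinearEquiv.ofBijective β (Finite.injective_iff_bijective.1 fun a c hac =>
    hi (b.1.injective ((hτ a).symm.trans ((congrArg (· • p) hac).trans (hτ c)))))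
  have h2 : ∀ k : K, b.1 (k • p) = e k • p := fun k => (hτ k).symm
  have h3 : ∀ k : K, (b⁻¹).1 (k • p) = e.symm k • p := fun k =>
    b.1.injective (by rw [isom_apply_inv, h2, e.apply_symm_apply])
  obtain ⟨γ, h4⟩ := h.exists_dual hp hp0 h2
  obtain ⟨γ', h5⟩ := h.exists_dual hp hp0 h3
  have h6 : γ' * γ = 1 := LinearMap.ext fun y => by
    obtain ⟨f, -, hpf⟩ := h.hC.exists_hyperbolic hp0 hp
    have := h5 ((b⁻¹).1 (y • f))
    rw [h4, inv_inv, isom_apply_inv] at this
    simpa [hpf] using this.symm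
  have h7 := subring_end_eq_top h.prime _ (h.mulLeft_mem hX hb' hp hp0)
    (ρ := e ∘ₗ LinearMap.mulLeft F k ∘ₗ e.symm) (fun A hA => ?_) fun k' H => ?_
  · obtain ⟨δ, h0, hδ⟩ := h.hC.exists_trace_zero
    convert h7.ge (Subring.mem_top (A * LinearMap.mulLeft F δ⁻¹)) (LinearMap.mulLeft F δ)
      (Submodule.subset_span ⟨_, hX.mem _ (h.hC.transv_mem_sIsom p hp δ hδ), fun x =>
        h.hC.transv_apply p hp δ hδ x⟩) using 1
    ext x
    simp [h0]
  · convert span_conj (fun _ => cen_conj (hp := hp) hb (β := e) h2 h4) (h.mulLeft_mem hX hb' hp hp0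
      k _ (span_conj (fun _ => cen_conj (hp := hp) (X.inv_mem hb) (β := e.symm) h3 h5) hA)) using 1
    simp only [mul_assoc, h6, mul_one]
    rfl
  · obtain ⟨l, hl⟩ := hk k'
    have h4 := LinearMap.congr_fun H (e l)
    simp only [LinearMap.comp_apply, LinearEquiv.coe_coe, e.symm_apply_apply,
      LinearMap.mulLeft_apply] at h4
    exact hl (by rw [smul_smul, h2, h2, h4, mul_smul])

theorem rel_of_isom (h : TrH B C) {p : V} (hp : C p p = 0) (hp0 : p ≠ 0) {g : isomGroup B}
    {A : End F K} (e : ∀ x, g.1 x = x + A (C p x) • p) : Rel s A A := fun x y => by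
  obtain ⟨f, -, hpf⟩ := h.hC.exists_hyperbolic hp0 hp
  have hfp : C f p = 1 := by rw [← h.hC.conj, hpf, map_one]
  have := isom_apply g (x • f) (y • f)
  simp only [e, h.tr, map_add, map_smulₛₗ, LinearMap.add_apply, LinearMap.smul_apply, hp, hpf, hfp,
    smul_eq_mul, mul_one, mul_zero, RingHom.id_apply, map_zero, add_zero] at this
  rw [mul_comm y, mul_comm (A y), mul_comm y] at this
  linear_combination this

theorem smul_mem_cen (h : TrH B C) (hX : h.HX X) {p : V} {hp : C p p = 0} (hp0 : p ≠ 0) {c : F}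
    (hc : σ c = c) {A : End F K} (hA : A ∈ cen X hp) : c • A ∈ cen X hp := by
  have := h.finiteF
  have h1 : ∀ l, σ l = l → (l * l) • A ∈ cen X hp := fun l hl => by
    convert h.sq_mem_cen hX hp0 (μ := algebraMap F K l) (by rw [h.ext, hl]) hA using 1
    ext x
    simp [← Algebra.smul_def, mul_smul]
  by_cases h2 : (2 : F) = 0
  · have : CharP F 2 := (CharP.charP_iff_prime_eq_zero Nat.prime_two).2 (by exact_mod_cast h2)
    obtain ⟨l, rfl⟩ := FiniteField.isSquare_of_char_two (F := F) (ringChar.eq F 2) c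
    refine h1 l (sub_eq_zero.1 (pow_eq_zero_iff two_ne_zero |>.1 ?_))
    rw [map_mul] at hc
    linear_combination hc + (l * l - σ l * l) * h2
  · have := sub_mem (h1 ((c + 1) / 2) (by simp [hc, map_ofNat]))
      (h1 ((c - 1) / 2) (by simp [hc, map_ofNat]))
    convert this using 1
    ext x
    simp only [LinearMap.sub_apply, LinearMap.smul_apply, ← sub_smul]
    congr 1
    field_simp
    ring

theorem mem_of_span (h : TrH B C) (hX : h.HX X) {p : V} (hp : C p p = 0) (hp0 : p ≠ 0)
    {g : isomGroup B} {A : End F K} (hA : A ∈ Submodule.span F (cen X hp : Set (End F K)))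
    (e : ∀ x, g.1 x = x + A (C p x) • p) : g ∈ X := by
  have H : ∃ A', Rel s A A' ∧ ∀ θ : F, θ • A + σ θ • A' ∈ cen X hp := by
    clear e
    induction hA using Submodule.span_induction with
    | mem A hA =>
      obtain ⟨a, ha, ea⟩ := id hA
      exact ⟨A, h.rel_of_isom hp hp0 ea, fun θ => by
        rw [← add_smul]
        exact h.smul_mem_cen hX hp0 (by rw [map_add, h.hB.invol, add_comm]) hA⟩
    | zero => exact ⟨0, fun x y => by simp, fun θ => by simp⟩
    | add A A' _ _ h1 h2 =>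
      obtain ⟨D, h1, h3⟩ := h1
      obtain ⟨D', h2, h4⟩ := h2
      refine ⟨D + D', fun x y => ?_, fun θ => by convert add_mem (h3 θ) (h4 θ) using 1; module⟩
      simp only [LinearMap.add_apply, map_add, add_mul, mul_add]
      linear_combination h1 x y + h2 x y
    | smul c A _ h1 =>
      obtain ⟨D, h1, h3⟩ := h1
      refine ⟨σ c • D, fun x y => ?_, fun θ => by
        simpa only [smul_smul, map_mul] using h3 (θ * c)⟩
      simp only [LinearMap.smul_apply, h.s_smul, smul_mul_assoc, mul_smul_comm, map_smul,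
        smul_eq_mul]
      linear_combination σ c * h1 x y
  obtain ⟨A', h1, h2⟩ := H
  obtain rfl : A = A' := LinearMap.ext fun y => eq_of_trace (F := F) fun k => by
    have h3 := h1 (s k) y
    have h4 := h.rel_of_isom hp hp0 e (s k) y
    rw [h.hC.invol] at h3 h4
    rw [mul_comm, mul_comm (A' y)]
    linear_combination h4 - h3
  obtain ⟨θ, hθ⟩ := h.hB.exists_trace_eq (map_one σ)
  obtain ⟨a, ha, ea⟩ := h2 θ
  rw [← add_smul, hθ, one_smul] at ea
  rwa [show g = a from isom_ext fun x => (e x).trans (ea x).symm]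

theorem sIsom_le (h : TrH B C) [FiniteDimensional F V] (hX : h.HX X) (hb' : h.Big)
    (hS : ¬ SemiPt C X) : sIsom B ≤ X := by
  have := h.fin
  have := h.finiteF
  simp only [SemiPt, not_forall, not_exists] at hS
  obtain ⟨p, hp, hp0, b, hb, h1, k, hk⟩ := hS
  have H : ∀ (k k' : K) hu hw c hc, h.hB.eich (u := k • p) (w := k' • p) hu hw c hc ∈ X := by
    intro k k' hu hw c hc
    let φ : K → K →ₗ[F] F := fun k => Algebra.trace F K ∘ₗ LinearMap.mulLeft F (s k)
    refine h.mem_of_span hX hp hp0 (h.span_cen_eq_top hX hb' hp hp0 hb h1 hk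
      ((φ k).smulRight k' - (φ k' + c • φ k).smulRight k)) fun x => ?_
    simp only [h.hB.eich_apply, h.tr, map_smulₛₗ, φ, LinearMap.sub_apply, LinearMap.smul_apply,
      LinearMap.smulRight_apply, LinearMap.add_apply, LinearMap.comp_apply, smul_eq_mul,
      LinearMap.mulLeft_apply, sub_smul, smul_assoc]
    abel
  replace H : ∀ q, C q q = 0 → ∀ (k' : K) hu hw c hc,
      h.hB.eich (u := q) (w := k' • q) hu hw c hc ∈ X := by
    intro q hq k' hu hw c hc
    by_cases hq0 : q = 0
    · subst hq0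
      rw [show h.hB.eich hu hw c hc = 1 from isom_ext fun x => by simp [h.hB.eich_apply]]
      exact X.one_mem
    obtain ⟨t, ht, d, hd⟩ := h.exists_apply_eq hp hp0 hq hq0
    have h3 := H d (k' * d) (h.zero (by simp [hp])) (h.zero (by simp [hp])) c (by
      rw [hc, h.zero (by simp [hq]), h.zero (by simp [hp])])
    rw [← h.hB.conj_eich (h.res t) hu hw c hc hd (by rw [res_apply, map_smul, hd, mul_smul])] at h3
    exact (X.mul_mem_cancel_left (hX.mem t ht)).1
      ((X.mul_mem_cancel_right (X.inv_mem (hX.mem t ht))).1 h3)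
  have hT : ∀ q, C q q = 0 → h.hB.TvA X q := fun q hq => ⟨h.zero hq, fun c hc => by
    have h3 := H q hq 0 (h.zero hq) (by simp) (-c) (by simpa [add_comm] using congrArg (-·) hc)
    convert h3 using 1
    exact isom_ext fun x => by simp [h.hB.eich_apply, h.hB.transv_apply]⟩
  have hE : ∀ q (hq : C q q = 0) (k : K), k • q ∈ h.hB.eichSub X (h.zero hq) := fun q hq k =>
    h.hB.mem_eichSub_of_forall _ (h.zero (by simp [hq])) (H q hq k _ _)
  have hn : 4 ≤ finrank F V := by
    rw [← finrank_mul_finrank F K V]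
    exact le_trans (by norm_num) (Nat.mul_le_mul h.three h.two)
  have hF : ∀ q, C q q = 0 → q ≠ 0 → h.hB.Full X q := by
    intro q hq hq0
    have h2 : ∀ y, B q y = 0 → C q y ≠ 0 → y ∈ h.hB.eichSub X (h.zero hq) := by
      intro y h2 h3
      obtain ⟨a, ha⟩ := h.hC.exists_trace_eq (h.hC.conj y y)
      have h4 := h.hC.ne_comm h3
      have h5 : C (y - (a / C y q) • q) (y - (a / C y q) • q) = 0 := by
        simp only [map_sub, map_smulₛₗ, LinearMap.sub_apply, LinearMap.smul_apply, hq, smul_eq_mul,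
          RingHom.id_apply, map_div₀, h.hC.conj]
        rw [div_mul_cancel₀ _ h3, mul_zero, sub_zero, div_mul_cancel₀ _ h4]
        linear_combination -ha
      obtain ⟨δ, h0, hδ⟩ := h.hB.exists_trace_zero
      obtain ⟨l, hl⟩ := h.exists_eq (x := y - (a / C y q) • q) (y := q) (by simpa [hq]) δ⁻¹
      have h6 := (hT _ h5).smul_mem_eichSub (h.hB.comm (by
        rw [map_sub, h2, h.zero (by simp [hq]), sub_zero])) (hE q hq l) δ hδ
      rw [hl, mul_inv_cancel₀ h0, one_smul] at h6
      simpa using add_mem h6 (hE q hq (a / C y q))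
    refine h.hB.full_of_forall (by omega) (h.zero hq) fun w hw => ⟨0, ?_⟩
    rw [zero_smul, add_zero]
    by_cases h3 : C q w = 0
    · obtain ⟨f, -, hqf⟩ := h.hC.exists_hyperbolic hq0 hq
      obtain ⟨l, hl, hl0⟩ := (Submodule.ne_bot_iff (LinearMap.ker (Algebra.trace F K))).1 fun e => by
        have h4 := LinearMap.finrank_le_finrank_of_injective (LinearMap.ker_eq_bot.1 e)
        have := h.three
        rw [finrank_self] at h4
        omega
      have h4 : B q (l • f) = 0 := by simpa [h.tr, hqf] using hl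
      simpa using sub_mem (h2 (w + l • f) (by rw [map_add, hw, h4, add_zero]) (by simpa [h3, hqf]))
        (h2 _ h4 (by simpa [hqf]))
    · exact h2 w hw h3
  obtain ⟨f, hf, hpf⟩ := h.hC.exists_hyperbolic hp0 hp
  obtain ⟨l, hl⟩ := h.exists_eq (hpf ▸ one_ne_zero) 1
  exact h.hB.sIsom_le_of_full hn (hF p hp hp0) (hF (l • f) (by simp [hf])
    (by rintro e; simp [e] at hl)) (hl ▸ one_ne_zero)

theorem maxS (h : TrH B C) (hb : h.Big) : MaxS B ((semiK F K V).subgroupOf (isomGroup B)) := by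
  have := h.fin
  have := h.finF
  have : FiniteDimensional F K := Module.Finite.of_finite
  refine ⟨fun H => ?_, fun X hN _ g hg hg' => by_contra fun hc => ?_⟩
  · obtain ⟨p, hp0, hp⟩ := h.hC.exists_isotropic h.two
    obtain ⟨f, -, hpf⟩ := h.hC.exists_hyperbolic hp0 hp
    obtain ⟨l, hl⟩ := h.exists_eq (hpf ▸ one_ne_zero) 1
    obtain ⟨δ, h0, hδ⟩ := h.hB.exists_trace_zero
    obtain ⟨τ, hτ⟩ := Subgroup.mem_subgroupOf.1 (H (h.hB.transv_mem_sIsom p (h.zero hp) δ hδ))
    obtain ⟨k, hk⟩ := FE.exists_notMem_range (F := F) (K := K) h.prime.two_le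
    have h1 := hτ k p
    have h2 := hτ k (l • f)
    simp only [h.hB.transv_apply, h.zero hp, h.zero (show C p (k • p) = 0 by simp [hp]), mul_zero,
      zero_smul, add_zero] at h1
    rw [h.hB.transv_apply, h.hB.transv_apply, ← smul_left_injective K hp0 h1, hl, smul_add,
      add_right_inj, mul_one, smul_comm k δ, mul_smul] at h2
    exact hk ⟨_, smul_left_injective K hp0
      ((algebraMap_smul K _ p).trans (smul_right_injective V h0 h2))⟩
  · have hX : h.HX X := fun t ht => hN _ ⟨1, fun k x => t.1.map_smul k x⟩ (by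
      rw [mem_sIsom', LinearEquiv.coe_det] at *
      exact (LinearMap.det_restrictScalars (f := t.1.toLinearMap)).trans ht)
    exact hg' (h.mem_semiK hX hb (by_contra fun hS => hc (h.sIsom_le hX hb hS)) hg)

theorem big_of (h : TrH B C) (H : Nat.card F ≠ 4 ∨ finrank F K ≠ 3) : h.Big := by
  classical
  have := h.finiteF
  have := Fintype.ofFinite F
  have := Fintype.ofFinite K
  obtain ⟨q, hq, hσ⟩ := exists_card_eq_sq h.hB.ne_id h.hB.invol
  obtain ⟨Q, hQ, hs⟩ := exists_card_eq_sq h.hC.ne_id h.hC.invol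
  have hq2 : 2 ≤ q := by
    have := Fintype.one_lt_card (α := F)
    nlinarith
  have h1 : Q = q ^ finrank F K := by
    rw [← Nat.pow_left_inj two_ne_zero, ← hQ, Module.card_eq_pow_finrank (K := F), hq, ← pow_mul,
      ← pow_mul, mul_comm]
  have h2 : (q + 1) ^ 2 < Q + 1 := by
    obtain ⟨r, hr⟩ := Nat.exists_eq_add_of_le h.three
    rw [h1, hr, pow_add]
    rcases Nat.eq_zero_or_pos r with rfl | h0
    · have : q ≠ 2 := by
        rintro rfl
        rw [Nat.card_eq_fintype_card, hq, hr] at H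
        omega
      have : 3 ≤ q := by omega
      nlinarith
    · have := Nat.pow_le_pow_right (show 0 < q by omega) h0
      nlinarith [Nat.mul_le_mul_left (q ^ 3) (hq2.trans (by simpa using this))]
  refine .inr (by_contra fun hc => h2.not_ge ?_)
  rw [← card_normOne hQ, ← eq_frobq hQ h.hC.ne_id h.hC.invol]
  refine le_trans (Finset.card_le_card fun ν hν => ?_) ((Multiset.toFinset_card_le _).trans
    (Polynomial.card_nthRoots ((q + 1) ^ 2) (1 : K)))
  have h3 := (Finset.mem_filter.1 hν).2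
  obtain ⟨a, ha⟩ : ν ^ (q + 1) ∈ Set.range (algebraMap F K) := by_contra fun h4 => hc ⟨_, by
    rw [map_pow, ← mul_pow, h3, one_pow], by
    let e₁ := RingEquiv.ofBijective σ (Finite.injective_iff_bijective.1 σ.injective)
    let e₂ := RingEquiv.ofBijective s (Finite.injective_iff_bijective.1 s.injective)
    have h5 : σ (Algebra.norm F ν) = Algebra.norm F (s ν) := by
      rw [Algebra.norm_eq_of_equiv_equiv e₁ e₂ (RingHom.ext fun a => (h.ext a).symm) ν]
      exact e₁.apply_symm_apply _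
    rw [map_pow, pow_succ, ← hσ, h5, ← map_mul, h3, map_one], h4⟩
  rw [Multiset.mem_toFinset, Polynomial.mem_nthRoots (by positivity), sq, pow_mul, ← ha, ← map_pow,
    pow_succ, ← hσ, map_mul, ← h.ext, ha, map_pow, ← mul_pow, h3, one_pow]

end TrH

open Cfsg.Geo Matrix Asch in
/-- The normaliser in `SU_n(q)` of an adjoint-closed subfield of odd prime degree `r` is maximal if
`n ≥ 2 r` and `(n, q) ≠ (6, 2)`. -/
theorem isMaximalIn_SU_field [Fintype F] {q n : ℕ} (hF : Fintype.card F = q ^ 2) {r : ℕ}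
    (hr : r.Prime) (h3 : 3 ≤ r) (hn : 2 * r ≤ n) (hex : 7 ≤ n ∨ q ≠ 2)
    {K : Subalgebra F (Matrix (Fin n) (Fin n) F)} (hK : IsFieldSubalgebra r K)
    (hK' : IsAdjointClosedFor (hermForm n F q) K) :
    IsMaximalIn (GU n F q ⊓ specialLinear (Fin n) F)
      (subalgebraNormalizer K ⊓ (GU n F q ⊓ specialLinear (Fin n) F)) := by
  have : Nonempty (Fin n) := ⟨⟨0, by omega⟩⟩
  let _ := (isField_of_isFieldSubalgebra hK).toField
  have hf := isSesq_of_isUnitaryFormPow hF (isUnitaryFormPow_hermForm hF n)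
  let s := adjHom hK hf fun x hx => hf.adj_mem_of_isAdjointClosedFor hK' hx
  have hs : ∀ a, s (algebraMap F K a) = algebraMap F K (frobq hF a) := fun a => Subtype.ext (by
    change adj _ _ (algebraMap F _ a) = algebraMap F _ _
    rw [Algebra.algebraMap_eq_smul_one, Algebra.algebraMap_eq_smul_one, hf.adj_smul_one]
    rfl)
  obtain ⟨C, hC, hBC⟩ := exists_lift (herm_hermSesq hF n) hs (fun k => Subtype.ext (hf.adj_adj k))
    fun k u v => hf.adj_spec' k v u
  have h1 := finrank_mul_finrank F K (Fin n → F)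
  rw [hK.finrank_eq, finrank_fin_fun] at h1
  have h : TrH (hermSesq hF n) C := ⟨herm_hermSesq hF n, hC, hBC, hs, hK.finrank_eq ▸ hr,
    hK.finrank_eq ▸ h3, Nat.le_of_mul_le_mul_left (c := r) (by omega) (by omega)⟩
  refine isMaximalIn_SU_of hF n (fun g => ⟨fun hg => mem_semiK_of fun k =>
    ⟨⟨_, (hg k).1 k.2⟩, fun x => ?_⟩, fun hg => ?_⟩) (h.maxS ?_)
  · change ((g : GL (Fin n) F) : Matrix (Fin n) (Fin n) F) *ᵥ ((k : Matrix (Fin n) (Fin n) F) *ᵥ x) =
      _ *ᵥ (((g : GL (Fin n) F) : Matrix (Fin n) (Fin n) F) *ᵥ x)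
    simp only [mulVec_mulVec, mul_assoc, Units.inv_mul, mul_one]
  · refine Nrm.le_subalgebraNormalizer
      (H := (semiK F K (Fin n → F)).comap (glLin (Fin n) F).toMonoidHom) (fun g ⟨τ, hτ⟩ k hk => ?_) hg
    have : (g : Matrix (Fin n) (Fin n) F) * k = τ ⟨k, hk⟩ * g := matrix_ext_mulVec fun x => by
      rw [← mulVec_mulVec, ← mulVec_mulVec]
      exact hτ ⟨k, hk⟩ x
    rw [cj_apply, this, mul_assoc, Units.mul_inv, mul_one]
    exact (τ ⟨k, hk⟩).2
  · by_cases h4 : 3 ≤ finrank K (Fin n → F)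
    · exact .inl h4
    refine h.big_of ?_
    rw [Nat.card_eq_fintype_card, hF, hK.finrank_eq]
    by_contra! hc
    have h5 := h.two
    rw [show finrank K (Fin n → F) = 2 by omega] at h1
    exact hex.elim (by omega) fun h => h (by nlinarith [hc.1])

end Cfsg.Lib.Class.UFX
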