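import Cfsg.Agent.Class.SU.Dec

/-! Orthonormal frames of unitary spaces: groups containing many quasi-reflections. -/

namespace Cfsg.Lib.Class.Form
open Module

variable {F V : Type*} [Field F] [AddCommGroup V] [Module F V] {σ : F →+* F}
  {B : V →ₛₗ[σ] V →ₗ[F] F}

theorem exists_normOne_pair [Finite F] (hσ : σ ≠ RingHom.id F) (hσ2 : ∀ a, σ (σ a) = a) {s t : F}
    (hs : σ s = s) (ht : σ t = t) (hs0 : s ≠ 0) (ht0 : t ≠ 0) :
    ∃ ν ν' : F, σ ν * ν = 1 ∧ σ ν' * ν' = 1 ∧ ν ≠ 1 ∧ ν' ≠ 1 ∧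
      (2 - ν - σ ν) * s + (2 - ν' - σ ν') * t = 0 := by
  classical
  have := Fintype.ofFinite F
  obtain ⟨q, hF, -⟩ := exists_card_eq_sq hσ hσ2
  obtain rfl := eq_frobq hF hσ hσ2
  have hq := two_le_of_card_sq hF
  set S := (Finset.univ.filter fun x : F => frobq hF x * x = 1).erase 1 with hS
  have hSc : S.card = q := by
    rw [hS, Finset.card_erase_of_mem (Finset.mem_filter.2 ⟨Finset.mem_univ _, by simp⟩),
      card_normOne hF]; rfl
  have hSm : ∀ x ∈ S, frobq hF x * x = 1 ∧ x ≠ 1 := fun x hx =>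
    ⟨(Finset.mem_filter.1 (Finset.mem_of_mem_erase hx)).2, Finset.ne_of_mem_erase hx⟩
  set T := (Finset.univ.filter fun x : F => x ^ q = x).erase 0 with hT
  have hTc : T.card = q - 1 := by
    have := card_pow_eq_self hF
    rw [Nat.card_eq_fintype_card, Fintype.card_subtype] at this
    have h0 : (0 : F) ∈ Finset.univ.filter fun x : F => x ^ q = x :=
      Finset.mem_filter.2 ⟨Finset.mem_univ _, zero_pow (by omega)⟩
    rw [hT, Finset.card_erase_of_mem h0, this]
  have key : ∀ c : F, frobq hF c = c → c ≠ 0 →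
      q ≤ 2 * (S.image fun x => (2 - x - frobq hF x) * c).card ∧
        (S.image fun x => (2 - x - frobq hF x) * c) ⊆ T := fun c hc hc0 => by
    constructor
    · refine hSc.ge.trans <| Finset.card_le_mul_card_image _ 2 fun y hy => ?_
      obtain ⟨x, hx, rfl⟩ := Finset.mem_image.1 hy
      refine le_trans (Finset.card_le_card (t := {x, frobq hF x}) fun z hz => ?_)
        Finset.card_le_two
      obtain ⟨hz1, hz2⟩ := Finset.mem_filter.1 hz
      have e := mul_right_cancel₀ hc0 hz2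
      have : (z - x) * (z - frobq hF x) = 0 := by
        linear_combination (hSm x hx).1 - (hSm z hz1).1 - z * e
      simpa [sub_eq_zero] using this
    · intro y hy
      obtain ⟨x, hx, rfl⟩ := Finset.mem_image.1 hy
      obtain ⟨h1, h2⟩ := hSm x hx
      refine Finset.mem_erase.2 ⟨mul_ne_zero (fun e => h2 ?_) hc0, Finset.mem_filter.2
        ⟨Finset.mem_univ _, ?_⟩⟩
      · have : (x - 1) ^ 2 = 0 := by linear_combination -x * e - h1
        simpa [sub_eq_zero] using this
      · rw [← frobq_apply hF, map_mul, hc, map_sub, map_sub, hσ2, map_ofNat]; ring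
  obtain ⟨a1, a2⟩ := key s hs hs0
  obtain ⟨b1, b2⟩ := key (-t) (by rw [map_neg, ht]) (neg_ne_zero.2 ht0)
  by_contra! hcon
  have hd : Disjoint (S.image fun x => (2 - x - frobq hF x) * s)
      (S.image fun x => (2 - x - frobq hF x) * -t) := by
    rw [Finset.disjoint_left]
    intro y h1 h2
    obtain ⟨x, hx, rfl⟩ := Finset.mem_image.1 h1
    obtain ⟨x', hx', e⟩ := Finset.mem_image.1 h2
    exact hcon x x' (hSm x hx).1 (hSm x' hx').1 (hSm x hx).2 (hSm x' hx').2
      (by linear_combination -e)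
  have := Finset.card_le_card (Finset.union_subset a2 b2)
  rw [Finset.card_union_of_disjoint hd] at this
  omega

namespace Herm

/-- All quasi-reflections with centre the unit vector `a` lie in `Y`. -/
def RfA (h : Herm B) (Y : Subgroup (isomGroup B)) (a : V) : Prop :=
  B a a = 1 ∧ ∀ ha μ hμ, h.qrefl a ha μ hμ ∈ Y

variable {h : Herm B} {Y : Subgroup (isomGroup B)}

theorem RfA.exists {a : V} (ha : h.RfA Y a) {μ : F} (hμ : σ μ * μ = 1) :
    ∃ g ∈ Y, ∀ x, (g : V ≃ₗ[F] V) x = x + ((μ - 1) * B a x) • a :=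
  ⟨_, ha.2 (by simp [ha.1]) μ hμ, fun x => by simp [qrefl_apply, ha.1]⟩

theorem RfA.apply {a : V} (ha : h.RfA Y a) {g : isomGroup B} (hg : g ∈ Y) :
    h.RfA Y ((g : V ≃ₗ[F] V) a) :=
  ⟨by rw [isom_apply, ha.1], fun ha' μ hμ => by
    have h0 : B a a ≠ 0 := by simp [ha.1]
    rw [← h.conj_qrefl g h0 ha' (one_smul F _).symm μ hμ]
    exact mul_mem (mul_mem hg (ha.2 h0 μ hμ)) (inv_mem hg)⟩

/-- Step A: from the quasi-reflections in three orthonormal vectors and in a vector with non-zero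
coordinates at all of them, a shear along an isotropic vector. -/
theorem exists_shear [Finite F] {a u v w : V} (ha : h.RfA Y a) (hu : h.RfA Y u) (hv : h.RfA Y v)
    (huv : B u v = 0) (huw : B u w = 0) (hvw : B v w = 0) (h1 : B u a ≠ 0) (h2 : B v a ≠ 0)
    (h3 : B w a ≠ 0) : ∃ x y c : F, x ≠ 0 ∧ y ≠ 0 ∧ c ≠ 0 ∧
      B (x • u + y • v) (x • u + y • v) = 0 ∧
      ∃ g ∈ Y, (g : V ≃ₗ[F] V) w = w + c • (x • u + y • v) := by
  obtain ⟨ν, ν', hν, hν', hν1, hν1', e⟩ := exists_normOne_pair h.ne_id h.invol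
    (s := B u a * B a u) (t := B v a * B a v) (by simp [h.conj, mul_comm])
    (by simp [h.conj, mul_comm]) (mul_ne_zero h1 (h.ne_comm h1)) (mul_ne_zero h2 (h.ne_comm h2))
  obtain ⟨d1, hd1, e1⟩ := hu.exists hν
  obtain ⟨d2, hd2, e2⟩ := hv.exists hν'
  have ha' := (ha.apply hd2).apply hd1
  set r := ((1 - ν) * B u a) • u + ((1 - ν') * B v a) • v with hr
  have ea : (d1 : V ≃ₗ[F] V) ((d2 : V ≃ₗ[F] V) a) = a - r := by
    rw [e1, e2, hr, map_add, map_smul, huv]; module
  rw [ea] at ha'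
  have hvu := h.comm huv
  have hrr : B r r = 0 := by
    simp only [hr, map_add, map_smulₛₗ, LinearMap.add_apply, LinearMap.smul_apply, hu.1, hv.1, huv,
      hvu, smul_eq_mul, map_mul, map_sub, map_one, h.conj, RingHom.id_apply]
    linear_combination e + B u a * B a u * hν + B v a * B a v * hν'
  have hrw : B r w = 0 := by simp [hr, huw, hvw]
  set β := B (a - r) a with hβ
  have hβ2 : β + σ β = 2 := by
    have := ha'.1
    rw [hβ, h.conj]
    simp only [map_sub, LinearMap.sub_apply, ha.1, hrr] at this ⊢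
    linear_combination this
  obtain ⟨μ, hμ, hμ1, hD⟩ : ∃ μ : F, σ μ * μ = 1 ∧ μ ≠ 1 ∧ 1 + (μ - 1) * β ≠ 0 := by
    obtain ⟨μ, hμ, hμ'⟩ := exists_normOne_ne_one h.ne_id h.invol
    by_cases hD : 1 + (μ - 1) * β = 0
    · refine ⟨σ μ, by rw [h.invol, mul_comm, hμ], fun e => hμ' ?_, fun hD' => ?_⟩
      · rw [e, ← h.invol μ, e, map_one]
      · have : (σ μ - μ) * β = 0 := by linear_combination hD' - hD
        rw [(mul_eq_zero.1 this).resolve_left (sub_ne_zero.2 hμ')] at hD
        simp at hD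
    · exact ⟨μ, hμ, fun e => hμ' (by simp [e]), hD⟩
  have hD' : 1 + (σ μ - 1) * σ β ≠ 0 := by
    simpa using (map_ne_zero σ).2 hD
  have hμ2 : σ (1 - (μ - 1) / (1 + (μ - 1) * β)) * (1 - (μ - 1) / (1 + (μ - 1) * β)) = 1 := by
    simp only [map_sub, map_div₀, map_add, map_mul, map_one]
    field_simp
    linear_combination (1 - β - σ β) * hμ + (μ + σ μ - 2) * hβ2
  obtain ⟨g1, hg1, e3⟩ := ha.exists hμ
  obtain ⟨g2, hg2, e4⟩ := ha'.exists hμ2
  refine ⟨_, _, (μ - 1) * B a w, mul_ne_zero (sub_ne_zero.2 hν1.symm) h1,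
    mul_ne_zero (sub_ne_zero.2 hν1'.symm) h2, mul_ne_zero (sub_ne_zero.2 hμ1) (h.ne_comm h3), hrr,
    _, mul_mem hg2 hg1, ?_⟩
  have e5 : B (a - r) w = B a w := by simp [hrw]
  rw [isom_mul_apply, e4, e3, map_add, map_smul, e5, ← hβ, ← hr]
  have : (1 - (μ - 1) / (1 + (μ - 1) * β) - 1) * (B a w + ((μ - 1) * B a w) • β) =
      -((μ - 1) * B a w) := by
    rw [smul_eq_mul]; field_simp; ring
  rw [this]; module

theorem smul_mem_eichSub_of_shear [Finite F] [FiniteDimensional F V] {w r : V} (hw : h.RfA Y w)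
    (hr : B r r = 0) (hrw : B r w = 0) {c : F} (hc : c ≠ 0) {g : isomGroup B} (hg : g ∈ Y)
    (e : (g : V ≃ₗ[F] V) w = w + c • r) (s : F) : s • w ∈ h.eichSub Y hr := by
  obtain ⟨ν, hν, hν'⟩ := exists_normOne_ne_one h.ne_id h.invol
  have hν1 : ν - 1 ≠ 0 := fun e => hν' (by simp [sub_eq_zero.1 e])
  have hw' := hw.apply hg
  rw [e] at hw'
  obtain ⟨g1, hg1, e1⟩ := hw.exists (μ := σ ν) (by rw [h.invol, mul_comm, hν])
  obtain ⟨g2, hg2, e2⟩ := hw'.exists hν
  have hwr := h.comm hrw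
  have h1 : ((ν - 1) * σ c) • w ∈ h.eichSub Y hr := by
    refine ⟨by simp [hrw], c * σ c * (1 - ν), ?_, ?_⟩
    · simp only [map_smulₛₗ, LinearMap.smul_apply, smul_eq_mul, hw.1, map_mul, map_sub, map_one,
        h.invol, RingHom.id_apply]
      linear_combination (-c * σ c) * hν
    · convert mul_mem hg2 hg1 using 1
      refine isom_ext fun x => ?_
      simp only [isom_mul_apply, e1, e2, eich_apply, map_add, map_smulₛₗ, LinearMap.add_apply,
        LinearMap.smul_apply, smul_eq_mul, hw.1, hrw, map_mul, map_sub, map_one, h.invol,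
        RingHom.id_apply]
      match_scalars
      · ring
      · linear_combination (-B w x) * hν
      · linear_combination (-c * B w x) * hν
  have h2 := smul_mem_of_normOne h.ne_id h.invol (A := h.eichSub Y hr) (d := ((ν - 1) * σ c) • w)
    (fun μ hμ => by
      obtain ⟨k, hk, e3⟩ := hw.exists hμ
      have := h.apply_mem_eichSub hk (hz := hr) (hz' := hr) (by simp [e3, hwr]) h1
      convert this using 1
      simp only [e3, map_smul, hw.1]
      module) (s * ((ν - 1) * σ c)⁻¹)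
  rwa [smul_smul, inv_mul_cancel_right₀ (mul_ne_zero hν1 (by simpa using hc))] at h2

end Herm
end Cfsg.Lib.Class.Form
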