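import Cfsg.Agent.Class.SU.FrameA

/-! Overgroups in `SU(V)` of the stabiliser of an orthonormal frame: reduction to the case where
the stabiliser of a frame point is monomial. -/

namespace Cfsg.Lib.Class.Form
open Module

variable {F V : Type*} [Field F] [AddCommGroup V] [Module F V] {σ : F →+* F}
  {B : V →ₛₗ[σ] V →ₗ[F] F} {ι : Type*} [Fintype ι] {e : ι → V} {X : Subgroup (isomGroup B)}

/-- An orthonormal basis. -/
structure ON (B : V →ₛₗ[σ] V →ₗ[F] F) (e : ι → V) : Prop where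
  herm : Herm B
  self : ∀ i, B (e i) (e i) = 1
  ne : ∀ i j, i ≠ j → B (e i) (e j) = 0
  sum : ∀ x, ∑ i, B (e i) x • e i = x

/-- The monomial isometries. -/
def monG (B : V →ₛₗ[σ] V →ₗ[F] F) (e : ι → V) : Subgroup (isomGroup B) :=
  stabFam B fun i => Submodule.span F {e i}

/-- The isometries induced on `w^⊥` modulo `w` by the stabiliser of `⟨w⟩` in `X`. -/
def indG (X : Subgroup (isomGroup B)) (w : V) : Subgroup (isomGroup B) where
  carrier := {y | (y : V ≃ₗ[F] V) w = w ∧ ∃ x ∈ X, (∃ c : F, (x : V ≃ₗ[F] V) w = c • w) ∧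
    ∀ z, B w z = 0 → ∃ c : F, (x : V ≃ₗ[F] V) z = (y : V ≃ₗ[F] V) z + c • w}
  one_mem' := ⟨rfl, 1, one_mem _, ⟨1, by simp⟩, fun z _ => ⟨0, by simp⟩⟩
  mul_mem' := by
    rintro y y' ⟨h1, x, hx, ⟨c, hc⟩, h2⟩ ⟨h1', x', hx', ⟨c', hc'⟩, h2'⟩
    refine ⟨by rw [isom_mul_apply, h1', h1], x * x', mul_mem hx hx',
      ⟨c' * c, by rw [isom_mul_apply, hc', map_smul, hc, smul_smul]⟩, fun z hz => ?_⟩
    obtain ⟨a, ha⟩ := h2' z hz
    obtain ⟨b, hb⟩ := h2 ((y' : V ≃ₗ[F] V) z) (by rw [← h1', isom_apply, hz])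
    exact ⟨b + a * c, by
      rw [isom_mul_apply, isom_mul_apply, ha, map_add, hb, map_smul, hc]; module⟩
  inv_mem' := by
    rintro y ⟨h1, x, hx, ⟨c, hc⟩, h2⟩
    have h3 : ((y⁻¹ : isomGroup B) : V ≃ₗ[F] V) w = w := by
      conv_lhs => rw [← h1, isom_inv_apply]
    have h4 : ((x⁻¹ : isomGroup B) : V ≃ₗ[F] V) w = c⁻¹ • w := by
      by_cases h0 : c = 0
      · have : w = 0 := by simpa [h0] using hc
        simp [this]
      · have := isom_inv_apply x w
        rw [hc, map_smul] at this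
        conv_rhs => rw [← this, smul_smul, inv_mul_cancel₀ h0, one_smul]
    refine ⟨h3, x⁻¹, inv_mem hx, ⟨_, h4⟩, fun z hz => ?_⟩
    obtain ⟨a, ha⟩ := h2 (((y⁻¹ : isomGroup B) : V ≃ₗ[F] V) z) (by rw [← h3, isom_apply, hz])
    have := isom_inv_apply x (((y⁻¹ : isomGroup B) : V ≃ₗ[F] V) z)
    rw [ha, isom_apply_inv, map_add, map_smul, h4] at this
    exact ⟨-(a * c⁻¹), by rw [← this]; module⟩

namespace ON

theorem ext (h : ON B e) {x y : V} (hxy : ∀ i, B (e i) x = B (e i) y) : x = y := by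
  rw [← h.sum x, ← h.sum y]; simp [hxy]

theorem ne_zero (h : ON B e) (i : ι) : e i ≠ 0 := fun h0 => by simpa [h0] using h.self i

theorem self_ne (h : ON B e) (i : ι) : B (e i) (e i) ≠ 0 := by simp [h.self]

theorem apply [DecidableEq ι] (h : ON B e) (i j : ι) :
    B (e i) (e j) = if i = j then 1 else 0 := by
  split_ifs with hij
  · rw [hij, h.self]
  · exact h.ne i j hij

theorem isom_ext (h : ON B e) {g g' : isomGroup B}
    (hg : ∀ i, (g : V ≃ₗ[F] V) (e i) = (g' : V ≃ₗ[F] V) (e i)) : g = g' :=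
  Form.isom_ext fun x => by rw [← h.sum x]; simp [hg]

theorem map (h : ON B e) (g : isomGroup B) : ON B fun i => (g : V ≃ₗ[F] V) (e i) :=
  ⟨h.herm, fun i => by rw [isom_apply, h.self], fun i j hij => by rw [isom_apply, h.ne i j hij],
    fun x => by
      conv_rhs => rw [← isom_apply_inv g x, ← h.sum (((g⁻¹ : isomGroup B) : V ≃ₗ[F] V) x)]
      simp [isom_apply_left]⟩

theorem uDec (h : ON B e) : UDec B (fun i => Submodule.span F {e i})
    fun i => (B (e i)).smulRight (e i) := by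
  refine ⟨h.herm, ⟨fun i v => Submodule.mem_span_singleton.2 ⟨_, rfl⟩, fun i v hv => ?_,
    fun i j hij v hv => ?_, h.sum⟩, fun i j hij u hu v hv => ?_⟩
  · obtain ⟨c, rfl⟩ := Submodule.mem_span_singleton.1 hv
    simp [h.self]
  · obtain ⟨c, rfl⟩ := Submodule.mem_span_singleton.1 hv
    simp [h.ne i j hij]
  · obtain ⟨c, rfl⟩ := Submodule.mem_span_singleton.1 hu
    obtain ⟨c, rfl⟩ := Submodule.mem_span_singleton.1 hv
    simp [h.ne i j hij]

theorem eq_smul (h : ON B e) {x : V} {j : ι} (hx : ∀ i, i ≠ j → B (e i) x = 0) :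
    x = B (e j) x • e j :=
  h.ext fun i => by
    by_cases hij : i = j
    · simp [hij, h.self]
    · simp [hx i hij, h.ne i j hij]

theorem exists_two (h : ON B e) {x : V} (i : ι) (hx : ∀ j (c : F), x ≠ c • e j) :
    ∃ l l', l ≠ l' ∧ B (e l) x ≠ 0 ∧ B (e l') x ≠ 0 := by
  obtain ⟨l, -, hl⟩ : ∃ l, l ≠ i ∧ B (e l) x ≠ 0 := by
    by_contra! hcon; exact hx _ _ (h.eq_smul hcon)
  obtain ⟨l', h1, hl'⟩ : ∃ l', l' ≠ l ∧ B (e l') x ≠ 0 := by
    by_contra! hcon; exact hx _ _ (h.eq_smul hcon)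
  exact ⟨l', l, h1, hl', hl⟩

variable [FiniteDimensional F V]

theorem mem_monG (h : ON B e) {g : isomGroup B} :
    g ∈ monG B e ↔ ∀ i, ∃ j, ∃ c : F, (g : V ≃ₗ[F] V) (e i) = c • e j := by
  constructor
  · rintro ⟨π, hπ⟩ i
    obtain ⟨c, hc⟩ := Submodule.mem_span_singleton.1
      ((hπ i).le (Submodule.mem_map_of_mem (Submodule.mem_span_singleton_self _)))
    exact ⟨π i, c, hc.symm⟩
  · intro hg
    by_contra hn
    obtain ⟨i, v, hv, hgv⟩ := h.uDec.proj.exists_notMem_of_notMem_stabDec one_pos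
      (fun i => finrank_span_singleton (h.ne_zero i)) hn
    obtain ⟨a, rfl⟩ := Submodule.mem_span_singleton.1 hv
    obtain ⟨j, c, hc⟩ := hg i
    exact hgv j (Submodule.mem_span_singleton.2 ⟨a * c, by
      change _ = (g : V ≃ₗ[F] V) _
      rw [map_smul, hc, smul_smul]⟩)

omit [FiniteDimensional F V] in
theorem finrank_eq (h : ON B e) : finrank F V = Fintype.card ι := by
  classical
  refine finrank_eq_card_basis (Basis.mk (linearIndependent_of_orthonormal h.apply) fun x _ => ?_)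
  rw [← h.sum x]
  exact sum_mem fun i _ => Submodule.smul_mem _ _ (Submodule.subset_span ⟨i, rfl⟩)

theorem qrefl_mem (h : ON B e) (i : ι) (μ : F) (hμ : σ μ * μ = 1) :
    h.herm.qrefl (e i) (h.self_ne i) μ hμ ∈ monG B e :=
  h.uDec.mov_le i (h.herm.qrefl_mem_mov (Submodule.mem_span_singleton_self _) _ μ hμ)

omit [FiniteDimensional F V] in
theorem exists_sw (h : ON B e) {i j : ι} (hij : i ≠ j) {κ : F} (hκ : σ κ * κ = 1) :
    ∃ s : isomGroup B, ∀ x, (s : V ≃ₗ[F] V) x = x - B (e i - κ • e j) x • (e i - κ • e j) :=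
  ⟨h.herm.refl (e i - κ • e j) (-1) (by
    simp [h.self, h.ne i j hij, h.ne j i hij.symm]; linear_combination hκ), fun x => by
    rw [Good.refl_apply, neg_one_mul, neg_smul, ← sub_eq_add_neg]⟩

theorem sw_mem (h : ON B e) {i j : ι} (hij : i ≠ j) {κ : F} (hκ : σ κ * κ = 1) {s : isomGroup B}
    (hs : ∀ x, (s : V ≃ₗ[F] V) x = x - B (e i - κ • e j) x • (e i - κ • e j)) :
    s ∈ monG B e := h.mem_monG.2 fun l => by
  by_cases hi : l = i
  · exact ⟨j, κ, by simp [hs, hi, h.self, h.ne j i hij.symm]⟩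
  by_cases hj : l = j
  · refine ⟨i, σ κ, ?_⟩
    simp only [hs, hj, map_sub, map_smulₛₗ, LinearMap.sub_apply, LinearMap.smul_apply, h.self,
      h.ne i j hij, smul_eq_mul]
    match_scalars
    · linear_combination -hκ
    · ring
  · exact ⟨l, 1, by simp [hs, h.ne i l (Ne.symm hi), h.ne j l (Ne.symm hj)]⟩

end ON

/-- `X` lies between the monomial subgroup of `SU(V)` and `SU(V)`. -/
structure FX (e : ι → V) (X : Subgroup (isomGroup B)) : Prop where
  on : ON B e
  mem : ∀ g ∈ monG B e, g ∈ sIsom B → g ∈ X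
  le : X ≤ sIsom B

namespace FX
variable [FiniteDimensional F V]

theorem exists_mul (h : FX e X) {g : isomGroup B} (hg : g ∈ monG B e) (m : ι) :
    ∃ x ∈ X, x ∈ monG B e ∧ (∃ μ : F, (x : V ≃ₗ[F] V) (e m) = μ • (g : V ≃ₗ[F] V) (e m)) ∧
      ∀ z, B (e m) z = 0 → (x : V ≃ₗ[F] V) z = (g : V ≃ₗ[F] V) z := by
  obtain ⟨μ, hμ, hs⟩ := h.on.herm.exists_mul_qrefl_mem (h.on.self_ne m) g
  have := mul_mem hg (h.on.qrefl_mem m μ hμ)
  exact ⟨_, h.mem _ this hs, this, ⟨μ, by rw [isom_mul_apply, Herm.qrefl_apply_self, map_smul]⟩,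
    fun z hz => by rw [isom_mul_apply, h.on.herm.qrefl_apply_of_orth _ _ _ hz]⟩

theorem exists_dg (h : FX e X) {i j : ι} (hij : i ≠ j) {μ : F} (hμ : σ μ * μ = 1) :
    ∃ d ∈ X, ∀ x, (d : V ≃ₗ[F] V) x =
      x + ((μ - 1) * B (e i) x) • e i + ((σ μ - 1) * B (e j) x) • e j := by
  have hμ' : σ (σ μ) * σ μ = 1 := by rw [h.on.herm.invol, mul_comm, hμ]
  refine ⟨_, h.mem _ (mul_mem (h.on.qrefl_mem j _ hμ') (h.on.qrefl_mem i μ hμ)) ?_, fun x => ?_⟩
  · rw [mem_sIsom', Subgroup.coe_mul, map_mul, Units.val_mul, Herm.det_qrefl, Herm.det_qrefl, hμ]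
  · simp [Herm.qrefl_apply, h.on.self, h.on.ne j i hij.symm]

theorem exists_move (h : FX e X) (i j : ι) : ∃ s ∈ X, s ∈ monG B e ∧
    (∃ c : F, (s : V ≃ₗ[F] V) (e i) = c • e j) ∧
    ∀ z, B (e i) z = 0 → B (e j) z = 0 → (s : V ≃ₗ[F] V) z = z := by
  by_cases hij : i = j
  · exact ⟨1, one_mem _, one_mem _, ⟨1, by simp [hij]⟩, fun _ _ _ => rfl⟩
  have h1 : σ 1 * 1 = 1 := by simp
  obtain ⟨s, hs⟩ := h.on.exists_sw hij h1
  obtain ⟨x, hx, hx', ⟨μ, h2⟩, h3⟩ := h.exists_mul (h.on.sw_mem hij h1 hs) i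
  exact ⟨x, hx, hx', ⟨μ, by simp [h2, hs, h.on.self, h.on.ne j i (Ne.symm hij)]⟩,
    fun z hi hj => by simp [h3 z hi, hs, hi, hj]⟩

theorem rfA_indG (h : FX e X) {x : isomGroup B} (hx : x ∈ X) {k j : ι} {c : F}
    (hk : (x : V ≃ₗ[F] V) (e k) = c • e k) (hj : j ≠ k) :
    h.on.herm.RfA (indG X (e k)) ((x : V ≃ₗ[F] V) (e j)) := by
  have hc : c ≠ 0 := by rintro rfl; exact h.on.ne_zero k (by simpa using hk)
  have h0 : B ((x : V ≃ₗ[F] V) (e j)) (e k) = 0 := by
    have := isom_apply x (e j) (e k)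
    rw [hk, h.on.ne j k hj] at this
    simpa [hc] using this
  refine ⟨by rw [isom_apply, h.on.self], fun ha μ hμ => ?_⟩
  obtain ⟨d, hd, e1⟩ := h.exists_dg hj hμ
  have e2 : ∀ z, ((x * d * x⁻¹ : isomGroup B) : V ≃ₗ[F] V) z =
      z + ((μ - 1) * B ((x : V ≃ₗ[F] V) (e j)) z) • (x : V ≃ₗ[F] V) (e j) +
        ((σ μ - 1) * B ((x : V ≃ₗ[F] V) (e k)) z) • (x : V ≃ₗ[F] V) (e k) := fun z => by
    simp only [isom_mul_apply, e1, map_add, map_smul, isom_apply_inv, isom_apply_left]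
  refine ⟨h.on.herm.qrefl_apply_of_orth _ _ _ h0, x * d * x⁻¹,
    mul_mem (mul_mem hx hd) (inv_mem hx), ⟨1 + (σ μ - 1) * σ c * c, ?_⟩, fun z hz => ⟨0, ?_⟩⟩
  · simp only [e2, h0, hk, map_smulₛₗ, LinearMap.smul_apply, h.on.self, smul_eq_mul]
    module
  · rw [e2]; simp [hk, hz, Herm.qrefl_apply, isom_apply, h.on.self]

theorem mem_of_indG (h : FX e X) {k : ι} {y : isomGroup B} (hy : y ∈ indG X (e k))
    (hy' : y ∈ sIsom B) : y ∈ X := by
  obtain ⟨h1, x, hx, ⟨c, hc⟩, h2⟩ := hy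
  have hcc : σ c * c = 1 := by
    have := isom_apply x (e k) (e k)
    simpa [hc, h.on.self, mul_comm] using this
  have hc0 : σ c ≠ 0 := left_ne_zero_of_mul_eq_one hcc
  have e1 : x = y * h.on.herm.qrefl (e k) (h.on.self_ne k) c hcc := h.on.isom_ext fun i => by
    rw [isom_mul_apply]
    by_cases hi : i = k
    · rw [hi, Herm.qrefl_apply_self, map_smul, h1, hc]
    · have h0 := h.on.ne k i (Ne.symm hi)
      obtain ⟨a, ha⟩ := h2 _ h0
      have h3 := isom_apply x (e k) (e i)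
      have h4 := isom_apply y (e k) (e i)
      rw [h1, h0] at h4
      rw [hc, ha, h0] at h3
      have : a = 0 := by simpa [h4, h.on.self, hc0] using h3
      rw [h.on.herm.qrefl_apply_of_orth _ _ _ h0, ha, this, zero_smul, add_zero]
  have e2 := mem_sIsom'.1 (h.le hx)
  rw [e1, Subgroup.coe_mul, map_mul, Units.val_mul, Herm.det_qrefl, mem_sIsom'.1 hy', one_mul] at e2
  subst e2
  rwa [e1, Herm.qrefl_one, mul_one] at hx

theorem sIsom_le_of_eich [Finite F] (h : FX e X) (hn : 4 ≤ Fintype.card ι) {l l' m : ι}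
    (hl : l ≠ l') (hm : m ≠ l) (hm' : m ≠ l') {a b : F} (ha : a ≠ 0)
    {hr : B (a • e l + b • e l') (a • e l + b • e l') = 0}
    (hE : ∀ s : F, s • e m ∈ h.on.herm.eichSub X hr) : sIsom B ≤ X := by
  classical
  have H := h.on.herm
  have hab : σ a * a + σ b * b = 0 := by
    simpa [h.on.self, h.on.ne l l' hl, h.on.ne l' l hl.symm, mul_comm] using hr
  have h1 : ∀ i, i ≠ l → i ≠ l' → ∀ s : F, s • e i ∈ H.eichSub X hr := fun i hi hi' s => by
    obtain ⟨x, hx, -, ⟨c, hc⟩, h2⟩ := h.exists_move m i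
    have hc0 : c ≠ 0 := by rintro rfl; exact h.on.ne_zero m (by simpa using hc)
    have := H.apply_mem_eichSub hx (hz := hr) (hz' := hr) (h2 _
      (by simp [h.on.ne _ _ hm, h.on.ne _ _ hm']) (by simp [h.on.ne _ _ hi, h.on.ne _ _ hi']))
      (hE (s * c⁻¹))
    rwa [map_smul, hc, smul_smul, inv_mul_cancel_right₀ hc0] at this
  have hf : H.Full X (a • e l + b • e l') := H.full_of_forall (by rw [h.on.finrank_eq]; omega) hr
    fun w hw => ⟨-(B (e l) w / a), by
      rw [← h.on.sum (w + _)]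
      refine sum_mem fun i _ => ?_
      by_cases hi : i = l
      · simp [hi, h.on.self, h.on.ne l l' hl, ha]
      by_cases hi' : i = l'
      · have : B (e l') w + -(B (e l) w / a * b) = 0 := by
          have hb : σ b ≠ 0 := fun e => by simp [e, ha] at hab
          simp only [map_add, map_smulₛₗ, LinearMap.add_apply, LinearMap.smul_apply,
            smul_eq_mul] at hw
          field_simp
          refine mul_left_cancel₀ hb ?_
          linear_combination a * hw - B (e l) w * hab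
        simp [hi', h.on.self, h.on.ne l' l hl.symm, this]
      · exact h1 i hi hi' _⟩
  obtain ⟨μ, hμ, hμ'⟩ := exists_normOne_ne_one H.ne_id H.invol
  obtain ⟨d, hd, e1⟩ := h.exists_dg hm.symm hμ
  refine H.sIsom_le_of_full (by rwa [h.on.finrank_eq]) hf (hf.apply hd) ?_
  have : B (a • e l + b • e l') ((d : V ≃ₗ[F] V) (a • e l + b • e l')) = (μ - 1) * a * σ a := by
    rw [e1, map_add, map_add, hr]
    simp [h.on.self, h.on.ne _ _ hl, h.on.ne _ _ hl.symm, h.on.ne _ _ hm, h.on.ne _ _ hm']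
  rw [this]
  exact mul_ne_zero (mul_ne_zero (fun e => hμ' (by simp [sub_eq_zero.1 e])) ha) (by simpa using ha)

theorem exists_ne_of_card {ι : Type*} [Fintype ι] (s : List ι) (hs : s.length < Fintype.card ι) :
    ∃ m, m ∉ s := by
  classical
  by_contra! hcon
  have := Finset.card_le_card (s := Finset.univ) (t := s.toFinset) fun x _ => by simp [hcon]
  exact absurd ((this.trans (List.toFinset_card_le s)).trans_lt hs) (lt_irrefl _)

/-- Step B: a non-monomial element moving a frame point to a frame point. -/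
theorem sIsom_le [Finite F] (h : FX e X) (hn : 4 ≤ Fintype.card ι) {x : isomGroup B} (hx : x ∈ X)
    (hx' : x ∉ monG B e) {j k : ι} {c : F} (hjk : (x : V ≃ₗ[F] V) (e j) = c • e k) :
    sIsom B ≤ X := by
  have H := h.on.herm
  wlog hj : j = k generalizing x j c
  · obtain ⟨s, hs, hs', ⟨c', hc'⟩, -⟩ := h.exists_move k j
    exact this (mul_mem hx hs) (by rwa [mul_mem_cancel_right hs']) (c := c' * c)
      (by rw [isom_mul_apply, hc', map_smul, hjk, smul_smul]) rfl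
  subst hj
  rw [h.on.mem_monG] at hx'
  push Not at hx'
  obtain ⟨i, hi⟩ := hx'
  have hij : i ≠ j := by rintro rfl; exact hi _ _ hjk
  have ha := h.rfA_indG hx hjk hij
  have he : ∀ i, i ≠ j → H.RfA (indG X (e j)) (e i) := fun i hi =>
    h.rfA_indG (one_mem _) (c := 1) (by simp) hi
  obtain ⟨l, l', hl, h1, h2⟩ := h.on.exists_two i hi
  have h0 : B (e j) ((x : V ≃ₗ[F] V) (e i)) = 0 := by
    have := isom_apply x (e j) (e i)
    have hc : c ≠ 0 := by rintro rfl; exact h.on.ne_zero j (by simpa using hjk)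
    rw [hjk, h.on.ne j i hij.symm] at this
    simpa [hc] using this
  have hlj : l ≠ j := by rintro rfl; exact h1 h0
  have hlj' : l' ≠ j := by rintro rfl; exact h2 h0
  obtain ⟨m, hmj, hml, hml', a, ha, h1, h2, h3⟩ : ∃ m, m ≠ j ∧ m ≠ l ∧ m ≠ l' ∧
      ∃ a, H.RfA (indG X (e j)) a ∧ B (e l) a ≠ 0 ∧ B (e l') a ≠ 0 ∧ B (e m) a ≠ 0 := by
    generalize (x : V ≃ₗ[F] V) (e i) = a at *
    by_contra! hcon
    obtain ⟨m, hm⟩ := exists_ne_of_card [j, l, l'] (by simp; omega)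
    simp only [List.mem_cons, List.not_mem_nil, or_false, not_or] at hm
    obtain ⟨hmj, hml, hml'⟩ := hm
    have h3 := hcon m hmj hml hml' a ha h1 h2
    have e0 : a = B (e l) a • e l + B (e l') a • e l' := h.on.ext fun i => by
      by_cases hi : i = l
      · simp [hi, h.on.self, h.on.ne _ _ hl]
      by_cases hi' : i = l'
      · simp [hi', h.on.self, h.on.ne _ _ hl.symm]
      by_cases hj : i = j
      · simp [hj, h0, h.on.ne _ _ hlj.symm, h.on.ne _ _ hlj'.symm]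
      · simp [hcon i hj hi hi' a ha h1 h2, h.on.ne _ _ hi, h.on.ne _ _ hi']
    have hκ : σ 1 * 1 = 1 := by simp
    obtain ⟨s, hs⟩ := h.on.exists_sw hml' hκ
    have hsj : (s : V ≃ₗ[F] V) (e j) = e j := by simp [hs, h.on.ne _ _ hmj, h.on.ne _ _ hlj']
    have hsY : s ∈ indG X (e j) := by
      obtain ⟨y, hy, -, ⟨μ, h4⟩, h5⟩ := h.exists_mul (h.on.sw_mem hml' hκ hs) j
      exact ⟨hsj, y, hy, ⟨μ, by rw [h4, hsj]⟩, fun z hz => ⟨0, by simp [h5 z hz]⟩⟩
    obtain ⟨μ, hμ, hμ'⟩ := exists_normOne_ne_one H.ne_id H.invol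
    obtain ⟨g, hg, e1⟩ := ha.exists hμ
    have hμ1 : μ - 1 ≠ 0 := fun e => hμ' (by simp [sub_eq_zero.1 e])
    have e2 : (s : V ≃ₗ[F] V) a = a + B (e l') a • (e m - e l') := by
      simp [hs, h3]
    set N := 1 - B (e l') a * B a (e l') with hN
    have e3 : B a ((s : V ≃ₗ[F] V) a) = N := by
      simp [e2, ha.1, H.comm h3, hN, sub_eq_add_neg]
    have hσN : σ N = N := by simp [hN, H.conj, mul_comm]
    have hD : 1 + (μ - 1) * N ≠ 0 := fun e4 => by
      have e5 := congrArg σ e4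
      simp only [map_add, map_mul, map_sub, map_one, hσN, map_zero] at e5
      have : (σ μ - μ) * N = 0 := by linear_combination e5 - e4
      rw [(mul_eq_zero.1 this).resolve_left (sub_ne_zero.2 hμ')] at e4
      simp at e4
    have hN0 : N ≠ 0 := fun e4 => by
      have := congrArg (B a) e0
      simp only [ha.1, map_add, map_smul, smul_eq_mul] at this
      exact mul_ne_zero h1 (H.ne_comm h1) (by linear_combination e4 - this - hN)
    refine absurd (hcon m hmj hml hml' _ ((ha.apply hsY).apply hg) ?_ ?_) ?_ <;> rw [e1, e3, e2]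
    · simp only [map_add, map_smul, map_sub, h.on.ne _ _ (Ne.symm hml), h.on.ne _ _ hl,
        smul_eq_mul]
      convert mul_ne_zero hD h1 using 1; ring
    · simp [h.on.ne _ _ (Ne.symm hml'), h.on.self, hμ1, hN0, h2]
    · simp [h.on.ne _ _ hml', h.on.self, h2, h3]
  obtain ⟨a', b', c', ha', -, hc', hr, g, hg, e1⟩ := Herm.exists_shear ha (he l hlj) (he l' hlj')
    (h.on.ne _ _ hl) (h.on.ne _ _ (Ne.symm hml)) (h.on.ne _ _ (Ne.symm hml')) h1 h2 h3
  refine h.sIsom_le_of_eich hn hl hml hml' ha' (hr := hr) fun s => ?_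
  obtain ⟨hw, b, hb, h4⟩ := Herm.smul_mem_eichSub_of_shear (he m hmj) hr
    (by simp [h.on.ne _ _ (Ne.symm hml), h.on.ne _ _ (Ne.symm hml')]) hc' hg e1 s
  exact ⟨hw, b, hb, h.mem_of_indG h4 (H.eich_mem_sIsom ..)⟩

end FX
end Cfsg.Lib.Class.Form
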