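import Cfsg.Agent.Class.SU.FrameB
import Cfsg.Agent.Class.C6.Endgame

/-! Overgroups of frame stabilisers in `SU(V)` in which frame points have monomial stabilisers. -/

namespace Cfsg.Lib.Class.Form
open Module

variable {F V : Type*} [Field F] [AddCommGroup V] [Module F V] {σ : F →+* F}
  {B : V →ₛₗ[σ] V →ₗ[F] F} {ι : Type*} [Fintype ι] {e : ι → V} {X : Subgroup (isomGroup B)}

theorem exists_three_normOne (hσ : σ ≠ RingHom.id F) (hσ2 : ∀ a, σ (σ a) = a) {l : F}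
    (hl : σ l = l) (hl0 : l ≠ 0) (hl1 : l ≠ 1) : ∃ a b c : F, a ≠ b ∧ a ≠ c ∧ b ≠ c ∧
      ∀ μ ∈ [a, b, c], σ μ * μ = 1 ∧ μ ≠ 1 := by
  obtain ⟨θ, hθ⟩ : ∃ θ, σ θ ≠ θ := by
    by_contra! hcon; exact hσ (RingHom.ext hcon)
  have h0 : ∀ s, σ s = s → θ + s ≠ 0 := fun s hs e => hθ (by
    rw [eq_neg_of_add_eq_zero_left e, map_neg, hs])
  have h0' : ∀ s, σ s = s → σ θ + s ≠ 0 := fun s hs => by
    simpa [hs] using (map_ne_zero σ).2 (h0 s hs)
  have h1 : ∀ s t, σ s = s → σ t = t → s ≠ t → (σ θ + s) / (θ + s) ≠ (σ θ + t) / (θ + t) :=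
    fun s t hs ht hst e => by
      rw [div_eq_div_iff (h0 s hs) (h0 t ht)] at e
      have : (σ θ - θ) * (t - s) = 0 := by linear_combination e
      simp [sub_eq_zero, hθ, hst.symm] at this
  have h2 : ∀ s, σ s = s → σ ((σ θ + s) / (θ + s)) * ((σ θ + s) / (θ + s)) = 1 ∧
      (σ θ + s) / (θ + s) ≠ 1 := fun s hs => by
    have := h0 s hs
    have := h0' s hs
    refine ⟨by rw [map_div₀, map_add, map_add, hσ2, hs]; field_simp, fun e => hθ ?_⟩
    rw [div_eq_one_iff_eq (h0 s hs)] at e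
    exact add_right_cancel e
  refine ⟨_, _, _, h1 0 1 (map_zero σ) (map_one σ) zero_ne_one, h1 0 l (map_zero σ) hl hl0.symm,
    h1 1 l (map_one σ) hl hl1.symm, ?_⟩
  simp only [List.mem_cons, List.not_mem_nil, or_false]
  rintro μ (rfl | rfl | rfl)
  exacts [h2 0 (map_zero σ), h2 1 (map_one σ), h2 l hl]

theorem det_two_kill {a₁ b₁ a₂ b₂ p₁ q₁ p₂ q₂ p q : F} (h1 : a₁ * p₁ + b₁ * q₁ = -1)
    (h2 : a₂ * p₁ + b₂ * q₁ = 0) (h4 : a₂ * p₂ + b₂ * q₂ = -1)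
    (h5 : a₁ * p + b₁ * q = 0) (h6 : a₂ * p + b₂ * q = 0) : p = 0 ∧ q = 0 := by
  have hD : (a₁ * b₂ - a₂ * b₁) * (p₁ * q₂ - p₂ * q₁) = 1 := by
    linear_combination (a₂ * p₂ + b₂ * q₂) * h1 - h4 - (a₁ * p₂ + b₁ * q₂) * h2
  have hD0 := left_ne_zero_of_mul_eq_one hD
  exact ⟨mul_left_cancel₀ hD0 (by linear_combination b₂ * h5 - b₁ * h6),
    mul_left_cancel₀ hD0 (by linear_combination a₁ * h6 - a₂ * h5)⟩

theorem dih_odd_conj {G : Type*} [Group G] {s u : G} (hs : s * s = 1) (hu : u * u = 1)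
    (h : Odd (orderOf (s * u))) :
    ∃ j : ℕ, ((s * u) ^ j * s * ((s * u) ^ j)⁻¹) * s * ((s * u) ^ j * s * ((s * u) ^ j)⁻¹)⁻¹ = u := by
  obtain ⟨m, hm⟩ := h
  have h0 := C6.dih_left hs hu
  have h1 : (s * u) ^ (2 * m) = (s * u)⁻¹ :=
    eq_inv_of_mul_eq_one_left (by rw [← pow_succ, ← hm, pow_orderOf_eq_one])
  refine ⟨2 * m ^ 3, ?_⟩
  rw [C6.dih_conj_pow h0, mul_assoc _ s s, hs, mul_one, mul_inv_rev,
    inv_eq_of_mul_eq_one_right hs, ← mul_assoc, C6.dih_conj_pow h0,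
    show 2 * (2 * (2 * m ^ 3)) = 2 * m * (2 * m) * (2 * m) by ring, pow_mul, pow_mul _ (2 * m), h1,
    inv_pow, h1, inv_inv, h1, mul_inv_rev, inv_eq_of_mul_eq_one_right hs,
    inv_eq_of_mul_eq_one_right hu, mul_assoc, hs, mul_one]

theorem ON.exists_perm (h : ON B e) {g : isomGroup B} (hg : g ∈ monG B e) :
    ∃ (π : Equiv.Perm ι) (c : ι → F), ∀ i, c i ≠ 0 ∧ (g : V ≃ₗ[F] V) (e i) = c i • e (π i) := by
  obtain ⟨π, hπ⟩ := hg
  have : ∀ i, ∃ c : F, c ≠ 0 ∧ (g : V ≃ₗ[F] V) (e i) = c • e (π i) := fun i => by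
    obtain ⟨c, hc⟩ := Submodule.mem_span_singleton.1
      ((hπ i).le (Submodule.mem_map_of_mem (Submodule.mem_span_singleton_self _)))
    exact ⟨c, by rintro rfl; exact h.ne_zero i (by simpa using hc.symm), hc.symm⟩
  choose c hc using this
  exact ⟨π, c, hc⟩

variable [FiniteDimensional F V]

theorem ON.mem_monG_map (h : ON B e) {g x : isomGroup B} :
    x ∈ monG B (fun i => (g : V ≃ₗ[F] V) (e i)) ↔ g⁻¹ * x * g ∈ monG B e := by
  rw [h.mem_monG, (h.map g).mem_monG]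
  refine forall_congr' fun i => exists₂_congr fun j c => ?_
  rw [isom_mul_apply, isom_mul_apply, ← map_smul]
  exact ⟨fun e => by rw [e, isom_inv_apply], fun e => by rw [← e, isom_apply_inv]⟩

theorem FX.map (h : FX e X) {g : isomGroup B} (hg : g ∈ X) :
    FX (fun i => (g : V ≃ₗ[F] V) (e i)) X :=
  ⟨h.on.map g, fun x hx hx' => by
    have := h.mem _ (h.on.mem_monG_map.1 hx) (mul_mem (mul_mem (inv_mem (h.le hg)) hx') (h.le hg))
    rwa [mul_mem_cancel_right hg, mul_mem_cancel_left (inv_mem hg)] at this, h.le⟩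

/-- An element of `X` moving a frame point to a frame point is monomial. -/
structure Ctx (e : ι → V) (X : Subgroup (isomGroup B)) : Prop extends FX e X where
  ctx : ∀ x ∈ X, ∀ j k, ∀ c : F, (x : V ≃ₗ[F] V) (e j) = c • e k → x ∈ monG B e

namespace Ctx

theorem map (h : Ctx e X) {g : isomGroup B} (hg : g ∈ X) :
    Ctx (fun i => (g : V ≃ₗ[F] V) (e i)) X :=
  ⟨h.toFX.map hg, fun x hx j k c hc => h.on.mem_monG_map.2
    (h.ctx _ (mul_mem (mul_mem (inv_mem hg) hx) hg) j k c (by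
      rw [isom_mul_apply, isom_mul_apply, hc, ← map_smul, isom_inv_apply]))⟩

omit [FiniteDimensional F V] in
theorem of_fix (h : Ctx e X) {x : isomGroup B} (hx : x ∈ X) {j : ι}
    (hj : (x : V ≃ₗ[F] V) (e j) = e j) : x ∈ monG B e :=
  h.ctx x hx j j 1 (by rw [hj, one_smul])

theorem exists_supp (h : Ctx e X) (hq : ∃ l : F, σ l = l ∧ l ≠ 0 ∧ l ≠ 1) {g : isomGroup B}
    (hg : g ∈ X) (hg' : g ∉ monG B e) {i i' j : ι} (hi : i ≠ i')
    (h1 : B (e i) ((g : V ≃ₗ[F] V) (e j)) = 0) (h2 : B (e i') ((g : V ≃ₗ[F] V) (e j)) = 0) :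
    ∃ m, B (e i) ((g : V ≃ₗ[F] V) (e m)) ≠ 0 ∧ B (e i') ((g : V ≃ₗ[F] V) (e m)) ≠ 0 ∧
      ∀ l, l ≠ i → l ≠ i' → B (e l) ((g : V ≃ₗ[F] V) (e m)) = 0 := by
  have H := h.on.herm
  obtain ⟨m, hm⟩ : ∃ m, B (e i) ((g : V ≃ₗ[F] V) (e m)) ≠ 0 := by
    by_contra! hcon
    exact h.on.ne_zero i ((h.on.map g).ext fun m => by simpa using H.comm (hcon m))
  have key : ∀ l, l ≠ i → l ≠ i' → B (e l) ((g : V ≃ₗ[F] V) (e m)) = 0 := fun l hl hl' => by
    by_contra h3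
    set u := (g : V ≃ₗ[F] V) (e m) with hu
    have h4 : ∀ μ : F, σ μ * μ = 1 ∧ μ ≠ 1 → B (e i) u * B u (e i) * μ ^ 2 +
        (1 - B (e i) u * B u (e i) - B (e i') u * B u (e i')) * μ + B (e i') u * B u (e i') = 0 := by
      rintro μ ⟨hμ, hμ1⟩
      obtain ⟨d, hd, e1⟩ := h.exists_dg hi hμ
      obtain ⟨k, c, hc⟩ := (h.on.map g).mem_monG.1
        ((h.map hg).of_fix hd (j := j) (by simp [e1, h1, h2])) m
      rw [← hu] at hc
      by_cases hk : k = m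
      · rw [hk, ← hu, e1] at hc
        have e2 := congrArg (B (e l)) hc
        have e3 := congrArg (B (e i)) hc
        simp only [map_add, map_smul, h.on.ne _ _ hl, h.on.ne _ _ hl', h.on.self, h.on.ne _ _ hi,
          smul_eq_mul] at e2 e3
        have : c = 1 := mul_right_cancel₀ h3 (by linear_combination -e2)
        subst this
        exact absurd (mul_right_cancel₀ hm (by linear_combination e3)) hμ1
      · have e2 := congrArg (B u) hc
        have e3 : B u u = 1 := (h.on.map g).self m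
        rw [e1, map_smul, (h.on.map g).ne _ _ (Ne.symm hk)] at e2
        simp only [map_add, map_smul, e3, smul_eq_mul] at e2
        linear_combination μ * e2 - B (e i') u * B u (e i') * hμ
    obtain ⟨l, hl, hl0, hl1⟩ := hq
    obtain ⟨a, b, c, hab, hac, hbc, h5⟩ := exists_three_normOne H.ne_id H.invol hl hl0 hl1
    have ea := h4 a (h5 a (by simp))
    have eb := h4 b (h5 b (by simp))
    have ec := h4 c (h5 c (by simp))
    have : B (e i) u * B u (e i) * ((a - b) * (a - c) * (b - c)) = 0 := by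
      linear_combination (b - c) * ea - (a - c) * eb + (a - b) * ec
    simp [sub_eq_zero, hab, hac, hbc, hm, H.ne_comm hm] at this
  refine ⟨m, hm, fun h3 => hg' (h.ctx g hg m i _ (h.on.eq_smul fun l hl => ?_)), key⟩
  by_cases hl' : l = i'
  · rwa [hl']
  · exact key l hl hl'

/-- The columns of a non-monomial element have at most one zero. -/
theorem two_zero (h : Ctx e X) (hq : ∃ l : F, σ l = l ∧ l ≠ 0 ∧ l ≠ 1) (hn : 5 ≤ Fintype.card ι)
    {g : isomGroup B} (hg : g ∈ X) (hg' : g ∉ monG B e) {i i' j : ι} (hi : i ≠ i')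
    (h1 : B (e i) ((g : V ≃ₗ[F] V) (e j)) = 0) (h2 : B (e i') ((g : V ≃ₗ[F] V) (e j)) = 0) :
    False := by
  obtain ⟨m, -, -, hm⟩ := h.exists_supp hq hg hg' hi h1 h2
  obtain ⟨a, ha⟩ := FX.exists_ne_of_card [i, i'] (by simp; omega)
  obtain ⟨b, hb⟩ := FX.exists_ne_of_card [i, i', a] (by simp; omega)
  obtain ⟨c, hc⟩ := FX.exists_ne_of_card [i, i', a, b] (by simp; omega)
  simp only [List.mem_cons, List.not_mem_nil, or_false, not_or] at ha hb hc
  obtain ⟨k, k1, k2, k3⟩ := h.exists_supp hq hg hg' hb.2.2 (hm b hb.1 hb.2.1) (hm a ha.1 ha.2)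
  obtain ⟨l, l1, l2, l3⟩ := h.exists_supp hq hg hg' hc.2.2.1 (hm c hc.1 hc.2.1) (hm a ha.1 ha.2)
  have hkl : k ≠ l := by rintro rfl; exact k1 (l3 b (Ne.symm hc.2.2.2) hb.2.2)
  have e1 := (h.on.map g).ne k l hkl
  have e2 : (g : V ≃ₗ[F] V) (e l) = B (e c) ((g : V ≃ₗ[F] V) (e l)) • e c +
      B (e a) ((g : V ≃ₗ[F] V) (e l)) • e a := h.on.ext fun p => by
    by_cases hp : p = c
    · simp [hp, h.on.self, h.on.ne _ _ hc.2.2.1]
    by_cases hp' : p = a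
    · simp [hp', h.on.self, h.on.ne _ _ (Ne.symm hc.2.2.1)]
    · simp [l3 p hp hp', h.on.ne _ _ hp, h.on.ne _ _ hp']
  rw [e2, map_add, map_smul, map_smul, h.on.herm.comm (k3 c hc.2.2.2 hc.2.2.1)] at e1
  simp [l2, h.on.herm.ne_comm k2] at e1

theorem two_zero' (h : Ctx e X) (hq : ∃ l : F, σ l = l ∧ l ≠ 0 ∧ l ≠ 1) (hn : 5 ≤ Fintype.card ι)
    {g : isomGroup B} (hg : g ∈ X) (hg' : g ∉ monG B e) {i i' j : ι} (hi : i ≠ i')
    (h1 : B ((g : V ≃ₗ[F] V) (e i)) (e j) = 0) (h2 : B ((g : V ≃ₗ[F] V) (e i')) (e j) = 0) :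
    False :=
  h.two_zero hq hn (inv_mem hg) (by rwa [inv_mem_iff]) hi (by rwa [← isom_apply_left])
    (by rwa [← isom_apply_left])

end Ctx
end Cfsg.Lib.Class.Form
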