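import Cfsg.Agent.Class.SU.FrameOdd

/-! Overgroups of frame stabilisers in `SU(V)`: characteristic two, and the maximality theorem. -/

namespace Cfsg.Lib.Class.Form
open Module

variable {F V : Type*} [Field F] [AddCommGroup V] [Module F V] {σ : F →+* F}
  {B : V →ₛₗ[σ] V →ₗ[F] F} {ι : Type*} [Fintype ι] {e : ι → V} {X : Subgroup (isomGroup B)}

/-- `t` is the transvection `x ↦ x - B w x • w`. -/
def IsV (t : isomGroup B) (w : V) : Prop := ∀ x, (t : V ≃ₗ[F] V) x = x - B w x • w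

theorem IsV.conj {t : isomGroup B} {w : V} (h : IsV t w) (g : isomGroup B) :
    IsV (g * t * g⁻¹) ((g : V ≃ₗ[F] V) w) := fun x => by
  rw [isom_mul_apply, isom_mul_apply, h]
  simp only [map_sub, map_smul, isom_apply_inv, isom_apply_left]

theorem IsV.mul_self (h2 : (2 : F) = 0) {t : isomGroup B} {w : V} (h : IsV t w) (hw : B w w = 0) :
    t * t = 1 := isom_ext fun x => by
  rw [isom_mul_apply, h, h, map_sub, map_smul, hw]
  change _ = x
  match_scalars
  · rfl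
  · linear_combination -B w x * h2

theorem IsV.eq_smul {t : isomGroup B} {v w x : V} (h : IsV t v) (h' : IsV t w) (hx : B w x ≠ 0) :
    ∃ c : F, w = c • v :=
  ⟨B v x / B w x, by
    have := sub_right_injective ((h x).symm.trans (h' x))
    rw [div_eq_inv_mul, mul_smul, this, smul_smul, inv_mul_cancel₀ hx, one_smul]⟩

theorem ON.iso_sub (h : ON B e) (h2 : (2 : F) = 0) {i j : ι} (hij : i ≠ j) {κ : F}
    (hκ : σ κ * κ = 1) : B (e i - κ • e j) (e i - κ • e j) = 0 := by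
  simp only [map_sub, map_smulₛₗ, LinearMap.sub_apply, LinearMap.smul_apply, h.self,
    h.ne _ _ hij, h.ne _ _ hij.symm, smul_eq_mul, RingHom.id_apply]
  linear_combination hκ + h2

theorem ON.eq_pair (h : ON B e) {x : V} {k l : ι} (hkl : k ≠ l)
    (hx : ∀ i, i ≠ k → i ≠ l → B (e i) x = 0) : x = B (e k) x • e k + B (e l) x • e l :=
  h.ext fun i => by
    by_cases hk : i = k
    · simp [hk, h.self, h.ne _ _ hkl]
    by_cases hl : i = l
    · simp [hl, h.self, h.ne _ _ hkl.symm]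
    · simp [hx i hk hl, h.ne _ _ hk, h.ne _ _ hl]

variable [FiniteDimensional F V]

theorem FX.exists_isV (h : FX e X) (h2 : (2 : F) = 0) {i j : ι} (hij : i ≠ j) {κ : F}
    (hκ : σ κ * κ = 1) : ∃ t ∈ X, t ∈ monG B e ∧ IsV t (e i - κ • e j) := by
  obtain ⟨s, hs⟩ := h.on.exists_sw hij hκ
  have := h.on.sw_mem hij hκ hs
  refine ⟨s, h.mem s this (IsTransv.mem_sIsom ⟨_, -1, h.on.iso_sub h2 hij hκ, fun x => ?_⟩), this,
    hs⟩
  rw [hs]; module

theorem ON.supp_of_isV (h : ON B e) {t : isomGroup B} {w : V} (ht : IsV t w) (hw : B w w = 0)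
    (hw0 : w ≠ 0) (ht' : t ∈ monG B e) :
    ∃ k l, k ≠ l ∧ B (e k) w ≠ 0 ∧ ∀ i, i ≠ k → i ≠ l → B (e i) w = 0 := by
  obtain ⟨k, hk⟩ : ∃ k, B (e k) w ≠ 0 := by
    by_contra! hcon
    exact hw0 (h.ext fun i => by simp [hcon])
  obtain ⟨l, c, hc⟩ := h.mem_monG.1 ht' k
  have key : ∀ i, i ≠ k → i ≠ l → B (e i) w = 0 := fun i h1 h2 => by
    simpa [ht (e k), h.ne _ _ h1, h.ne _ _ h2, h.herm.ne_comm hk] using congrArg (B (e i)) hc
  refine ⟨k, l, ?_, hk, key⟩
  rintro rfl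
  rw [h.eq_smul (x := w) (j := k) fun i hi => key i hi hi] at hw
  simp [h.self, hk] at hw

theorem FX.rfA_indG_pair [Finite F] (h : FX e X) (h2 : (2 : F) = 0) {i j m : ι} (hij : i ≠ j)
    (hi : i ≠ m) (hj : j ≠ m) {a b : F} (ha : a ≠ 0)
    (hw : B (a • e i + b • e j) (a • e i + b • e j) = 0) :
    h.on.herm.RfA (indG X (a • e i + b • e j)) (e m) := by
  have H := h.on.herm
  refine ⟨h.on.self m, fun hm μ hμ => ?_⟩
  have : CharP F 2 := (CharP.charP_iff_prime_eq_zero Nat.prime_two).2 (by exact_mod_cast h2)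
  obtain ⟨ρ, rfl⟩ := FiniteField.isSquare_of_char_two (F := F) (ringChar.eq F 2) μ
  have hρ : σ (σ ρ) * σ ρ = 1 := by
    have : (σ ρ * ρ - 1) ^ 2 = 0 := by
      rw [map_mul] at hμ; linear_combination hμ + (1 - σ ρ * ρ) * h2
    rw [H.invol, mul_comm]; simpa [sub_eq_zero] using this
  obtain ⟨d, hd, e1⟩ := h.exists_dg hi hρ
  obtain ⟨d', hd', e2⟩ := h.exists_dg hj hρ
  have hab : σ a * a + σ b * b = 0 := by
    simpa [h.on.self, h.on.ne _ _ hij, h.on.ne _ _ hij.symm, mul_comm] using hw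
  have e3 : ∀ z, ((d * d' : isomGroup B) : V ≃ₗ[F] V) z = z + ((σ ρ - 1) * B (e i) z) • e i +
      ((σ ρ - 1) * B (e j) z) • e j + ((ρ * ρ - 1) * B (e m) z) • e m := fun z => by
    simp only [isom_mul_apply, e1, e2, map_add, map_smul, H.invol, h.on.self, h.on.ne _ _ hij,
      h.on.ne _ _ hi, h.on.ne _ _ hj.symm, smul_eq_mul]
    module
  refine ⟨H.qrefl_apply_of_orth _ _ _ (by simp [h.on.ne _ _ hi.symm, h.on.ne _ _ hj.symm]),
    d * d', mul_mem hd hd', ⟨σ ρ, ?_⟩, fun z hz => ⟨(σ ρ - 1) * B (e i) z / a, ?_⟩⟩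
  · simp only [e3, map_add, map_smul, h.on.self, h.on.ne _ _ hij, h.on.ne _ _ hi.symm,
      h.on.ne _ _ hj.symm, h.on.ne _ _ hij.symm, smul_eq_mul]
    module
  · have hb : σ b ≠ 0 := fun e => by simp [e, ha] at hab
    simp only [map_add, map_smulₛₗ, LinearMap.add_apply, LinearMap.smul_apply, smul_eq_mul] at hz
    have e4 : B (e j) z = B (e i) z / a * b := by
      field_simp
      refine mul_left_cancel₀ hb ?_
      linear_combination a * hz - B (e i) z * hab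
    rw [e3, H.qrefl_apply, h.on.self, e4]
    match_scalars <;> field_simp

namespace Ctx
variable [Finite F]

theorem lemV (h : Ctx e X) (h2 : (2 : F) = 0) (hq : ∃ l : F, σ l = l ∧ l ≠ 0 ∧ l ≠ 1)
    (hn : 7 ≤ Fintype.card ι) {g t : isomGroup B} (hg : g ∈ X) {i j : ι} (hij : i ≠ j)
    (ht : IsV t ((g : V ≃ₗ[F] V) (e i - (1 : F) • e j))) (ht' : t ∈ monG B e) :
    g ∈ monG B e := by
  by_contra hg'
  have H := h.on.herm
  set w := (g : V ≃ₗ[F] V) (e i - (1 : F) • e j) with hwdef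
  have hw : B w w = 0 := by rw [isom_apply]; exact h.on.iso_sub h2 hij (by simp)
  have hw1 : w = (1 : F) • (g : V ≃ₗ[F] V) (e i) + (-1 : F) • (g : V ≃ₗ[F] V) (e j) := by
    rw [hwdef, map_sub, map_smul]; module
  have hw0 : w ≠ 0 := fun e1 => by
    simpa [hw1, isom_apply, h.on.self, h.on.ne _ _ hij] using congrArg (B ((g : V ≃ₗ[F] V) (e i))) e1
  obtain ⟨k, k', hk, hkw, h1⟩ := h.on.supp_of_isV ht hw hw0 ht'
  have hw2 := h.on.eq_pair hk h1
  have r1 : ∀ m, k ≠ m → k' ≠ m → H.RfA (indG X w) (e m) := fun m h3 h4 => by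
    rw [hw2] at hw ⊢; exact h.toFX.rfA_indG_pair h2 hk h3 h4 hkw hw
  obtain ⟨m₀, hm₀⟩ := FX.exists_ne_of_card [i, j] (by simp; omega)
  simp only [List.mem_cons, List.not_mem_nil, or_false, not_or] at hm₀
  have r2 : H.RfA (indG X w) ((g : V ≃ₗ[F] V) (e m₀)) := by
    rw [hw1] at hw ⊢
    exact (h.toFX.map hg).rfA_indG_pair h2 hij (Ne.symm hm₀.1) (Ne.symm hm₀.2) one_ne_zero hw
  obtain ⟨z, hz⟩ : ∃ z, ∀ p, p ≠ z → B (e p) ((g : V ≃ₗ[F] V) (e m₀)) ≠ 0 := by
    by_contra! hcon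
    obtain ⟨p, -, h3⟩ := hcon i
    obtain ⟨p', h4, h5⟩ := hcon p
    exact h.two_zero hq (by omega) hg hg' h4 h5 h3
  obtain ⟨l, hl⟩ := FX.exists_ne_of_card [k, k', z] (by simp; omega)
  obtain ⟨l', hl'⟩ := FX.exists_ne_of_card [k, k', z, l] (by simp; omega)
  obtain ⟨m, hm⟩ := FX.exists_ne_of_card [k, k', z, l, l'] (by simp; omega)
  obtain ⟨p, hp⟩ := FX.exists_ne_of_card [k, k', l, l', m] (by simp; omega)
  obtain ⟨p', hp'⟩ := FX.exists_ne_of_card [k, k', l, l', m, p] (by simp; omega)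
  simp only [List.mem_cons, List.not_mem_nil, or_false, not_or] at hl hl' hm hp hp'
  obtain ⟨a, b, c, ha, -, hc, -, y, ⟨-, x, hx, -, hy⟩, e1⟩ := Herm.exists_shear r2
    (r1 l (Ne.symm hl.1) (Ne.symm hl.2.1)) (r1 l' (Ne.symm hl'.1) (Ne.symm hl'.2.1))
    (h.on.ne _ _ (Ne.symm hl'.2.2.2)) (h.on.ne _ _ (Ne.symm hm.2.2.2.1))
    (h.on.ne _ _ (Ne.symm hm.2.2.2.2)) (hz l hl.2.2) (hz l' hl'.2.2.1) (hz m hm.2.2.1)
  obtain ⟨d, hd⟩ := hy (e m) (H.comm (h1 m hm.1 hm.2.1))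
  rw [e1] at hd
  refine h.two_zero hq (by omega) hx (fun hx' => ?_) hp'.2.2.2.2.2 (j := m) ?_ ?_
  · obtain ⟨n, s, hs⟩ := h.on.mem_monG.1 hx' m
    rw [hd] at hs
    by_cases hn : m = n
    · simpa [← hn, h.on.self, h1 l hl.1 hl.2.1, h.on.ne _ _ (Ne.symm hm.2.2.2.1),
        h.on.ne _ _ (Ne.symm hl'.2.2.2), ha, hc] using congrArg (B (e l)) hs
    · simpa [h.on.self, h1 m hm.1 hm.2.1, h.on.ne _ _ hm.2.2.2.1, h.on.ne _ _ hm.2.2.2.2,
        h.on.ne _ _ hn] using congrArg (B (e m)) hs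
  · simp [hd, h1 p' hp'.1 hp'.2.1, h.on.ne, hp']
  · simp [hd, h1 p hp.1 hp.2.1, h.on.ne, hp]

theorem odd_of_isV (h2 : (2 : F) = 0) {a b : isomGroup B} {v w : V} (H : Herm B) (ha : IsV a v)
    (hb : IsV b w) (hv : B v v = 0) (hw : B w w = 0) (hvw : B v w ≠ 0) :
    Odd (orderOf (a * b)) := by
  have := C6.eg_finite_linearEquiv (K := F) (V := V)
  by_contra hev
  have m1 : ∀ {t : isomGroup B} {u}, IsV t u → u ∈ spanL F [v, w] → t ∈ mov B (spanL F [v, w]) :=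
    fun ht hu x => by rw [ht, sub_sub_cancel_left]; exact neg_mem (Submodule.smul_mem _ _ hu)
  obtain ⟨z, hz1, hzz, hza, hzb, -⟩ := C6.dih_even (G := mov B (spanL F [v, w]))
    (s := ⟨a, m1 ha (mem_spanL_of_mem (by simp))⟩) (u := ⟨b, m1 hb (mem_spanL_of_mem (by simp))⟩)
    (Subtype.ext (ha.mul_self h2 hv)) (Subtype.ext (hb.mul_self h2 hw))
    (by rw [← Subgroup.orderOf_coe]; exact Nat.not_odd_iff_even.1 hev)
  have key : ∀ {t : isomGroup B} {u x}, IsV t u → z.1 * t = t * z.1 → B u x ≠ 0 →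
      (z.1 : V ≃ₗ[F] V) u = u := fun {t u x} ht hc hx => by
    have h1 := ht.conj z.1
    rw [hc, mul_inv_cancel_right] at h1
    obtain ⟨c, hc⟩ := ht.eq_smul h1 (x := (z.1 : V ≃ₗ[F] V) x) (by rwa [isom_apply])
    have h3 := congrArg (fun g : mov B (spanL F [v, w]) => B ((g.1 : V ≃ₗ[F] V) u) x) hzz
    simp only [Subgroup.coe_mul, LinearEquiv.mul_apply, hc, map_smulₛₗ, Subgroup.coe_one,
      LinearEquiv.coe_one, id, LinearMap.smul_apply, smul_eq_mul, RingHom.id_apply] at h3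
    have h4 : (σ c - 1) ^ 2 * B u x = 0 := by linear_combination h3 + (1 - σ c) * B u x * h2
    have h5 : σ c = σ 1 := by simpa [hx, sub_eq_zero] using h4
    rw [hc, σ.injective h5, one_smul]
  have e1 := key ha (congrArg Subtype.val hza) hvw
  have e2 := key hb (congrArg Subtype.val hzb) (H.ne_comm hvw)
  refine hz1 (Subtype.ext (isom_ext fun x => ?_))
  obtain ⟨c, d, hcd⟩ := mem_spanL_pair.1 (z.2 x)
  have e3 := congrArg (B v) hcd
  have e4 := congrArg (B w) hcd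
  rw [map_sub] at e3 e4
  nth_rw 3 [← e1] at e3
  nth_rw 3 [← e2] at e4
  simp only [isom_apply, map_add, map_smul, hv, hw, smul_eq_mul, sub_self, mul_zero, zero_add,
    add_zero, mul_eq_zero, hvw, H.ne_comm hvw, or_false] at e3 e4
  rw [e3, e4, zero_smul, zero_smul, add_zero] at hcd
  exact sub_eq_zero.1 hcd.symm

theorem mem_monG_of_lemV (h : Ctx e X) (h2 : (2 : F) = 0) (hn : 5 ≤ Fintype.card ι)
    (hV : ∀ g ∈ X, ∀ t i j, i ≠ j → IsV t ((g : V ≃ₗ[F] V) (e i - (1 : F) • e j)) →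
      t ∈ monG B e → g ∈ monG B e) {g : isomGroup B} (hg : g ∈ X) : g ∈ monG B e := by
  by_contra hg'
  have H := h.on.herm
  have h1 : σ 1 * 1 = 1 := by simp
  obtain ⟨f⟩ : Nonempty (Fin 5 ↪ ι) := Function.Embedding.nonempty_of_card_le (by simpa)
  have hf : ∀ {i j}, i ≠ j → f i ≠ f j := fun hij => f.injective.ne hij
  have hB : ∀ {i j}, i ≠ j → B (e (f i)) (e (f j)) = 0 := fun hij => h.on.ne _ _ (hf hij)
  obtain ⟨a₀, ha₀, ha₀', t₀⟩ := h.toFX.exists_isV h2 (hf (show 0 ≠ 1 by decide)) h1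
  have hbX := mul_mem (mul_mem hg ha₀) (inv_mem hg)
  have hb := t₀.conj g
  have hw : B ((g : V ≃ₗ[F] V) (e (f 0) - (1 : F) • e (f 1)))
      ((g : V ≃ₗ[F] V) (e (f 0) - (1 : F) • e (f 1))) = 0 := by
    rw [isom_apply]; exact h.on.iso_sub h2 (hf (by decide)) h1
  have key : ∀ i j, i ≠ j → ∃ a s y, IsV a (e i - (1 : F) • e j) ∧ s ∈ X ∧ IsV s y ∧ s * s = 1 ∧
      s * a * s = g * a₀ * g⁻¹ ∧ g⁻¹ * s ∈ monG B e := fun i j hij => by
    obtain ⟨a, haX, ha', ha⟩ := h.toFX.exists_isV h2 hij h1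
    have hv := h.on.iso_sub h2 hij h1
    have hvw : B (e i - (1 : F) • e j) ((g : V ≃ₗ[F] V) (e (f 0) - (1 : F) • e (f 1))) ≠ 0 :=
      fun e1 => hg' (hV g hg _ _ _ (hf (by decide)) hb (hV _ hbX a i j hij (by
        rw [hb, H.comm e1, zero_smul, sub_zero]; exact ha) ha'))
    obtain ⟨m, hm⟩ := dih_odd_conj (ha.mul_self h2 hv) (hb.mul_self h2 hw)
      (odd_of_isV h2 H ha hb hv hw hvw)
    have hr := pow_mem (mul_mem haX hbX) m
    have hs := mul_mem (mul_mem hr haX) (inv_mem hr)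
    have h3 := ha.conj ((a * (g * a₀ * g⁻¹)) ^ m)
    have h4 := h3.mul_self h2 (by rwa [isom_apply])
    generalize (a * (g * a₀ * g⁻¹)) ^ m * a * ((a * (g * a₀ * g⁻¹)) ^ m)⁻¹ = s at *
    refine ⟨a, s, _, ha, hs, h3, h4, by rw [← hm, inv_eq_of_mul_eq_one_right h4],
      hV _ (mul_mem (inv_mem hg) hs) _ i j hij (ha.conj _) ?_⟩
    convert ha₀' using 1
    calc g⁻¹ * s * a * (g⁻¹ * s)⁻¹ = g⁻¹ * (s * a * s⁻¹) * g := by group
      _ = a₀ := by rw [hm]; group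
  obtain ⟨a, s, y, ha, hs, hy, hss, h3, h4⟩ := key _ _ (hf (show 0 ≠ 1 by decide))
  obtain ⟨a', s', y', ha', -, hy', hss', h3', h4'⟩ := key _ _ (hf (show 2 ≠ 3 by decide))
  have e1 : s' * s * a * (s' * s)⁻¹ = a' := by
    rw [mul_inv_eq_iff_eq_mul]
    calc s' * s * a = s' * (s * a * s) * s := by rw [mul_assoc _ _ s, mul_assoc _ s s, hss]; group
      _ = (s' * s') * a' * (s' * s) := by rw [h3, ← h3']; group
      _ = _ := by rw [hss', one_mul]
  have e2 : s' * s ∈ monG B e := by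
    convert mul_mem (inv_mem h4') h4 using 1
    rw [mul_inv_rev, inv_eq_of_mul_eq_one_right hss']; group
  obtain ⟨π, c, hc⟩ := h.on.exists_perm e2
  have e3 := ha.conj (s' * s)
  rw [e1] at e3
  obtain ⟨d, hd⟩ := ha'.eq_smul e3 (x := ((s' * s : isomGroup B) : V ≃ₗ[F] V) (e (f 0)))
    (by rw [isom_apply]; simp [h.on.self, hB])
  rw [map_sub, map_smul, (hc _).2, (hc _).2] at hd
  have e4 : ∀ p : Fin 5, p ≠ 2 → p ≠ 3 → f p ≠ π (f 0) ∧ f p ≠ π (f 1) := fun p p2 p3 => by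
    have := congrArg (B (e (f p))) hd
    have h01 : π (f 0) ≠ π (f 1) := π.injective.ne (hf (by decide))
    simp only [map_sub, map_smul, hB p2, hB p3] at this
    refine ⟨fun e5 => ?_, fun e5 => ?_⟩
    · simp [e5, h.on.self, h.on.ne _ _ h01, (hc _).1] at this
    · simp [e5, h.on.self, h.on.ne _ _ h01.symm, (hc _).1] at this
  have e5 : ∀ k m, B (e m) (c k • e (π k) - e k) = -B y (e k) * B (e m) y +
      -B y' ((s : V ≃ₗ[F] V) (e k)) * B (e m) y' := fun k m => by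
    rw [← (hc k).2, isom_mul_apply, hy']
    nth_rw 1 [hy]
    simp only [map_sub, map_smul, smul_eq_mul]; ring
  obtain ⟨e6, -⟩ := det_two_kill (p := B (e (f 4)) y) (q := B (e (f 4)) y')
    ((e5 (f 0) (f 0)).symm.trans (by simp [h.on.self, h.on.ne _ _ (e4 0 (by decide) (by decide)).1]))
    ((e5 (f 1) (f 0)).symm.trans (by simp [hB, h.on.ne _ _ (e4 0 (by decide) (by decide)).2]))
    ((e5 (f 1) (f 1)).symm.trans (by simp [h.on.self, h.on.ne _ _ (e4 1 (by decide) (by decide)).2]))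
    ((e5 (f 0) (f 4)).symm.trans (by simp [hB, h.on.ne _ _ (e4 4 (by decide) (by decide)).1]))
    ((e5 (f 1) (f 4)).symm.trans (by simp [hB, h.on.ne _ _ (e4 4 (by decide) (by decide)).2]))
  have := h.of_fix hs (j := f 4) (by rw [hy, H.comm e6, zero_smul, sub_zero])
  exact hg' (by simpa [mul_mem_cancel_right this] using h4)

theorem mem_monG_two (h : Ctx e X) (hq : ∀ l : F, σ l = l → l = 0 ∨ l = 1)
    (hn : 7 ≤ Fintype.card ι ∨ (4 ≤ Fintype.card ι ∧ Odd (Fintype.card ι))) {g : isomGroup B}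
    (hg : g ∈ X) : g ∈ monG B e := by
  classical
  by_contra hg'
  have H := h.on.herm
  have h2 : (2 : F) = 0 := (hq 2 (map_ofNat σ 2)).resolve_right fun e =>
    one_ne_zero (α := F) (by linear_combination e)
  have hN : ∀ x : F, x ≠ 0 → σ x * x = 1 := fun x hx =>
    (hq _ (by rw [map_mul, H.invol, mul_comm])).resolve_left (by simpa using hx)
  obtain ⟨ω, hω, hω'⟩ := exists_normOne_ne_one H.ne_id H.invol
  have hω1 : ω + σ ω = 1 := (hq _ (by rw [map_add, H.invol, add_comm])).resolve_left fun e =>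
    hω' (by linear_combination e - ω * h2)
  have hω2 : ω ≠ 1 := fun e => hω' (by simp [e])
  have hω3 : σ ω ≠ 1 := fun e => hω2 (by simpa [e] using hω)
  have st : ∀ y ∈ X, ∀ i j, i ≠ j → ∀ κ : F, σ κ * κ = 1 → ∀ m,
      B (e m) ((y : V ≃ₗ[F] V) (e i - κ • e j)) = 0 →
      ∃ k l, ∀ p, p ≠ k → p ≠ l → B (e p) ((y : V ≃ₗ[F] V) (e i - κ • e j)) = 0 := by
    intro y hy i j hij κ hκ m hm
    obtain ⟨t, ht, -, ht'⟩ := h.toFX.exists_isV h2 hij hκ
    obtain ⟨k, l, -, -, h1⟩ := h.on.supp_of_isV (ht'.conj y)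
      (by rw [isom_apply]; exact h.on.iso_sub h2 hij hκ)
      (fun e1 => by
        simpa [h.on.self, h.on.ne _ _ hij] using congrArg (B (e i))
          ((y : V ≃ₗ[F] V).map_eq_zero_iff.1 e1))
      (h.of_fix (mul_mem (mul_mem hy ht) (inv_mem hy)) (j := m) (by
        rw [ht'.conj y, H.comm hm, zero_smul, sub_zero]))
    exact ⟨k, l, h1⟩
  obtain ⟨i, -⟩ := FX.exists_ne_of_card ([] : List ι) (by simp; omega)
  obtain ⟨j, hij, κ, hκ, hw⟩ : ∃ j, i ≠ j ∧ ∃ κ : F, σ κ * κ = 1 ∧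
      ∀ m, B (e m) ((g : V ≃ₗ[F] V) (e i - κ • e j)) ≠ 0 := by
    by_contra! hcon
    obtain ⟨a, b, hab, ha, hb⟩ := h.on.exists_two i fun j c e1 => hg' (h.ctx g hg i j c e1)
    obtain ⟨c, hca, hcb, hc⟩ : ∃ c, c ≠ a ∧ c ≠ b ∧ B (e c) ((g : V ≃ₗ[F] V) (e i)) ≠ 0 := by
      by_contra! h1
      have e1 := (h.on.map g).self i
      rw [h.on.eq_pair hab h1] at e1
      simp only [map_add, map_smulₛₗ, LinearMap.add_apply, LinearMap.smul_apply, h.on.self,
        h.on.ne _ _ hab, h.on.ne _ _ hab.symm, smul_eq_mul, RingHom.id_apply] at e1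
      exact one_ne_zero (α := F) (by linear_combination -e1 + hN _ ha + hN _ hb + h2)
    obtain ⟨m, hm⟩ := FX.exists_ne_of_card [a, b, c] (by simp; omega)
    simp only [List.mem_cons, List.not_mem_nil, or_false, not_or] at hm
    have key : ∀ j, i ≠ j → B (e m) ((g : V ≃ₗ[F] V) (e i)) = 0 ∧
        B (e m) ((g : V ≃ₗ[F] V) (e j)) = 0 := fun j hij => by
      set U := Finset.univ.filter fun p => ¬ (B (e p) ((g : V ≃ₗ[F] V) (e i)) = 0 ∧
        B (e p) ((g : V ≃ₗ[F] V) (e j)) = 0) with hU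
      let Z : F → Finset ι := fun κ => U.filter fun p =>
        B (e p) ((g : V ≃ₗ[F] V) (e i)) = κ * B (e p) ((g : V ≃ₗ[F] V) (e j))
      have z1 : ∀ κ : F, σ κ * κ = 1 → U.card ≤ (Z κ).card + 2 := fun κ hκ => by
        obtain ⟨p, hp⟩ := hcon j hij κ hκ
        obtain ⟨k, l, h1⟩ := st g hg i j hij κ hκ p hp
        refine (Finset.card_le_card (t := Z κ ∪ {k, l}) fun p hp => ?_).trans
          ((Finset.card_union_le _ _).trans (Nat.add_le_add_left Finset.card_le_two _))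
        by_contra h3
        simp only [Finset.mem_union, Finset.mem_insert, Finset.mem_singleton, not_or] at h3
        exact h3.1 (Finset.mem_filter.2 ⟨hp, by simpa [sub_eq_zero] using h1 p h3.2.1 h3.2.2⟩)
      have z2 : ∀ κ κ' : F, κ ≠ κ' → Disjoint (Z κ) (Z κ') := fun κ κ' hκ =>
        Finset.disjoint_left.2 fun p h1 h3 => by
          obtain ⟨h4, h5⟩ := Finset.mem_filter.1 h1
          have h6 := (Finset.mem_filter.1 h3).2
          have : B (e p) ((g : V ≃ₗ[F] V) (e j)) = 0 :=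
            mul_left_cancel₀ (sub_ne_zero.2 hκ) (by linear_combination h6 - h5)
          exact (Finset.mem_filter.1 h4).2 ⟨by rw [h5, this, mul_zero], this⟩
      have z3 := Finset.card_le_card (s := Z 1 ∪ (Z ω ∪ Z (σ ω))) (t := U) (by
        simp only [Finset.union_subset_iff]
        exact ⟨Finset.filter_subset _ _, Finset.filter_subset _ _, Finset.filter_subset _ _⟩)
      rw [Finset.card_union_of_disjoint (Finset.disjoint_union_right.2
        ⟨z2 _ _ hω2.symm, z2 _ _ hω3.symm⟩), Finset.card_union_of_disjoint (z2 _ _ hω'.symm)] at z3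
      have := z1 1 (by simp)
      have := z1 ω hω
      have := z1 (σ ω) (by rw [H.invol, mul_comm, hω])
      by_contra h3
      have z4 := Finset.card_le_card (s := {m, c, a, b}) (t := U) (by
        simp [hU, Finset.insert_subset_iff, ha, hb, hc]; tauto)
      rw [Finset.card_insert_of_notMem (by simp [hm]), Finset.card_insert_of_notMem
        (by simp [hca, hcb]), Finset.card_pair hab] at z4
      omega
    refine h.on.ne_zero m ((h.on.map g).ext fun j => ?_)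
    by_cases hj : i = j
    · obtain ⟨j', hj'⟩ := FX.exists_ne_of_card [i] (by simp; omega)
      simpa [← hj] using H.comm (key j' (by simpa [eq_comm] using hj')).1
    · simpa using H.comm (key j hj).2
  set w := (g : V ≃ₗ[F] V) (e i - κ • e j) with hwdef
  have hww : B w w = 0 := by rw [isom_apply]; exact h.on.iso_sub h2 hij hκ
  have hN' : ∀ p, B (e p) w * B w (e p) = 1 := fun p => by
    rw [← H.conj (e p), mul_comm]; exact hN _ (hw p)
  rcases hn with hn | ⟨-, m, hm⟩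
  swap
  · rw [← h.on.sum w, map_sum] at hww
    simp only [h.on.sum, map_smul, smul_eq_mul, hN', Finset.sum_const, Finset.card_univ, hm,
      nsmul_eq_mul, mul_one] at hww
    push_cast at hww
    exact one_ne_zero (α := F) (by linear_combination hww - m * h2)
  obtain ⟨f⟩ : Nonempty (Fin 7 ↪ ι) := Function.Embedding.nonempty_of_card_le (by simpa)
  have hf : ∀ {i j}, i ≠ j → f i ≠ f j := fun hij => f.injective.ne hij
  have hB : ∀ {i j}, i ≠ j → B (e (f i)) (e (f j)) = 0 := fun hij => h.on.ne _ _ (hf hij)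
  obtain ⟨d₁, hd₁, e1⟩ := h.exists_dg (hf (show 0 ≠ 1 by decide)) hω
  obtain ⟨d₂, hd₂, e2⟩ := h.exists_dg (hf (show 2 ≠ 3 by decide)) hω
  obtain ⟨d₃, hd₃, e3⟩ := h.exists_dg (hf (show 4 ≠ 5 by decide)) hω
  obtain ⟨t, ht, -, ht'⟩ := h.toFX.exists_isV h2 hij hκ
  have e4 : ((g * t * g⁻¹ * (d₁ * (d₂ * (d₃ * g))) : isomGroup B) : V ≃ₗ[F] V) (e i - κ • e j) =
      ((ω - 1) * B (e (f 0)) w) • e (f 0) + ((σ ω - 1) * B (e (f 1)) w) • e (f 1) +
      ((ω - 1) * B (e (f 2)) w) • e (f 2) + ((σ ω - 1) * B (e (f 3)) w) • e (f 3) +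
      ((ω - 1) * B (e (f 4)) w) • e (f 4) + ((σ ω - 1) * B (e (f 5)) w) • e (f 5) := by
    have e5 : ((d₁ * (d₂ * (d₃ * g)) : isomGroup B) : V ≃ₗ[F] V) (e i - κ • e j) = w +
      (((ω - 1) * B (e (f 0)) w) • e (f 0) + ((σ ω - 1) * B (e (f 1)) w) • e (f 1) +
      ((ω - 1) * B (e (f 2)) w) • e (f 2) + ((σ ω - 1) * B (e (f 3)) w) • e (f 3) +
      ((ω - 1) * B (e (f 4)) w) • e (f 4) + ((σ ω - 1) * B (e (f 5)) w) • e (f 5)) := by
      simp only [isom_mul_apply, ← hwdef, e1, e2, e3]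
      simp [hB]
      abel
    rw [isom_mul_apply, e5, ht'.conj g, ← hwdef]
    simp only [map_add, map_smul, hww, smul_eq_mul, mul_assoc, hN']
    match_scalars
    · linear_combination -3 * hω1 + 2 * h2
    all_goals rfl
  obtain ⟨k, l, h1⟩ := st _ (mul_mem (mul_mem (mul_mem hg ht) (inv_mem hg))
    (mul_mem hd₁ (mul_mem hd₂ (mul_mem hd₃ hg)))) i j hij κ hκ (f 6) (by rw [e4]; simp [hB])
  simp only [e4] at h1
  have a0 : f 0 = k ∨ f 0 = l := by
    by_contra! h3; simpa [hB, h.on.self, sub_eq_zero, hω2, hw] using h1 _ h3.1 h3.2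
  have a1 : f 2 = k ∨ f 2 = l := by
    by_contra! h3; simpa [hB, h.on.self, sub_eq_zero, hω2, hw] using h1 _ h3.1 h3.2
  have a2 : f 4 = k ∨ f 4 = l := by
    by_contra! h3; simpa [hB, h.on.self, sub_eq_zero, hω2, hw] using h1 _ h3.1 h3.2
  have b0 := hf (show 0 ≠ 2 by decide)
  have b1 := hf (show 0 ≠ 4 by decide)
  have b2 := hf (show 2 ≠ 4 by decide)
  clear * - a0 a1 a2 b0 b1 b2
  grind

end Ctx

variable [Finite F]

theorem ON.maxS_of (h : ON B e) (hn : 4 ≤ Fintype.card ι)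
    (H : ∀ X : Subgroup (isomGroup B), Ctx e X → X ≤ monG B e) : MaxS B (monG B e) := by
  refine ⟨fun hle => ?_, fun X hX hS g hg hg' => ?_⟩
  · obtain ⟨f⟩ : Nonempty (Fin 3 ↪ ι) := Function.Embedding.nonempty_of_card_le (by simp; omega)
    have hB : ∀ {i j}, i ≠ j → B (e (f i)) (e (f j)) = 0 := fun hij =>
      h.ne _ _ (f.injective.ne hij)
    obtain ⟨κ, hκ⟩ := h.herm.exists_norm_eq (μ := -1) (by simp)
    obtain ⟨b, hb⟩ := h.herm.exists_trace_eq (map_one σ)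
    have h1 : B (e (f 0) + κ • e (f 1)) (e (f 0) + κ • e (f 1)) = 0 := by
      simp [hB, h.self]; linear_combination hκ
    obtain ⟨j, c, hc⟩ := h.mem_monG.1 (hle (h.herm.eich_mem_sIsom h1 (w := e (f 2)) (by simp [hB])
      b (by rw [hb, h.self]))) (f 0)
    by_cases hj : f 2 = j
    · have hb0 : b ≠ 0 := by rintro rfl; simp at hb
      have hκ0 : κ ≠ 0 := by rintro rfl; simp at hκ
      simpa [Herm.eich_apply, ← hj, hB, h.self, hb0, hκ0] using congrArg (B (e (f 1))) hc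
    · simpa [Herm.eich_apply, h.ne _ _ hj, hB, h.self] using congrArg (B (e (f 2))) hc
  · by_contra hle
    exact hg' (H X ⟨⟨h, hX, hS⟩, fun x hx j k c hc => by
      by_contra hx'
      exact hle (FX.sIsom_le ⟨h, hX, hS⟩ hn hx hx' hc)⟩ hg)

theorem ON.maxS (h : ON B e) (hn : 7 ≤ Fintype.card ι) : MaxS B (monG B e) := by
  refine h.maxS_of (by omega) fun X hX g hg => ?_
  by_cases h2 : (2 : F) = 0
  · by_cases hq : ∃ l : F, σ l = l ∧ l ≠ 0 ∧ l ≠ 1
    · exact hX.mem_monG_of_lemV h2 (by omega)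
        (fun g hg t i j hij ht => hX.lemV h2 hq hn hg hij ht) hg
    · exact hX.mem_monG_two (fun l hl => by by_contra! h1; exact hq ⟨l, hl, h1⟩) (.inl hn) hg
  · exact CtxO.mem_monG ⟨hX, h2, by omega⟩ hn hg

end Cfsg.Lib.Class.Form
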