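import Cfsg.Agent.Class.SU.Basic

/-!
# Orthogonal subfield subgroups of `SU` in dimension at least six
-/

set_option autoImplicit false

namespace Cfsg.Lib.Class.Form

open Module

variable {F V : Type*} [Field F] [AddCommGroup V] [Module F V] {σ : F →+* F}
  {B : V →ₛₗ[σ] V →ₗ[F] F} {κ : V →ₛₗ[σ] V} {M : Subgroup (isomGroup B)}

/-- The reflection of order two in a non-isotropic vector. -/
def Herm.rf (h : Herm B) (d : V) (hd : B d d ≠ 0) : isomGroup B := h.qrefl d hd (-1) (by simp)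

theorem Herm.rf_apply (h : Herm B) (d : V) (hd : B d d ≠ 0) (x : V) :
    (h.rf d hd : V ≃ₗ[F] V) x = x - (2 * B d x / B d d) • d := by
  rw [Herm.rf, h.qrefl_apply]
  match_scalars <;> ring

theorem Herm.conj_rf (h : Herm B) (g : isomGroup B) {d d' : V} (hd : B d d ≠ 0)
    (hd' : B d' d' ≠ 0) (e : (g : V ≃ₗ[F] V) d = d') : g * h.rf d hd * g⁻¹ = h.rf d' hd' :=
  h.conj_qrefl g hd hd' (a := 1) (by simpa using e) _ _

theorem Herm.conj_rf_mul (h : Herm B) (g : isomGroup B) {d d' e e' : V} (hd : B d d ≠ 0)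
    (hd' : B d' d' ≠ 0) (he : B e e ≠ 0) (he' : B e' e' ≠ 0) (e1 : (g : V ≃ₗ[F] V) d = d')
    (e2 : (g : V ≃ₗ[F] V) e = e') :
    g * (h.rf d hd * h.rf e he) * g⁻¹ = h.rf d' hd' * h.rf e' he' := by
  rw [← h.conj_rf g hd hd' e1, ← h.conj_rf g he he' e2]
  group

/-- A rational non-isotropic vector perpendicular to `z`. -/
structure An (B : V →ₛₗ[σ] V →ₗ[F] F) (κ : V →ₛₗ[σ] V) (z d : V) : Prop where
  rat : κ d = d
  perp : B z d = 0
  ne : B d d ≠ 0

theorem An.zero {z d : V} (h : An B κ z d) : An B κ 0 d := ⟨h.rat, by simp, h.ne⟩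

variable [FiniteDimensional F V]

namespace Conj

omit [FiniteDimensional F V] in
theorem fix_form (hκ : Conj B κ 1) {x y : V} (hx : κ x = x) (hy : κ y = y) :
    σ (B x y) = B x y := by simpa using (hκ.rat_form hx hy).symm

omit [FiniteDimensional F V] in
theorem symm_form (hκ : Conj B κ 1) (h : Herm B) {x y : V} (hx : κ x = x) (hy : κ y = y) :
    B y x = B x y := by rw [← h.conj, hκ.fix_form hx hy]

omit [FiniteDimensional F V] in
theorem exists_delta (h : Herm B) (h2 : (2 : F) ≠ 0) : ∃ δ : F, δ ≠ 0 ∧ σ δ = -δ ∧ σ δ ≠ δ := by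
  obtain ⟨δ, hδ0, hδ⟩ := h.exists_trace_zero
  exact ⟨δ, hδ0, by linear_combination hδ,
    fun h0 => hδ0 (mul_left_cancel₀ h2 (by linear_combination hδ - h0))⟩

omit [FiniteDimensional F V] in
theorem exists_rat_aniso (hκ : Conj B κ 1) (h : Herm B) (h2 : (2 : F) ≠ 0) {l : List V}
    (hl : ∀ y ∈ l, κ y = y) {d : V} (hd : ∀ y ∈ l, B y d = 0) (hdd : B d d ≠ 0) :
    ∃ r, κ r = r ∧ (∀ y ∈ l, B y r = 0) ∧ B r r ≠ 0 := by
  obtain ⟨δ, -, hδ, hδ'⟩ := exists_delta h h2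
  obtain ⟨c, d', hc, hd', e, hc', hd''⟩ := hκ.exists_decomp h hδ' d
  by_cases hcc : B c c = 0
  · refine ⟨d', hd', fun y hy => hκ.orth_of_mem (hl y hy) (hd y hy) hd'', fun h0 => hdd ?_⟩
    rw [e]
    simp only [map_add, map_smulₛₗ, LinearMap.add_apply, LinearMap.smul_apply, smul_eq_mul,
      RingHom.id_apply, hcc, h0, hκ.symm_form h hc hd', hδ]
    ring
  · exact ⟨c, hc, fun y hy => hκ.orth_of_mem (hl y hy) (hd y hy) hc', hcc⟩

theorem exists_aniso_of (hκ : Conj B κ 1) (h : Herm B) (h2 : (2 : F) ≠ 0) {l : List V}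
    (hl : ∀ y ∈ l, κ y = y) {x : V} (hx : ∀ y ∈ l, B y x = 0) (hx' : x ∉ spanL F l) :
    ∃ r, κ r = r ∧ (∀ y ∈ l, B y r = 0) ∧ B r r ≠ 0 := by
  obtain ⟨d, hd, hdd⟩ := h.exists_nonisotropic_orth (W := spanL F l) fun hle =>
    hx' (hle (mem_orth.2 fun u hu => h.comm (apply_eq_zero_of_mem_spanL (φ := B x)
      (fun y hy => h.comm (hx y hy)) hu)))
  exact hκ.exists_rat_aniso h h2 hl (fun y hy => hd y (mem_spanL_of_mem hy)) hdd

theorem exists_aniso_lt (hκ : Conj B κ 1) (h : Herm B) (h2 : (2 : F) ≠ 0) {l : List V}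
    (hl : ∀ y ∈ l, κ y = y) (hd : 2 * l.length < finrank F V) :
    ∃ r, κ r = r ∧ (∀ y ∈ l, B y r = 0) ∧ B r r ≠ 0 := by
  obtain ⟨d, hd, hdd⟩ := h.exists_nonisotropic_orth_of_lt (W := spanL F l) (by
    have := finrank_spanL_le (F := F) l
    omega)
  exact hκ.exists_rat_aniso h h2 hl (fun y hy => hd y (mem_spanL_of_mem hy)) hdd

theorem exists_an_pair (hκ : Conj B κ 1) (h : Herm B) (h2 : (2 : F) ≠ 0) {z d e : V}
    (hz : κ z = z) (hn : 5 ≤ finrank F V ∨ z = 0 ∧ 3 ≤ finrank F V) (hd : An B κ z d)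
    (he : An B κ z e) (hde : B d e = 0) : ∃ x, An B κ z x ∧ B d x = 0 ∧ B e x = 0 := by
  obtain ⟨y, hy, hy'⟩ : ∃ y, (∀ u ∈ [z, d, e], B u y = 0) ∧ y ∉ spanL F [z] := by
    rcases hn with hn | ⟨rfl, hn⟩
    · obtain ⟨y, -, h1, h3⟩ := hκ.exists_rat h [z, d, e] [z] (by simp [hz, hd.rat, he.rat])
        (by simp; omega)
      exact ⟨y, h1, h3⟩
    · obtain ⟨y, -, h1, h3⟩ := hκ.exists_rat h [d, e] [] (by simp [hd.rat, he.rat])
        (by simp; omega)
      refine ⟨y, by simpa using h1, fun hm => ne_zero_of_notMem_spanL h3 ?_⟩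
      obtain ⟨c, hc⟩ := mem_spanL_singleton.1 hm
      simpa using hc.symm
  obtain ⟨r, h1, h3, h4⟩ := hκ.exists_aniso_of h h2 (l := [z, d, e])
    (by simp [hz, hd.rat, he.rat]) hy fun hm => hy' (by
      rw [spanL, show {y | y ∈ [z, d, e]} = insert z (insert d {e}) by ext; simp,
        Submodule.mem_span_insert] at hm
      obtain ⟨a, w, hw, rfl⟩ := hm
      obtain ⟨b, c, rfl⟩ := Submodule.mem_span_pair.1 hw
      have k1 := hy d (by simp)
      have k2 := hy e (by simp)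
      simp only [map_add, map_smul, h.comm hd.perp, h.comm he.perp, hde, h.comm hde, smul_eq_mul,
        mul_zero, zero_add, add_zero, mul_eq_zero, hd.ne, he.ne, or_false] at k1 k2
      exact mem_spanL_singleton.2 ⟨a, by simp [k1, k2]⟩)
  exact ⟨r, ⟨h1, h3 z (by simp), h4⟩, h3 d (by simp), h3 e (by simp)⟩

/-- Non-orthogonality connects the rational non-isotropic vectors perpendicular to `z`. -/
theorem conn (hκ : Conj B κ 1) (h : Herm B) (h2 : (2 : F) ≠ 0) {z : V}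
    (hz : κ z = z) (hn : 5 ≤ finrank F V ∨ z = 0 ∧ 3 ≤ finrank F V) {P : V → Prop}
    (hP : ∀ d e, An B κ z d → An B κ z e → B d e ≠ 0 → P d → P e) {d e : V} (hd : An B κ z d)
    (he : An B κ z e) (hPd : P d) : P e := by
  by_cases hde : B d e = 0
  swap
  · exact hP d e hd he hde hPd
  obtain ⟨x, hx, h1, h3, h4, h5⟩ : ∃ x, κ x = x ∧ B z x = 0 ∧ B d x = 0 ∧ B e x = 0 ∧
      B d d + B e e + B x x ≠ 0 := by
    by_cases h0 : B d d + B e e = 0
    · obtain ⟨x, hx, h1, h3⟩ := hκ.exists_an_pair h h2 hz hn hd he hde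
      exact ⟨x, hx.rat, hx.perp, h1, h3, by rw [h0, zero_add]; exact hx.ne⟩
    · exact ⟨0, by simp, by simp, by simp, by simp, by simpa using h0⟩
  have hy : An B κ z (d + e + x) := ⟨by simp [hd.rat, he.rat, hx], by simp [hd.perp, he.perp, h1],
    by simpa [hde, h.comm hde, h3, h4, h.comm h3, h.comm h4] using h5⟩
  exact hP _ e hy he (by simpa [hde, h.comm h4] using he.ne)
    (hP d _ hd hy (by simpa [hde, h3] using hd.ne) hPd)

omit [FiniteDimensional F V] in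
theorem span_an (hκ : Conj B κ 1) (h : Herm B) (h2 : (2 : F) ≠ 0) {z d : V} (hd : An B κ z d)
    {P : V → Prop} (hsub : ∀ x y, P x → P y → P (x - y)) (hP : ∀ d, An B κ z d → P d) {y : V}
    (hy : κ y = y) (hzy : B z y = 0) : P y := by
  by_cases hyy : B y y = 0
  swap
  · exact hP y ⟨hy, hzy, hyy⟩
  have hs := hκ.symm_form h hy hd.rat
  by_cases h1 : B (y + d) (y + d) = 0
  · have h3 : An B κ z (-d) := ⟨by simp [hd.rat], by simp [hd.perp], by simpa using hd.ne⟩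
    have h4 : An B κ z (y - d) := ⟨by simp [hd.rat, hy], by simp [hd.perp, hzy], fun h0 => by
      simp only [map_add, map_sub, LinearMap.add_apply, LinearMap.sub_apply, hyy, hs] at h0 h1
      exact mul_ne_zero h2 hd.ne (by linear_combination h0 + h1)⟩
    simpa using hsub _ _ (hP _ h4) (hP _ h3)
  · simpa using hsub _ _ (hP _ ⟨by simp [hd.rat, hy], by simp [hd.perp, hzy], h1⟩) (hP _ hd)

omit [FiniteDimensional F V] in
theorem comm_of_perp (hκ : Conj B κ 1) (h : Herm B) (h2 : (2 : F) ≠ 0) {z : V} (hz : κ z = z)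
    {m : V →ₗ[F] V} (hm : ∀ y, κ y = y → B z y = 0 → κ (m y) = m y) {x : V} (hx : B z x = 0) :
    κ (m x) = m (κ x) := by
  obtain ⟨δ, -, -, hδ'⟩ := exists_delta h h2
  obtain ⟨a, b, ha, hb, e, ha', hb'⟩ := hκ.exists_decomp h hδ' x
  have h1 := hm a ha (hκ.orth_of_mem hz hx ha')
  have h3 := hm b hb (hκ.orth_of_mem hz hx hb')
  rw [e]
  simp only [map_add, map_smulₛₗ, h1, h3, ha, hb, RingHom.id_apply]

/-- An isometry taking rational non-isotropic points to rational points. -/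
theorem eq_of_aniso (hκ : Conj B κ 1) (h : Herm B) (h2 : (2 : F) ≠ 0) (hn : 3 ≤ finrank F V)
    {g : isomGroup B}
    (hg : ∀ d, An B κ 0 d → ∃ a : F, κ ((g : V ≃ₗ[F] V) d) = a • (g : V ≃ₗ[F] V) d) {d : V}
    (hd : An B κ 0 d) {a : F} (ha : κ ((g : V ≃ₗ[F] V) d) = a • (g : V ≃ₗ[F] V) d) {x : V}
    (hx : κ x = x) : κ ((g : V ≃ₗ[F] V) x) = a • (g : V ≃ₗ[F] V) x := by
  refine hκ.span_an h h2 hd (P := fun x => κ ((g : V ≃ₗ[F] V) x) = a • (g : V ≃ₗ[F] V) x)
    (fun x y hx hy => by simp only [map_sub, hx, hy, smul_sub]) (fun e he => ?_) hx (by simp)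
  refine hκ.conn h h2 (z := 0) (by simp) (.inr ⟨rfl, hn⟩)
    (P := fun x => κ ((g : V ≃ₗ[F] V) x) = a • (g : V ≃ₗ[F] V) x) (fun d e hd he hde hPd => ?_)
    hd he ha
  obtain ⟨b, hb⟩ := hg e he
  have h1 := hκ.form ((g : V ≃ₗ[F] V) d) ((g : V ≃ₗ[F] V) e)
  have h3 := hκ.form ((g : V ≃ₗ[F] V) d) ((g : V ≃ₗ[F] V) d)
  simp only [hPd, hb, map_smulₛₗ, LinearMap.smul_apply, smul_eq_mul, RingHom.id_apply, isom_apply,
    hκ.fix_form hd.rat he.rat, hκ.fix_form hd.rat hd.rat, one_mul] at h1 h3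
  have h4 : σ a * b = 1 := mul_right_cancel₀ hde (by linear_combination h1)
  have h5 : σ a * a = 1 := mul_right_cancel₀ hd.ne (by linear_combination h3)
  rw [hb, show b = a by linear_combination a * h4 - b * h5]

theorem rf_mul_mem (hκ : Conj B κ 1) (h : Herm B) {d e : V} (hd : κ d = d) (he : κ e = e)
    (hdd : B d d ≠ 0) (hee : B e e ≠ 0) :
    h.rf d hdd * h.rf e hee ∈ ratGroup B κ ∧ h.rf d hdd * h.rf e hee ∈ sIsom B := by
  have key : ∀ d (hdd : B d d ≠ 0), κ d = d → h.rf d hdd ∈ ratGroup B κ := fun d hdd hd =>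
    mem_ratGroup_of_comm fun x => by
      simp only [h.rf_apply, map_sub, map_smulₛₗ, map_div₀, map_mul, map_ofNat, hd,
        hκ.left_form hd x, hκ.fix_form hd hd, one_mul]
  refine ⟨mul_mem (key d hdd hd) (key e hee he), ?_⟩
  rw [mem_sIsom', Subgroup.coe_mul, map_mul, Units.val_mul, Herm.rf, Herm.rf, h.det_qrefl,
    h.det_qrefl]
  ring

end Conj

/-- A proper overgroup of the orthogonal subfield subgroup. -/
structure OCtx (κ : V →ₛₗ[σ] V) (M : Subgroup (isomGroup B)) : Prop where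
  conj : Conj B κ 1
  herm : Herm B
  two : (2 : F) ≠ 0
  mem : ∀ g ∈ ratGroup B κ, g ∈ sIsom B → g ∈ M
  ne : ¬ sIsom B ≤ M

theorem Herm.smul_self_mem_eichSub (h : Herm B) (M : Subgroup (isomGroup B)) {z : V}
    (hz : B z z = 0) (s : F) : s • z ∈ h.eichSub M hz := by
  refine ⟨by simp [hz], s - σ s, by simp [hz, h.invol], ?_⟩
  convert M.one_mem
  refine isom_ext fun x => ?_
  simp only [h.eich_apply, map_smulₛₗ, LinearMap.smul_apply, smul_eq_mul, OneMemClass.coe_one,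
    LinearEquiv.coe_one, id]
  module

namespace OCtx

theorem rf_mem (h : OCtx κ M) {d e : V} (hd : κ d = d) (he : κ e = e)
    (hdd : B d d ≠ 0) (hee : B e e ≠ 0) : h.herm.rf d hdd * h.herm.rf e hee ∈ M :=
  h.mem _ (h.conj.rf_mul_mem h.herm hd he hdd hee).1 (h.conj.rf_mul_mem h.herm hd he hdd hee).2

theorem rat_mem (h : OCtx κ M) {z y : V} (hz : κ z = z) (hzz : B z z = 0) (hy : κ y = y)
    (hzy : B z y = 0) : y ∈ h.herm.eichSub M hzz := by
  have h2 := h.two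
  have half : σ (B y y / 2) = B y y / 2 := by rw [map_div₀, h.herm.conj, map_ofNat]
  have half' : B y y / 2 + σ (B y y / 2) = B y y := by rw [half]; field_simp; ring
  exact ⟨hzy, _, half', h.mem _ (h.conj.eich_mem_ratGroup h.herm hz hy hzz hzy _ half)
    (h.herm.eich_mem_sIsom ..)⟩

theorem exists_partner (h : OCtx κ M) {z : V} (hz : κ z = z) (hz0 : z ≠ 0) (hzz : B z z = 0) :
    ∃ f, κ f = f ∧ B f f = 0 ∧ B z f = 1 := by
  obtain ⟨w, hw, -, hzw⟩ := h.conj.exists_rat_ne h.herm [] (by simp) (u := z) (by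
    simpa [spanL] using hz0)
  obtain ⟨c, hc, hcc⟩ := h.conj.exists_rat_iso_add h.herm h.two hw hz hzz hzw
  have h1 := h.conj.fix_form hz hw
  exact ⟨(B z w)⁻¹ • (w + c • z), by simp [map_smulₛₗ, h1, hc, hw, hz],
    by simp only [map_smulₛₗ, LinearMap.smul_apply, hcc, smul_zero], by simp [hzz, hzw]⟩

theorem smul_mem (h : OCtx κ M) {z w : V} (hz : κ z = z) (hz0 : z ≠ 0) {hzz : B z z = 0}
    (hw : w ∈ h.herm.eichSub M hzz) {k : F} (hk : σ k = k) : k • w ∈ h.herm.eichSub M hzz := by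
  have H := h.herm
  by_cases hk0 : k = 0
  · simp [hk0]
  obtain ⟨f, hf, hff, hzf⟩ := h.exists_partner hz hz0 hzz
  have e1 : σ k * k⁻¹ = 1 := by rw [hk, mul_inv_cancel₀ hk0]
  have hg : H.hypDiag hzz hff hzf k k⁻¹ e1 ∈ M := h.mem _ (mem_ratGroup_of_comm fun x => by
      simp only [H.hypDiag_apply, map_add, map_smulₛₗ, map_mul, map_sub, map_one, map_inv₀, hk, hz,
        hf, h.conj.left_form hz x, h.conj.left_form hf x, one_mul])
    (by rw [mem_sIsom', H.det_hypDiag, mul_inv_cancel₀ hk0])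
  have h1 := (H.smul_mem_eichSub_iff hk0 (hz := hzz) (hz' := by simp [map_smulₛₗ, hzz])).2
    (H.apply_mem_eichSub hg (H.hypDiag_apply_left ..) hw)
  rw [H.hypDiag_apply, hw.1, hk, mul_zero, zero_smul, add_zero, smul_add, smul_smul] at h1
  exact ((H.eichSub M hzz).add_mem_cancel_right (H.smul_self_mem_eichSub M hzz _)).1 h1

variable [Finite F]

theorem not_full (h : OCtx κ M) (hn : 4 ≤ finrank F V) {z : V} (hz : κ z = z) (hz0 : z ≠ 0) :
    ¬ h.herm.Full M z := by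
  intro hf
  have H := h.herm
  have hzz := hf.1
  obtain ⟨f, hf', hff, hzf⟩ := h.exists_partner hz hz0 hzz
  have hfz := h.conj.symm_form H hz hf'
  obtain ⟨d, hd, hd', hdd⟩ := h.conj.exists_aniso_lt H h.two (l := [z]) (by simp [hz])
    (by simp; omega)
  have h1 : B (z + f) (z + f) ≠ 0 := by
    simp only [map_add, LinearMap.add_apply, hzz, hff, hzf, hfz]
    convert h.two using 1
    ring
  refine h.ne (H.sIsom_le_of_full hn hf (hf.apply (h.rf_mem (by simp [hz, hf']) hd h1 hdd)) ?_)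
  have h2 := h.two
  simp only [isom_mul_apply, H.rf_apply, H.comm (hd' z (by simp)), map_add, map_sub, map_smul,
    LinearMap.add_apply, hzz, hff, hzf, hfz, smul_eq_mul]
  norm_num [one_add_one_eq_two, h2]

/-- The Eichler subgroup at a rational point is rational. -/
theorem eich_rat (h : OCtx κ M) (hn : 5 ≤ finrank F V) {z w : V} (hz : κ z = z) (hz0 : z ≠ 0)
    {hzz : B z z = 0} (hw : w ∈ h.herm.eichSub M hzz) : ∃ s : F, κ w = w + s • z := by
  have H := h.herm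
  have hκ := h.conj
  have h2 := h.two
  obtain ⟨δ, hδ0, hδ, hδ'⟩ := Conj.exists_delta H h2
  obtain ⟨a, b, ha, hb, e, ha', hb'⟩ := hκ.exists_decomp H hδ' w
  have hzb := hκ.orth_of_mem hz hw.1 hb'
  by_cases hbz : b ∈ spanL F [z]
  · obtain ⟨c, hc⟩ := mem_spanL_singleton.1 hbz
    refine ⟨-2 * δ * c, ?_⟩
    rw [e, map_add, map_smulₛₗ, ha, hb, hδ, ← hc]
    module
  exfalso
  have hbT : δ • b ∈ H.eichSub M hzz := by
    have h1 := h.rat_mem hz hzz ha (hκ.orth_of_mem hz hw.1 ha')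
    rwa [e, (H.eichSub M hzz).add_mem_cancel_left h1] at hw
  have key : ∀ b d, κ b = b → An B κ z d → B b d ≠ 0 → δ • b ∈ H.eichSub M hzz →
      δ • d ∈ H.eichSub M hzz := by
    intro b d hb hd hbd hT
    obtain ⟨r, hr, hr', hrr⟩ := hκ.exists_aniso_lt H h2 (l := [z, b]) (by simp [hz, hb])
      (by simp; omega)
    have r1 := H.comm (hr' z (by simp))
    have r2 := H.comm (hr' b (by simp))
    have h1 := sub_mem hT (H.apply_mem_eichSub (h.rf_mem hd.rat hr hd.ne hrr) (hz' := hzz)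
      (by simp [H.rf_apply, r1, H.comm hd.perp]) hT)
    have h3 := H.ne_comm hbd
    have h4 := hd.ne
    convert h.smul_mem hz hz0 h1 (k := B d d / (2 * B d b)) (by
      rw [map_div₀, map_mul, map_ofNat, hκ.fix_form hd.rat hd.rat, hκ.fix_form hd.rat hb]) using 1
    simp only [isom_mul_apply, H.rf_apply, map_smul, r2, mul_zero, zero_div, zero_smul, sub_zero]
    match_scalars
    · field_simp
    · ring
  obtain ⟨x, hx, hzx, hbx⟩ := hκ.exists_rat_ne H [z] (by simp [hz]) hbz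
  replace hzx := hzx z (by simp)
  obtain ⟨r, hr, hr', hrr⟩ := hκ.exists_aniso_lt H h2 (l := [z, b]) (by simp [hz, hb])
    (by simp; omega)
  have hrA : An B κ z r := ⟨hr, hr' z (by simp), hrr⟩
  obtain ⟨d, hd, hbd⟩ : ∃ d, An B κ z d ∧ B b d ≠ 0 := by
    by_contra! hc
    exact hbx (hκ.span_an H h2 hrA (P := fun x => B b x = 0) (fun x y hx hy => by simp [hx, hy])
      hc hx hzx)
  have hall : ∀ y, κ y = y → B z y = 0 → δ • y ∈ H.eichSub M hzz := fun y hy hzy =>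
    hκ.span_an H h2 hd (P := fun y => δ • y ∈ H.eichSub M hzz)
      (fun x y hx hy => by rw [smul_sub]; exact sub_mem hx hy)
      (fun e he => hκ.conn H h2 hz (.inl hn) (P := fun y => δ • y ∈ H.eichSub M hzz)
        (fun d e hd he hde hP => key d e hd.rat he hde hP) hd he (key b d hb hd hbd hbT)) hy hzy
  refine h.not_full (by omega) hz hz0 (H.full_of_forall (by omega) hzz fun w hw => ⟨0, ?_⟩)
  obtain ⟨c, d, hc, hd, e', hc', hd'⟩ := hκ.exists_decomp H hδ' w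
  rw [zero_smul, add_zero, e']
  exact add_mem (h.rat_mem hz hzz hc (hκ.orth_of_mem hz hw hc'))
    (hall d hd (hκ.orth_of_mem hz hw hd'))

omit [Finite F] in
theorem _root_.Cfsg.Lib.Class.Form.Herm.rf_mul_rf (h : Herm B) (h2 : (2 : F) ≠ 0) {z d : V}
    (hzz : B z z = 0) (hzd : B z d = 0) (hd : B d d ≠ 0) (t : F)
    (hd' : B (d + t • z) (d + t • z) ≠ 0) (hw : B z ((-2 * σ t / B d d) • d) = 0)
    (hb : 2 * (σ t * t) / B d d + σ (2 * (σ t * t) / B d d) =
      B ((-2 * σ t / B d d) • d) ((-2 * σ t / B d d) • d)) :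
    h.rf _ hd' * h.rf d hd = h.eich hzz hw _ hb := by
  refine isom_ext fun x => ?_
  simp only [isom_mul_apply, h.rf_apply, h.eich_apply, map_add, map_sub, map_smulₛₗ,
    LinearMap.add_apply, LinearMap.smul_apply, smul_eq_mul, RingHom.id_apply, hzz, hzd, h.comm hzd,
    map_div₀, map_mul, map_neg, map_ofNat, h.invol, h.conj, mul_zero, add_zero]
  match_scalars <;> field_simp <;> ring

/-- An element fixing a rational isotropic vector is rational on its perpendicular space. -/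
theorem comm_of_fix (h : OCtx κ M) (hn : 5 ≤ finrank F V) {z : V} (hz : κ z = z) (hz0 : z ≠ 0)
    (hzz : B z z = 0) {m : isomGroup B} (hm : m ∈ M) (hmz : (m : V ≃ₗ[F] V) z = z) {x : V}
    (hx : B z x = 0) : κ ((m : V ≃ₗ[F] V) x) = (m : V ≃ₗ[F] V) (κ x) := by
  have H := h.herm
  have hκ := h.conj
  have h2 := h.two
  have dec : ∀ d, An B κ z d → ∃ d₀ t, An B κ z d₀ ∧ σ t = -t ∧
      (m : V ≃ₗ[F] V) d = d₀ + t • z := by
    intro d hd
    obtain ⟨s, hs⟩ := h.eich_rat hn hz hz0 (H.apply_mem_eichSub hm (hz' := hzz) hmz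
      (h.rat_mem hz hzz hd.rat hd.perp))
    have h1 : σ s = -s := by
      have := congrArg κ hs
      rw [hκ.invol, map_add, map_smulₛₗ, hs, hz, add_assoc, left_eq_add, ← add_smul,
        smul_eq_zero] at this
      linear_combination this.resolve_right hz0
    have h3 : B z ((m : V ≃ₗ[F] V) d) = 0 := by rw [← hmz, isom_apply, hd.perp]
    refine ⟨(m : V ≃ₗ[F] V) d + (s / 2) • z, -s / 2, ⟨?_, by simp [h3, hzz], ?_⟩,
      by simp [h1, neg_div, map_ofNat], by module⟩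
    · rw [map_add, map_smulₛₗ, hs, hz, map_div₀, h1, map_ofNat]
      match_scalars <;> field_simp <;> ring
    · simpa [map_smulₛₗ, h3, hzz, H.comm h3, isom_apply] using hd.ne
  obtain ⟨r, hr, hr', hrr⟩ := hκ.exists_aniso_lt H h2 (l := [z]) (by simp [hz]) (by simp; omega)
  refine hκ.comm_of_perp H h2 hz (m := ((m : V ≃ₗ[F] V) : V →ₗ[F] V)) (fun y hy hzy => ?_) hx
  refine hκ.span_an H h2 (d := r) ⟨hr, hr' z (by simp), hrr⟩
    (P := fun y => κ ((m : V ≃ₗ[F] V) y) = (m : V ≃ₗ[F] V) y)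
    (fun x y hx hy => by simp only [map_sub, hx, hy]) (fun d hd => ?_) hy hzy
  obtain ⟨e, he, he', hee⟩ := hκ.exists_aniso_lt H h2 (l := [z, d]) (by simp [hz, hd.rat])
    (by simp; omega)
  obtain ⟨d₀, t, hd₀, ht, e1⟩ := dec d hd
  obtain ⟨e₀, u, he₀, hu, e2⟩ := dec e ⟨he, he' z (by simp), hee⟩
  have h1 : B (d₀ + t • z) (d₀ + t • z) ≠ 0 := by rw [← e1, isom_apply]; exact hd.ne
  have h3 : B (e₀ + u • z) (e₀ + u • z) ≠ 0 := by rw [← e2, isom_apply]; exact hee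
  have h4 : B d₀ e₀ = 0 := by
    have : B (d₀ + t • z) (e₀ + u • z) = 0 := by rw [← e1, ← e2, isom_apply, he' d (by simp)]
    simpa [map_smulₛₗ, hzz, he₀.perp, H.comm hd₀.perp] using this
  have h5 := mul_mem (mul_mem (mul_mem hm (h.rf_mem hd.rat he hd.ne hee)) (inv_mem hm))
    (h.rf_mem he₀.rat hd₀.rat he₀.ne hd₀.ne)
  have hb : ∀ (d : V) (t : F), B d d ≠ 0 → 2 * (σ t * t) / B d d + σ (2 * (σ t * t) / B d d) =
      B ((-2 * σ t / B d d) • d) ((-2 * σ t / B d d) • d) := fun d t hd => by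
    simp only [map_smulₛₗ, LinearMap.smul_apply, smul_eq_mul, RingHom.id_apply, map_div₀, map_mul,
      map_neg, map_ofNat, H.invol, H.conj]
    field_simp
    ring
  rw [H.conj_rf_mul m _ h1 _ h3 e1 e2, show H.rf _ h1 * H.rf _ h3 * (H.rf _ he₀.ne * H.rf _ hd₀.ne)
      = H.rf _ h1 * (H.rf _ h3 * H.rf _ he₀.ne) * (H.rf _ h1)⁻¹ * (H.rf _ h1 * H.rf _ hd₀.ne) by
      group, H.rf_mul_rf h2 hzz he₀.perp he₀.ne u h3 (by simp [he₀.perp]) (hb _ _ he₀.ne),
    H.rf_mul_rf h2 hzz hd₀.perp hd₀.ne t h1 (by simp [hd₀.perp]) (hb _ _ hd₀.ne),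
    H.conj_eich _ hzz _ _ _ (u' := z) (w' := (-2 * σ u / B e₀ e₀) • e₀)
      (by simp [H.rf_apply, map_smulₛₗ, hzz, H.comm hd₀.perp])
      (by simp [H.rf_apply, map_smulₛₗ, h4, he₀.perp]) hzz (by simp [he₀.perp]) (hb _ _ he₀.ne),
    H.eich_mul hzz _ _ _ _ _ _ (by simp [he₀.perp, hd₀.perp]) (by
      simp only [map_add, LinearMap.add_apply, H.conj]
      linear_combination hb _ u he₀.ne + hb _ t hd₀.ne)] at h5
  obtain ⟨s, hs⟩ := h.eich_rat hn hz hz0 (hzz := hzz) ⟨_, _, _, h5⟩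
  have h6 := congrArg (B d₀) hs
  simp only [map_add, map_smulₛₗ, he₀.rat, hd₀.rat, h4, H.comm hd₀.perp, smul_eq_mul, mul_zero,
    zero_add, add_zero, RingHom.id_apply, map_div₀, map_mul, map_neg, map_ofNat, ht, H.conj,
    neg_neg] at h6
  have h7 := hd₀.ne
  field_simp at h6
  have h8 : t = 0 := by
    have : (2 : F) * t = 0 := by linear_combination -h6
    exact (mul_eq_zero.1 this).resolve_left h2
  rw [e1, h8, zero_smul, add_zero, hd₀.rat]

/-- An element fixing a rational non-isotropic vector is rational. -/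
theorem comm_of_fix' (h : OCtx κ M) (hn : 6 ≤ finrank F V) {r : V} (hr : An B κ 0 r)
    {m : isomGroup B} (hm : m ∈ M) (hmr : (m : V ≃ₗ[F] V) r = r) (x : V) :
    κ ((m : V ≃ₗ[F] V) x) = (m : V ≃ₗ[F] V) (κ x) := by
  have H := h.herm
  have hκ := h.conj
  have h2 := h.two
  obtain ⟨δ, -, -, hδ'⟩ := Conj.exists_delta H h2
  refine hκ.comm_of_rat H (m := ((m : V ≃ₗ[F] V) : V →ₗ[F] V)) (fun y hy => ?_) x
  refine (hκ.eq_of_aniso H h2 (by omega) (fun d hd => ?_) hr (a := 1)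
    (by rw [hmr, hr.rat, one_smul]) hy).trans (one_smul _ _)
  have h1 : B ((m : V ≃ₗ[F] V) d) ((m : V ≃ₗ[F] V) d) ≠ 0 := by rw [isom_apply]; exact hd.ne
  have h3 := mul_mem (mul_mem hm (h.rf_mem hd.rat hr.rat hd.ne hr.ne)) (inv_mem hm)
  rw [H.conj_rf_mul m _ h1 _ hr.ne rfl hmr] at h3
  generalize (m : V ≃ₗ[F] V) d = u at h1 h3
  obtain ⟨a, b, ha, hb, e, -, -⟩ := hκ.exists_decomp H hδ' u
  obtain ⟨z, hz, hz1, hz0, hzz⟩ := hκ.exists_rat_iso H [a, b, r] [] (by simp [ha, hb, hr.rat])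
    (by simp; omega)
  have huz : B u z = 0 := by rw [e]; simp [map_smulₛₗ, hz1 a (by simp), hz1 b (by simp)]
  have hrz : B r z = 0 := hz1 r (by simp)
  obtain ⟨y, hy, hzy, huy⟩ := hκ.exists_rat_ne H [z] (by simp [hz]) (u := u) fun hm => h1 (by
    obtain ⟨c, rfl⟩ := mem_spanL_singleton.1 hm
    simp [map_smulₛₗ, hzz])
  replace hzy := hzy z (by simp)
  have h4 := hr.ne
  have h5 : (H.rf r hr.ne : V ≃ₗ[F] V) (y - (2 * B r y / B r r) • r) = y := by
    simp only [H.rf_apply, map_sub, map_smul, smul_eq_mul]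
    match_scalars <;> field_simp <;> ring
  have h6 := h.comm_of_fix (by omega) hz (ne_zero_of_notMem_spanL hz0) hzz h3
    (by simp [H.rf_apply, huz, hrz]) (x := y - (2 * B r y / B r r) • r)
    (by simp [hzy, H.comm hrz])
  rw [show κ (y - (2 * B r y / B r r) • r) = y - (2 * B r y / B r r) • r by
    simp [map_smulₛₗ, hy, hr.rat, hκ.fix_form hr.rat hy, hκ.fix_form hr.rat hr.rat, map_ofNat],
    isom_mul_apply, h5, H.rf_apply, map_sub, map_smulₛₗ, hy, sub_right_inj] at h6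
  have h7 : σ (2 * B u y / B u u) ≠ 0 := (map_ne_zero σ).2 (div_ne_zero (mul_ne_zero h2 huy) h1)
  exact ⟨(σ (2 * B u y / B u u))⁻¹ * (2 * B u y / B u u), by
    rw [← smul_smul, ← h6, smul_smul, inv_mul_cancel₀ h7, one_smul]⟩

theorem mem_ratGroup (h : OCtx κ M) (hn : 6 ≤ finrank F V) {g : isomGroup B} (hg : g ∈ M) :
    g ∈ ratGroup B κ := by
  have H := h.herm
  have hκ := h.conj
  have h2 := h.two
  have : Nontrivial V := Module.nontrivial_of_finrank_pos (R := F) (by omega)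
  obtain ⟨δ, -, -, hδ'⟩ := Conj.exists_delta H h2
  have key : ∀ d e, An B κ 0 d → An B κ 0 e → B d e = 0 →
      κ ((g : V ≃ₗ[F] V) d) ∈ spanL F [(g : V ≃ₗ[F] V) d, (g : V ≃ₗ[F] V) e] := by
    intro d e hd he hde
    have h1 : B ((g : V ≃ₗ[F] V) d) ((g : V ≃ₗ[F] V) d) ≠ 0 := by rw [isom_apply]; exact hd.ne
    have h1' : B ((g : V ≃ₗ[F] V) e) ((g : V ≃ₗ[F] V) e) ≠ 0 := by rw [isom_apply]; exact he.ne
    have h3 := mul_mem (mul_mem hg (h.rf_mem hd.rat he.rat hd.ne he.ne)) (inv_mem hg)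
    rw [H.conj_rf_mul g _ h1 _ h1' rfl rfl] at h3
    have h4 : B ((g : V ≃ₗ[F] V) d) ((g : V ≃ₗ[F] V) e) = 0 := by rw [isom_apply, hde]
    generalize (g : V ≃ₗ[F] V) d = u at h1 h3 h4
    generalize (g : V ≃ₗ[F] V) e = v at h1' h3 h4
    obtain ⟨a, b, ha, hb, e1, -, -⟩ := hκ.exists_decomp H hδ' u
    obtain ⟨a', b', ha', hb', e2, -, -⟩ := hκ.exists_decomp H hδ' v
    obtain ⟨z, hz, hz1, hz0⟩ := hκ.exists_rat H [a, b, a', b'] [] (by simp [*]) (by simp; omega)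
    have huz : B u z = 0 := by rw [e1]; simp [map_smulₛₗ, hz1 a (by simp), hz1 b (by simp)]
    have hvz : B v z = 0 := by rw [e2]; simp [map_smulₛₗ, hz1 a' (by simp), hz1 b' (by simp)]
    have h5 : ((H.rf u h1 * H.rf v h1' : isomGroup B) : V ≃ₗ[F] V) z = z := by
      simp [H.rf_apply, huz, hvz]
    have h6 : κ (((H.rf u h1 * H.rf v h1' : isomGroup B) : V ≃ₗ[F] V) u) =
        ((H.rf u h1 * H.rf v h1' : isomGroup B) : V ≃ₗ[F] V) (κ u) := by
      by_cases hzz : B z z = 0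
      · exact h.comm_of_fix (by omega) hz (ne_zero_of_notMem_spanL hz0) hzz h3 h5 (H.comm huz)
      · exact h.comm_of_fix' hn ⟨hz, by simp, hzz⟩ h3 h5 u
    simp only [isom_mul_apply, H.rf_apply, H.comm h4, h4, map_sub, map_smulₛₗ, mul_zero, zero_div,
      zero_smul, sub_zero, mul_div_cancel_right₀ _ h1, map_ofNat, smul_zero] at h6
    rw [← Submodule.smul_mem_iff _ h2]
    exact mem_spanL_pair.2 ⟨2 * B u (κ u) / B u u, 2 * B v (κ u) / B v v, by
      linear_combination (norm := module) h6⟩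
  have key2 : ∀ d, An B κ 0 d → ∃ a : F, κ ((g : V ≃ₗ[F] V) d) = a • (g : V ≃ₗ[F] V) d := by
    intro d hd
    obtain ⟨e, he, he', hee⟩ := hκ.exists_aniso_lt H h2 (l := [d]) (by simp [hd.rat])
      (by simp; omega)
    obtain ⟨f, hf, hf', hff⟩ := hκ.exists_aniso_lt H h2 (l := [d, e]) (by simp [hd.rat, he])
      (by simp; omega)
    obtain ⟨a, b, hab⟩ := mem_spanL_pair.1 (key d e hd ⟨he, by simp, hee⟩ (he' d (by simp)))
    obtain ⟨a', b', hab'⟩ := mem_spanL_pair.1 (key d f hd ⟨hf, by simp, hff⟩ (hf' d (by simp)))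
    have := congrArg (B ((g : V ≃ₗ[F] V) e)) (hab.trans hab'.symm)
    simp only [map_add, map_smul, isom_apply, H.comm (he' d (by simp)), hf' e (by simp),
      smul_eq_mul, mul_zero, zero_add, add_zero, mul_eq_zero, hee, or_false] at this
    exact ⟨a, by rw [← hab, this, zero_smul, add_zero]⟩
  obtain ⟨d, hd, -, hdd⟩ := hκ.exists_aniso_lt H h2 (l := []) (by simp) (by simp; omega)
  obtain ⟨a, ha⟩ := key2 d ⟨hd, by simp, hdd⟩
  exact hκ.mem_ratGroup_of_top H fun x hx =>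
    hκ.eq_of_aniso H h2 (by omega) key2 ⟨hd, by simp, hdd⟩ ha hx

end OCtx

theorem Conj.maxS_orthogonal' [Finite F] (hκ : Conj B κ 1) (h : Herm B) (h2 : (2 : F) ≠ 0)
    (hn : 6 ≤ finrank F V) : MaxS B (ratGroup B κ) :=
  ⟨hκ.not_sIsom_le h (by omega), fun _ hM _ _ hg hgH => by_contra fun hne =>
    hgH (OCtx.mem_ratGroup ⟨hκ, h, h2, hM, hne⟩ hn hg)⟩

end Cfsg.Lib.Class.Form
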