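import Cfsg.Agent.Class.SU.FrameSix
import Cfsg.Agent.Class.SU.Orth

/-! Overgroups of frame stabilisers in `SU(V)`: dimension four. -/

namespace Cfsg.Lib.Class.Form
open Module

theorem dih_pow_mul {G : Type*} [Group G] {s u : G} (hs : s * s = 1) (hu : u * u = 1) (m : ℕ) :
    (∃ j : ℕ, (s * u) ^ m * s = (s * u) ^ j * s * ((s * u) ^ j)⁻¹ ∨
      (s * u) ^ m * s = (s * u) ^ j * u * ((s * u) ^ j)⁻¹) ∧
    ∃ j : ℕ, (s * u) ^ m * u = (s * u) ^ j * s * ((s * u) ^ j)⁻¹ ∨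
      (s * u) ^ m * u = (s * u) ^ j * u * ((s * u) ^ j)⁻¹ := by
  have h1 := C6.dih_conj_pow (C6.dih_left hs hu)
  have h2 := C6.dih_conj_pow (C6.dih_right hs hu)
  rcases Nat.even_or_odd' m with ⟨j, rfl | rfl⟩
  · exact ⟨⟨j, .inl (h1 j).symm⟩, j, .inr (h2 j).symm⟩
  · refine ⟨⟨j + 1, .inr ?_⟩, j, .inl ?_⟩
    · rw [h2, show 2 * (j + 1) = 2 * j + 1 + 1 by ring, pow_succ _ (2 * j + 1), mul_assoc,
        mul_assoc s, hu, mul_one]
    · rw [h1, pow_succ, mul_assoc, mul_assoc s, hu, mul_one]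

theorem dih_mod {G : Type*} [Group G] [Finite G] (Z : Subgroup G) [Z.Normal] {s u : G}
    (hs : s * s = 1) (hu : u * u = 1) :
    ((∃ N, Odd N ∧ (s * u) ^ N ∈ Z) ∧ ∃ m : ℕ, ((s * u) ^ m * s * ((s * u) ^ m)⁻¹) * s *
      ((s * u) ^ m * s * ((s * u) ^ m)⁻¹)⁻¹ * u⁻¹ ∈ Z) ∨
    ∃ m : ℕ, (s * u) ^ m ∉ Z ∧ (s * u) ^ m * (s * u) ^ m ∈ Z := by
  let φ := QuotientGroup.mk' Z
  have hφ : ∀ x, φ x = 1 ↔ x ∈ Z := fun x => QuotientGroup.eq_one_iff x
  have h0 : ∀ N, (s * u) ^ N ∈ Z ↔ orderOf (φ s * φ u) ∣ N := fun N => by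
    rw [← hφ, orderOf_dvd_iff_pow_eq_one, map_pow, map_mul]
  rcases Nat.even_or_odd (orderOf (φ s * φ u)) with ⟨m, hm⟩ | hodd
  · have hpos := orderOf_pos (φ s * φ u)
    refine .inr ⟨m, fun h => ?_, by rw [← pow_add, h0, hm]⟩
    have := Nat.le_of_dvd (by omega) ((h0 m).1 h)
    omega
  · obtain ⟨m, hm⟩ := dih_odd_conj (s := φ s) (u := φ u) (by rw [← map_mul, hs, map_one])
      (by rw [← map_mul, hu, map_one]) hodd
    refine .inl ⟨⟨_, hodd, (h0 _).2 dvd_rfl⟩, m, (hφ _).1 ?_⟩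
    simp only [map_mul, map_inv, map_pow, hm, mul_inv_cancel]

theorem dih_comm_left {G : Type*} [Group G] {s u : G} (hs : s * s = 1) (hu : u * u = 1) (m : ℕ) :
    (s * u) ^ m * s = (s * u) ^ m * (s * u) ^ m * (s * (s * u) ^ m) := by
  have := C6.dih_conj_pow (C6.dih_left hs hu) m
  rw [two_mul, pow_add, mul_inv_eq_iff_eq_mul] at this
  rw [this, mul_assoc]

theorem dih_comm_right {G : Type*} [Group G] {s u : G} (hs : s * s = 1) (hu : u * u = 1) (m : ℕ) :
    (s * u) ^ m * u = (s * u) ^ m * (s * u) ^ m * (u * (s * u) ^ m) := by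
  have := C6.dih_conj_pow (C6.dih_right hs hu) m
  rw [two_mul, pow_add, mul_inv_eq_iff_eq_mul] at this
  rw [this, mul_assoc]

variable {F V : Type*} [Field F] [AddCommGroup V] [Module F V] {σ : F →+* F}
  {B : V →ₛₗ[σ] V →ₗ[F] F} {ι : Type*} [Fintype ι] {e : ι → V} {X : Subgroup (isomGroup B)}

/-- The scalar isometries. -/
def scal (B : V →ₛₗ[σ] V →ₗ[F] F) : Subgroup (isomGroup B) where
  carrier := {x | ∃ c : F, c ≠ 0 ∧ ∀ v, (x : V ≃ₗ[F] V) v = c • v}
  one_mem' := ⟨1, one_ne_zero, by simp⟩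
  mul_mem' := by
    rintro x y ⟨c, hc0, hc⟩ ⟨d, hd0, hd⟩
    exact ⟨c * d, mul_ne_zero hc0 hd0, fun v => by rw [isom_mul_apply, hd, hc, smul_smul]⟩
  inv_mem' := by
    rintro x ⟨c, hc0, hc⟩
    refine ⟨c⁻¹, inv_ne_zero hc0, fun v => ?_⟩
    conv_rhs => rw [← isom_apply_inv x v, hc, smul_smul, inv_mul_cancel₀ hc0, one_smul]

instance scal_normal (B : V →ₛₗ[σ] V →ₗ[F] F) : (scal B).Normal := ⟨by
  rintro x ⟨c, hc0, hc⟩ g
  exact ⟨c, hc0, fun v => by rw [isom_mul_apply, isom_mul_apply, hc, map_smul, isom_apply_inv]⟩⟩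

omit [Fintype ι] in
theorem act_of_scal {x : isomGroup B} (hx : x ∈ scal B) : Act e x 1 := fun i => by
  obtain ⟨c, hc0, hc⟩ := hx
  exact ⟨c, hc0, hc _⟩

variable [FiniteDimensional F V]

theorem ON.scal_le (h : ON B e) : scal B ≤ monG B e := by
  rintro x ⟨c, -, hc⟩
  exact h.mem_monG.2 fun i => ⟨i, c, hc _⟩

theorem ON.not_mem_monG (h : ON B e) {x : isomGroup B} {i l l' : ι} (hl : l ≠ l')
    (h1 : B (e l) ((x : V ≃ₗ[F] V) (e i)) ≠ 0) (h2 : B (e l') ((x : V ≃ₗ[F] V) (e i)) ≠ 0) :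
    x ∉ monG B e := fun hx => by
  obtain ⟨j, c, hc⟩ := h.mem_monG.1 hx i
  rw [hc, map_smul] at h1 h2
  by_cases hj : l = j
  · exact h2 (by rw [h.ne _ _ (hj ▸ hl.symm), smul_zero])
  · exact h1 (by rw [h.ne _ _ hj, smul_zero])

theorem FX.exists_smul_qrefl (h : FX e X) (hn : Fintype.card ι = 4) {g : isomGroup B} (hg : g ∈ X)
    (j : ι) {l : F} (hl : σ l * l = 1) : ∃ x ∈ X, ∀ v, (x : V ≃ₗ[F] V) v =
      l • (v + ((σ l ^ 4 - 1) * B ((g : V ≃ₗ[F] V) (e j)) v) • (g : V ≃ₗ[F] V) (e j)) := by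
  have H := h.on.herm
  have hl0 : l ≠ 0 := right_ne_zero_of_mul_eq_one hl
  have hμ : σ (σ l ^ 4) * σ l ^ 4 = 1 := by rw [map_pow, H.invol, ← mul_pow, mul_comm, hl, one_pow]
  have h' := h.map hg
  refine ⟨scalarIsom B (Units.mk0 l hl0) hl * H.qrefl _ (h'.on.self_ne j) _ hμ,
    h'.mem _ (mul_mem (h'.on.scal_le ⟨l, hl0, fun v => rfl⟩) (h'.on.qrefl_mem j _ hμ)) ?_,
    fun v => ?_⟩
  · rw [mem_sIsom', Subgroup.coe_mul, map_mul, Units.val_mul, H.det_qrefl,
      det_of_forall_eq_smul (scalarIsom_apply B _ hl), h.on.finrank_eq, hn, Units.val_mk0,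
      ← mul_pow, mul_comm, hl, one_pow]
  · rw [isom_mul_apply, scalarIsom_apply B (Units.mk0 l hl0) hl, H.qrefl_apply, h'.on.self,
      div_one, Units.val_mk0]

namespace Ctx

/-- A column with a zero entry has support two. -/
theorem supp_two (h : Ctx e X) (hn : Fintype.card ι = 4) {g : isomGroup B} (hg : g ∈ X)
    (hg' : g ∉ monG B e) {m j : ι} (h0 : B (e m) ((g : V ≃ₗ[F] V) (e j)) = 0) {l : F}
    (hl : σ l * l = 1) (hl4 : σ l ^ 4 ≠ 1) : ∃ k k', k ≠ k' ∧
      1 + (σ l ^ 4 - 1) * B ((g : V ≃ₗ[F] V) (e j)) (e k) * B (e k) ((g : V ≃ₗ[F] V) (e j)) = 0 ∧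
      ∀ p, p ≠ k → p ≠ k' → B (e p) ((g : V ≃ₗ[F] V) (e j)) = 0 := by
  have H := h.on.herm
  have hl0 : l ≠ 0 := right_ne_zero_of_mul_eq_one hl
  obtain ⟨x, hx, e1⟩ := h.toFX.exists_smul_qrefl hn hg j hl
  obtain ⟨k, k', hk, h1, h2⟩ := h.on.exists_two j fun i c e => hg' (h.ctx g hg j i c e)
  obtain ⟨n, c, hc⟩ := h.on.mem_monG.1 (h.ctx x hx m m l (by simp [e1, H.comm h0])) k
  have h3 := sub_ne_zero.2 hl4
  have hn : k' = n := by
    by_contra hn
    simpa [e1, h.on.ne _ _ hn, h.on.ne _ _ hk.symm, hl0, h2, H.ne_comm h1, h3] using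
      congrArg (B (e k')) hc
  subst hn
  refine ⟨k, k', hk, ?_, fun p p1 p2 => ?_⟩
  · refine mul_left_cancel₀ hl0 ?_
    simpa [e1, h.on.ne _ _ hk, h.on.self, mul_add] using congrArg (B (e k)) hc
  · simpa [e1, h.on.ne _ _ p1, h.on.ne _ _ p2, hl0, H.ne_comm h1, h3] using congrArg (B (e p)) hc

theorem mem_monG_four_even [Finite F] (h : Ctx e X) (h2 : (2 : F) = 0) (hn : Fintype.card ι = 4)
    {g : isomGroup B} (hg : g ∈ X) : g ∈ monG B e := by
  by_contra hg'
  have H := h.on.herm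
  have : CharP F 2 := (CharP.charP_iff_prime_eq_zero Nat.prime_two).2 (by exact_mod_cast h2)
  have sq : ∀ μ : F, σ μ * μ = 1 → ∃ l : F, σ l * l = 1 ∧ l * l = μ := fun μ hμ => by
    obtain ⟨ρ, rfl⟩ := FiniteField.isSquare_of_char_two (F := F) (ringChar.eq F 2) μ
    refine ⟨ρ, ?_, rfl⟩
    have : (σ ρ * ρ - 1) ^ 2 = 0 := by
      rw [map_mul] at hμ; linear_combination hμ + (1 - σ ρ * ρ) * h2
    simpa [sub_eq_zero] using this
  have four : ∀ μ : F, σ μ * μ = 1 → ∃ l : F, σ l * l = 1 ∧ σ l ^ 4 = μ := fun μ hμ => by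
    obtain ⟨a, ha, rfl⟩ := sq μ hμ
    obtain ⟨b, hb, rfl⟩ := sq a ha
    exact ⟨σ b, by rw [H.invol, mul_comm, hb], by rw [H.invol]; ring⟩
  have nz : ∀ g ∈ X, g ∉ monG B e → ∀ m j, B (e m) ((g : V ≃ₗ[F] V) (e j)) ≠ 0 := by
    intro g hg hg' m j h0
    obtain ⟨μ, hμ, hμ'⟩ := exists_normOne_ne_one H.ne_id H.invol
    obtain ⟨l, hl, rfl⟩ := four μ hμ
    obtain ⟨k, -, -, h1, -⟩ := h.supp_two hn hg hg' h0 hl fun e => hμ' (by simp [e])
    have h3 := congrArg σ h1
    simp only [map_add, map_mul, map_sub, map_one, map_zero, H.conj] at h3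
    have h4 : B ((g : V ≃ₗ[F] V) (e j)) (e k) * B (e k) ((g : V ≃ₗ[F] V) (e j)) ≠ 0 := fun e => by
      simp [mul_assoc, e] at h1
    exact hμ' (mul_right_cancel₀ h4 (by linear_combination h3 - h1))
  have rf : ∀ g ∈ X, ∀ j, H.RfA (X ⊔ scal B) ((g : V ≃ₗ[F] V) (e j)) := fun g hg j => by
    refine ⟨(h.on.map g).self j, fun ha μ hμ => ?_⟩
    obtain ⟨l, hl, rfl⟩ := four μ hμ
    obtain ⟨x, hx, e1⟩ := h.toFX.exists_smul_qrefl hn hg j hl
    have hl0 : l ≠ 0 := right_ne_zero_of_mul_eq_one hl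
    have h3 : x * (H.qrefl _ ha _ hμ)⁻¹ ∈ scal B := ⟨l, hl0, fun v => by
      obtain ⟨v, rfl⟩ := (H.qrefl _ ha _ hμ : V ≃ₗ[F] V).surjective v
      rw [isom_mul_apply, isom_inv_apply, e1, H.qrefl_apply, (h.on.map g).self, div_one]⟩
    simpa using mul_mem (inv_mem (Subgroup.mem_sup_right h3)) (Subgroup.mem_sup_left hx)
  obtain ⟨f⟩ : Nonempty (Fin 4 ↪ ι) := Function.Embedding.nonempty_of_card_le (by simp; omega)
  have hB : ∀ {i j}, i ≠ j → B (e (f i)) (e (f j)) = 0 := fun hij =>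
    h.on.ne _ _ (f.injective.ne hij)
  obtain ⟨a, b, c, ha, -, hc, -, y, hy, e1⟩ := Herm.exists_shear (rf g hg (f 0))
    (by simpa using rf 1 (one_mem _) (f 0)) (by simpa using rf 1 (one_mem _) (f 1))
    (w := e (f 2)) (hB (by decide)) (hB (by decide)) (hB (by decide)) (nz g hg hg' _ _)
    (nz g hg hg' _ _) (nz g hg hg' _ _)
  obtain ⟨x, hx, z, ⟨d, hd0, hd⟩, rfl⟩ := Subgroup.mem_sup_of_normal_right.1 hy
  rw [isom_mul_apply, hd, map_smul] at e1
  have e2 : ∀ i, B (e (f i)) ((x : V ≃ₗ[F] V) (e (f 2))) =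
      d⁻¹ * B (e (f i)) (e (f 2) + c • (a • e (f 0) + b • e (f 1))) := fun i => by
    rw [← e1, map_smul, smul_eq_mul, inv_mul_cancel_left₀ hd0]
  refine nz x hx (h.on.not_mem_monG (i := f 2) (f.injective.ne (show 0 ≠ 2 by decide)) ?_ ?_)
    (f 3) (f 2) ?_ <;> simp [e2, hB, h.on.self, hd0, ha, hc]

end Ctx

/-- The data for odd characteristic in dimension four. -/
structure CtxF (e : ι → V) (X : Subgroup (isomGroup B)) : Prop extends Ctx e X where
  two : (2 : F) ≠ 0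
  card : Fintype.card ι = 4
  ex : ∃ l : F, σ l * l = 1 ∧ l ^ 4 ≠ 1

namespace CtxF

theorem map (h : CtxF e X) {g : isomGroup B} (hg : g ∈ X) :
    CtxF (fun i => (g : V ≃ₗ[F] V) (e i)) X := ⟨h.toCtx.map hg, h.two, h.card, h.ex⟩

theorem nz (h : CtxF e X) {g : isomGroup B} (hg : g ∈ X) (hg' : g ∉ monG B e) (m j : ι) :
    B (e m) ((g : V ≃ₗ[F] V) (e j)) ≠ 0 := by
  intro h0
  have H := h.on.herm
  have hn := h.card
  obtain ⟨l, hl, hl4⟩ := h.ex
  obtain ⟨k, k', hk, -, h1⟩ := h.supp_two hn hg hg' h0 hl (by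
    rw [← map_pow]; exact fun e => hl4 (σ.injective (by rw [e, map_one])))
  obtain ⟨p, hp⟩ := FX.exists_ne_of_card [k, k'] (by simp; omega)
  obtain ⟨p', hp'⟩ := FX.exists_ne_of_card [k, k', p] (by simp; omega)
  simp only [List.mem_cons, List.not_mem_nil, or_false, not_or] at hp hp'
  obtain ⟨n, n1, n2, n3⟩ := h.exists_supp ⟨-1, by simp, by simp,
    fun e => h.two (by linear_combination -e)⟩ hg hg' hp'.2.2 (h1 _ hp'.1 hp'.2.1) (h1 _ hp.1 hp.2)
  obtain ⟨d, hd, e1⟩ := h.exists_dg hp'.2.2 hl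
  obtain ⟨i, c, hc⟩ := (h.on.map g).mem_monG.1 ((h.toCtx.map hg).of_fix hd (j := j)
    (by simp [e1, h1 _ hp'.1 hp'.2.1, h1 _ hp.1 hp.2])) n
  set u := (g : V ≃ₗ[F] V) (e n) with hu
  have o1 := h.on.ne _ _ hp'.2.2
  by_cases hi : i = n
  · rw [hi, ← hu, e1] at hc
    have e2 := congrArg (B (e p')) hc
    have e3 := congrArg (B (e p)) hc
    simp only [map_add, map_smul, h.on.self, o1, H.comm o1, smul_eq_mul] at e2 e3
    have e4 : l = c := mul_right_cancel₀ n1 (by linear_combination e2)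
    have e5 : σ l = c := mul_right_cancel₀ n2 (by linear_combination e3)
    exact hl4 (by rw [e5, ← e4] at hl; linear_combination (l * l + 1) * hl)
  · have e2 := congrArg (B u) hc
    have e3 : B u u = 1 := (h.on.map g).self n
    rw [e1, map_smul, (h.on.map g).ne _ _ (Ne.symm hi)] at e2
    have e4 := congrArg (B u) (h.on.eq_pair hp'.2.2 n3)
    simp only [map_add, map_smul, e3, smul_eq_mul] at e2 e4
    have e5 := congrArg σ e2
    simp only [map_add, map_mul, map_sub, map_one, map_zero, H.conj, H.invol] at e5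
    have e8 : (l + σ l) * (B (e p') u * B u (e p') + B (e p) u * B u (e p)) = 0 := by
      linear_combination e2 + e5 - 2 * e4
    rw [← e4, mul_one] at e8
    exact hl4 (by linear_combination (l * l - 1) * l * e8 - (l * l - 1) * hl)

theorem nz' (h : CtxF e X) {g : isomGroup B} (hg : g ∈ X) (hg' : g ∉ monG B e) (m j : ι) :
    B ((g : V ≃ₗ[F] V) (e m)) (e j) ≠ 0 := h.on.herm.ne_comm (h.nz hg hg' j m)

/-- An element commuting with a diagonal involution up to a scalar is monomial. -/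
theorem mem_of_comm (h : CtxF e X) {x a z : isomGroup B} (hx : x ∈ X) {i j : ι} (hij : i ≠ j)
    (ha : IsT a (e i) (e j)) (hz : z ∈ scal B) (hc : x * a = z * (a * x)) : x ∈ monG B e := by
  classical
  by_contra hx'
  obtain ⟨c, -, hz⟩ := hz
  obtain ⟨p, hp⟩ := FX.exists_ne_of_card [i, j] (by simp [h.card])
  simp only [List.mem_cons, List.not_mem_nil, or_false, not_or] at hp
  have e1 := congrArg (fun y : isomGroup B => (y : V ≃ₗ[F] V) (e i)) hc
  simp only [isom_mul_apply, ha.apply h.on hij, true_or, if_true, hz, ha ((x : V ≃ₗ[F] V) (e i)),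
    map_smul] at e1
  have e2 := congrArg (B (e i)) e1
  have e3 := congrArg (B (e p)) e1
  simp only [map_smul, map_sub, h.on.self, h.on.ne _ _ hij, h.on.ne _ _ hp.1, h.on.ne _ _ hp.2,
    smul_eq_mul] at e2 e3
  have e4 : c = 1 := mul_right_cancel₀ (h.nz hx hx' i i) (by linear_combination e2)
  exact mul_ne_zero h.two (h.nz hx hx' p i) (by rw [e4] at e3; linear_combination -e3)

theorem lemU (h : CtxF e X) {g t : isomGroup B} (hg : g ∈ X) {i j : ι} (hij : i ≠ j)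
    (ht : IsT t ((g : V ≃ₗ[F] V) (e i)) ((g : V ≃ₗ[F] V) (e j))) (ht' : t ∈ monG B e) :
    g ∈ monG B e := by
  classical
  by_contra hg'
  have H := h.on.herm
  have hn := h.card
  have hf := h.on.map g
  obtain ⟨π, hπ⟩ := h.on.exists_act ht'
  obtain ⟨p, hp⟩ := FX.exists_ne_of_card [i, j] (by simp [hn])
  simp only [List.mem_cons, List.not_mem_nil, or_false, not_or] at hp
  have h1 : ∀ k, π k ≠ k := fun k hk => by
    obtain ⟨c, -, hc⟩ := hπ k
    rw [hk, ht] at hc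
    have e2 := congrArg (B ((g : V ≃ₗ[F] V) (e i))) hc
    have e3 := congrArg (B ((g : V ≃ₗ[F] V) (e p))) hc
    simp only [map_smul, map_sub, hf.self, hf.ne _ _ hij, hf.ne _ _ hp.1, hf.ne _ _ hp.2,
      smul_eq_mul] at e2 e3
    have e4 : c = 1 := mul_right_cancel₀ (h.nz' hg hg' p k) (by linear_combination -e3)
    exact mul_ne_zero h.two (h.nz' hg hg' i k) (by rw [e4] at e2; linear_combination -e2)
  have h2 : ∀ k, π (π k) = k := fun k => by
    have h3 : π * π = 1 := (hπ.mul hπ).unique h.on (by rw [ht.mul_self hf hij]; exact Act.one)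
    exact Equiv.congr_fun h3 k
  obtain ⟨b, hb⟩ := FX.exists_ne_of_card [i, π i] (by simp [hn])
  simp only [List.mem_cons, List.not_mem_nil, or_false, not_or] at hb
  have n1 : π b ≠ i := fun e => hb.2 (by rw [← e, h2])
  have n2 : π b ≠ π i := π.injective.ne hb.1
  have hall := mem_of_nodup [i, π i, b, π b] (by
    simp [(h1 _).symm, n1.symm, Ne.symm hb.1, Ne.symm hb.2]) (by simp [hn])
  simp only [List.mem_cons, List.not_mem_nil, or_false] at hall
  obtain ⟨l, hl, hl4⟩ := h.ex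
  obtain ⟨d₁, hd₁, e1⟩ := h.exists_dg (Ne.symm hb.1) hl
  obtain ⟨d₂, hd₂, e2⟩ := h.exists_dg n2.symm hl
  have e3 : ∀ k, ((d₁ * d₂ : isomGroup B) : V ≃ₗ[F] V) (e k) =
      (if k = i ∨ k = π i then l else σ l) • e k := fun k => by
    rcases hall k with rfl | rfl | rfl | rfl <;>
      simp [e1, e2, h.on.apply, h1, (h1 _).symm, n1, n1.symm, hb.1, hb.2, Ne.symm hb.1,
        Ne.symm hb.2, sub_smul]
  have e4 : d₁ * d₂ * t = t * (d₁ * d₂) := h.on.isom_ext fun k => by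
    obtain ⟨c, -, hc⟩ := hπ k
    rw [isom_mul_apply, hc, map_smul, e3, isom_mul_apply t, e3, map_smul, hc, smul_comm]
    have h3 : (π k = i ∨ π k = π i) ↔ (k = i ∨ k = π i) := by
      rcases hall k with rfl | rfl | rfl | rfl <;> simp [h2, h1, n1, hb.1, hb.2]
    rw [if_congr h3 rfl rfl]
  obtain ⟨ρ, hρ⟩ := hf.exists_act ((h.map hg).mem_of_comm (mul_mem hd₁ hd₂) hij ht (one_mem _)
    (by rw [one_mul, e4]))
  have e5 := hρ.mem_iff hf h.two hij hij ht ht e4
  have e6 : ρ (ρ i) = i := by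
    have := (e5 i).1 (.inl rfl)
    have := (e5 j).1 (.inr rfl)
    have := ρ.injective.ne hij
    grind
  obtain ⟨c, -, hc⟩ := hρ.mul hρ i
  rw [Equiv.Perm.mul_apply, e6] at hc
  have e7 : ∀ k v, B (e k) (((d₁ * d₂ : isomGroup B) : V ≃ₗ[F] V) v) =
      (if k = i ∨ k = π i then l else σ l) * B (e k) v := fun k v => by
    have := isom_apply (d₁ * d₂) (e k) v
    rw [e3, map_smulₛₗ, LinearMap.smul_apply, smul_eq_mul] at this
    rw [← this]
    split_ifs
    · rw [← mul_assoc, mul_comm l, hl, one_mul]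
    · rw [H.invol, ← mul_assoc, hl, one_mul]
  have e8 := congrArg (B (e i)) hc
  have e9 := congrArg (B (e b)) hc
  rw [isom_mul_apply, e7, e7, map_smul, smul_eq_mul] at e8 e9
  simp only [true_or, if_true, hb.1, hb.2, or_self, if_false] at e8 e9
  have f1 : l * l = c := mul_right_cancel₀ (h.nz hg hg' i i) (by linear_combination e8)
  have f2 : σ l * σ l = c := mul_right_cancel₀ (h.nz hg hg' b i) (by linear_combination e9)
  exact hl4 (by linear_combination l * l * f1 - l * l * f2 + (σ l * l + 1) * hl)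

theorem diag_of_mem (h : CtxF e X) {g t : isomGroup B} (hg : g ∈ X) {i j : ι} (hij : i ≠ j)
    (ht : IsT t ((g : V ≃ₗ[F] V) (e i)) ((g : V ≃ₗ[F] V) (e j))) (ht' : t ∈ monG B e) :
    Act e t 1 := by
  classical
  obtain ⟨π, c, hc⟩ := h.on.exists_perm (h.lemU hg hij ht ht')
  rw [(hc i).2, (hc j).2] at ht
  intro p
  refine ⟨_, ?_, (ht.smul (h.on.norm_of_apply (hc i).2) (h.on.norm_of_apply (hc j).2)).apply h.on
    (π.injective.ne hij) p⟩
  split_ifs <;> simp

theorem scal_of_diag (h : CtxF e X) {g w : isomGroup B} (hg : g ∈ X) (hg' : g ∉ monG B e)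
    (hw : Act e w 1) {j : ι} {c : F}
    (hc : (w : V ≃ₗ[F] V) ((g : V ≃ₗ[F] V) (e j)) = c • (g : V ≃ₗ[F] V) (e j)) : w ∈ scal B := by
  have key : ∀ p, (w : V ≃ₗ[F] V) (e p) = c • e p := fun p => by
    obtain ⟨d, -, hd⟩ := hw p
    have h1 := isom_apply w (e p) ((g : V ≃ₗ[F] V) (e j))
    have h2 := h.on.norm_of_apply hd
    rw [hd, hc] at h1
    simp only [map_smulₛₗ, LinearMap.smul_apply, smul_eq_mul, RingHom.id_apply,
      Equiv.Perm.one_apply] at h1
    have h3 : c * σ d = 1 := mul_right_cancel₀ (h.nz hg hg' p j) (by linear_combination h1)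
    rw [hd, show c = d by linear_combination d * h3 - c * h2]
    rfl
  refine ⟨c, ?_, fun v => ?_⟩
  · rintro rfl
    exact h.on.ne_zero j (by simpa using key j)
  · conv_lhs => rw [← h.on.sum v]
    conv_rhs => rw [← h.on.sum v]
    simp only [map_sum, map_smul, key, Finset.smul_sum, smul_comm c]

variable [Finite F]

theorem lemO (h : CtxF e X) {g a b : isomGroup B} (hg : g ∈ X) (hg' : g ∉ monG B e)
    {i j k l : ι} (hij : i ≠ j) (hkl : k ≠ l) (ha : IsT a (e i) (e j)) (haX : a ∈ X)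
    (hb : IsT b ((g : V ≃ₗ[F] V) (e k)) ((g : V ≃ₗ[F] V) (e l))) (hbX : b ∈ X) :
    (∃ N, Odd N ∧ (a * b) ^ N ∈ scal B) ∧ ∃ m : ℕ, ((a * b) ^ m * a * ((a * b) ^ m)⁻¹) * a *
      ((a * b) ^ m * a * ((a * b) ^ m)⁻¹)⁻¹ * b⁻¹ ∈ scal B := by
  classical
  have := C6.eg_finite_linearEquiv (K := F) (V := V)
  have h' := h.map hg
  have a2 := ha.mul_self h.on hij
  have b2 := hb.mul_self h'.on hkl
  refine (dih_mod (scal B) a2 b2).resolve_right ?_
  rintro ⟨m, h1, h2⟩
  have hX : ∀ j : ℕ, (a * b) ^ j ∈ X := fun j => pow_mem (mul_mem haX hbX) j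
  have m1 := mul_mem (h.mem_of_comm (hX m) hij ha h2 (dih_comm_left a2 b2 m)) (ha.mem h.on hij)
  have m2 := mul_mem (h'.mem_of_comm (hX m) hkl hb h2 (dih_comm_right a2 b2 m))
    (hb.mem h'.on hkl)
  obtain ⟨⟨x, hx⟩, y, hy⟩ := dih_pow_mul a2 b2 m
  have d1 : Act e ((a * b) ^ m * a) 1 := by
    rcases hx with hx | hx <;> rw [hx] at m1 ⊢
    · exact h.diag_of_mem (hX x) hij (ha.conj _) m1
    · exact h.diag_of_mem (mul_mem (hX x) hg) hkl (hb.conj _) m1
  have d2 : Act (fun i => (g : V ≃ₗ[F] V) (e i)) ((a * b) ^ m * b) 1 := by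
    rcases hy with hy | hy <;> rw [hy] at m2 ⊢
    · refine h'.diag_of_mem (mul_mem (hX y) (inv_mem hg)) hij ?_ m2
      simpa only [isom_mul_apply, isom_inv_apply] using ha.conj ((a * b) ^ y)
    · exact h'.diag_of_mem (hX y) hkl (hb.conj _) m2
  have d3 := d1.mul (h.diag_of_mem (one_mem _) hij (by simpa using ha) (ha.mem h.on hij))
  have d4 := d2.mul (h'.diag_of_mem (one_mem _) hkl (by simpa using hb) (hb.mem h'.on hkl))
  rw [mul_assoc, a2, mul_one, mul_one] at d3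
  rw [mul_assoc, b2, mul_one, mul_one] at d4
  obtain ⟨c, -, hc⟩ := d4 i
  exact h1 (h.scal_of_diag hg hg' d3 hc)

theorem exists_swap (h : CtxF e X) {g b : isomGroup B} (hg : g ∈ X) (hg' : g ∉ monG B e)
    {k l : ι} (hkl : k ≠ l) (hb : IsT b ((g : V ≃ₗ[F] V) (e k)) ((g : V ≃ₗ[F] V) (e l)))
    (hbX : b ∈ X) {i j : ι} (hij : i ≠ j) : ∃ a s : isomGroup B, IsT a (e i) (e j) ∧ Sw e X g s ∧
      s * s = 1 ∧ s * a * s * b⁻¹ ∈ scal B := by
  obtain ⟨a, haX, ha⟩ := h.exists_isT hij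
  obtain ⟨-, m, hm⟩ := h.lemO hg hg' hij hkl ha haX hb hbX
  have hr := pow_mem (mul_mem haX hbX) m
  have hs := mul_mem (mul_mem hr haX) (inv_mem hr)
  have h1 := ha.conj ((a * b) ^ m)
  have h2 := h1.mul_self (h.on.map _) hij
  generalize (a * b) ^ m * a * ((a * b) ^ m)⁻¹ = s at *
  refine ⟨a, s, ha, ⟨hs, ?_, _, hr, i, j, hij, h1⟩, h2, by rwa [inv_eq_of_mul_eq_one_right h2] at hm⟩
  refine h.lemU (mul_mem (inv_mem hg) hs) hij (ha.conj _) ?_
  have := hb.conj g⁻¹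
  rw [isom_inv_apply, isom_inv_apply] at this
  convert mul_mem (h.on.scal_le ((scal_normal B).conj_mem _ hm g⁻¹)) (this.mem h.on hkl) using 1
  group

theorem exists_odd (h : CtxF e X) {g s s' : isomGroup B} (hg : g ∉ monG B e) (hs : Sw e X g s)
    (hs' : Sw e X g s') (hm : s' * s ∈ monG B e) : ∃ N, Odd N ∧ (s' * s) ^ N ∈ scal B := by
  classical
  have hs0 : s ∉ monG B e := fun h' => hg (by simpa [mul_mem_cancel_right h'] using hs.2.1)
  obtain ⟨hsX, -, r, hr, i, j, hij, ht⟩ := hs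
  obtain ⟨hsX', -, r', hr', k, l, hkl, ht'⟩ := hs'
  by_cases hrr : r'⁻¹ * r ∈ monG B e
  swap
  · exact ((h.map hr').lemO (g := r * r'⁻¹) (mul_mem hr (inv_mem hr'))
      (by rw [h.on.mem_monG_map]; convert hrr using 2; group) hkl hij ht' hsX'
      (by simpa only [isom_mul_apply, isom_inv_apply] using ht) hsX).1
  obtain ⟨ρ, c, hc⟩ := h.on.exists_perm (inv_mem hrr)
  have e3 : ∀ p, (r' : V ≃ₗ[F] V) (e p) = c p • (r : V ≃ₗ[F] V) (e (ρ p)) := fun p => by
    rw [← map_smul, ← (hc p).2, ← isom_mul_apply]; congr 2; group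
  rw [e3, e3] at ht'
  replace ht' := ht'.smul (h.on.norm_of_apply (hc _).2) (h.on.norm_of_apply (hc _).2)
  replace hkl := ρ.injective.ne hkl
  generalize ρ k = k at ht' hkl
  generalize ρ l = l at ht' hkl
  have hr0 : r ∉ monG B e := fun hr0 => hs0 (by
    obtain ⟨t, -, ht0⟩ := h.exists_isT hij
    rw [show s = r * t * r⁻¹ from isom_ext fun x => by rw [ht, ht0.conj r]]
    exact mul_mem (mul_mem hr0 (ht0.mem h.on hij)) (inv_mem hr0))
  have hR := h.on.map r
  refine ⟨1, odd_one, ?_⟩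
  rw [pow_one]
  have key : ∀ {i j k l : ι}, i ≠ j → k ≠ l →
      IsT s ((r : V ≃ₗ[F] V) (e i)) ((r : V ≃ₗ[F] V) (e j)) →
      IsT s' ((r : V ≃ₗ[F] V) (e k)) ((r : V ≃ₗ[F] V) (e l)) → i = k → s' * s ∈ scal B := by
    rintro i j _ l hij hkl ht ht' rfl
    by_cases hjl : j = l
    · subst hjl
      rw [show s' = s from isom_ext fun x => (ht' x).trans (ht x).symm, ht.mul_self hR hij]
      exact one_mem _
    · refine absurd (h.lemU hr hjl (fun x => ?_) hm) hr0
      rw [isom_mul_apply, ht, ht']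
      simp only [map_sub, map_smul, hR.self, hR.ne _ _ hij, hR.ne _ _ hkl.symm,
        hR.ne _ _ (Ne.symm hjl), smul_eq_mul]
      module
  by_cases h1 : i = k
  · exact key hij hkl ht ht' h1
  by_cases h2 : i = l
  · exact key hij hkl.symm ht ht'.symm h2
  by_cases h3 : j = k
  · exact key hij.symm hkl ht.symm ht' h3
  by_cases h4 : j = l
  · exact key hij.symm hkl.symm ht.symm ht'.symm h4
  have hall := mem_of_nodup [i, j, k, l] (by simp; grind) (by simp [h.card])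
  refine ⟨-1, by simp, fun x => ?_⟩
  rw [← hR.sum x]
  simp only [map_sum, map_smul, Finset.smul_sum]
  refine Finset.sum_congr rfl fun a _ => ?_
  rw [isom_mul_apply, ht.apply hR hij, map_smul, ht'.apply hR hkl]
  have := hall a
  simp only [List.mem_cons, List.not_mem_nil, or_false] at this
  split_ifs <;> first | module | grind

theorem ne_smul (h : CtxF e X) {g s : isomGroup B} (hg : g ∉ monG B e) (hs : Sw e X g s)
    {m p p' : ι} (hp : p ≠ p') (hm : p ≠ m) (hm' : p' ≠ m) {κ : F} (hκ : σ κ * κ = 1) :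
    B (e p') ((s : V ≃ₗ[F] V) (e m)) ≠ κ * B (e p) ((s : V ≃ₗ[F] V) (e m)) := by
  classical
  intro hf
  have := C6.eg_finite_linearEquiv (K := F) (V := V)
  have H := h.on.herm
  have h2 := h.two
  have hs0 : s ∉ monG B e := fun h' => hg (by simpa [mul_mem_cancel_right h'] using hs.2.1)
  obtain ⟨hsX, -, r, hr, i, j, hij, ht⟩ := hs
  have s2 := ht.mul_self (h.on.map r) hij
  obtain ⟨q, hq⟩ := FX.exists_ne_of_card [p, p', m] (by simp [h.card])
  simp only [List.mem_cons, List.not_mem_nil, or_false, not_or] at hq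
  have hall := mem_of_nodup [p, p', m, q] (by simp; grind) (by simp [h.card])
  simp only [List.mem_cons, List.not_mem_nil, or_false] at hall
  have hκ0 : κ ≠ 0 := right_ne_zero_of_mul_eq_one hκ
  have hu : B (e p - κ • e p') (e p - κ • e p') = 2 := by
    simp only [map_sub, map_smulₛₗ, LinearMap.sub_apply, LinearMap.smul_apply, h.on.self,
      h.on.ne _ _ hp, h.on.ne _ _ hp.symm, smul_eq_mul, RingHom.id_apply]
    linear_combination hκ
  have hu' : B (e p - κ • e p') (e p - κ • e p') ≠ 0 := by rwa [hu]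
  have e0 : ∀ x, (H.rf _ hu' : V ≃ₗ[F] V) x = x - B (e p - κ • e p') x • (e p - κ • e p') :=
    fun x => by rw [H.rf_apply, hu, mul_div_cancel_left₀ _ h2]
  have hd : ∀ d hd, (LinearEquiv.det (H.rf d hd : V ≃ₗ[F] V) : F) = -1 := fun d hd =>
    H.det_qrefl ..
  set t := H.rf _ hu' * H.rf _ (h.on.self_ne m) with htdef
  have e1 : ∀ x, (t : V ≃ₗ[F] V) x = x - B (e p - κ • e p') x • (e p - κ • e p') -
      (2 * B (e m) x) • e m := fun x => by
    rw [isom_mul_apply, e0, H.rf_apply, h.on.self, div_one]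
    simp only [map_sub, map_smulₛₗ, LinearMap.sub_apply, LinearMap.smul_apply, h.on.ne _ _ hm,
      h.on.ne _ _ hm', smul_eq_mul, RingHom.id_apply]
    module
  have tm : t ∈ monG B e := mul_mem (h.on.sw_mem hp hκ e0) (h.on.qrefl_mem m _ _)
  have tX : t ∈ X := h.mem _ tm (by
    rw [mem_sIsom', Subgroup.coe_mul, map_mul, Units.val_mul, hd, hd]; ring)
  have tp : (t : V ≃ₗ[F] V) (e p) = κ • e p' := by
    simp [e1, h.on.self, h.on.ne _ _ hp.symm, h.on.ne _ _ hm.symm]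
  have tp' : (t : V ≃ₗ[F] V) (e p') = σ κ • e p := by
    simp only [e1, map_sub, map_smulₛₗ, LinearMap.sub_apply, LinearMap.smul_apply, h.on.self,
      h.on.ne _ _ hp, h.on.ne _ _ hm'.symm, smul_eq_mul]
    match_scalars
    · linear_combination -hκ
    · ring
    · ring
  have tm' : (t : V ≃ₗ[F] V) (e m) = -e m := by
    simp only [e1, map_sub, map_smulₛₗ, LinearMap.sub_apply, LinearMap.smul_apply, h.on.self,
      h.on.ne _ _ hm, h.on.ne _ _ hm', smul_eq_mul]
    module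
  have tq : (t : V ≃ₗ[F] V) (e q) = e q := by
    simp [e1, h.on.ne _ _ (Ne.symm hq.1), h.on.ne _ _ (Ne.symm hq.2.1), h.on.ne _ _ (Ne.symm hq.2.2)]
  have t2 : t * t = 1 := h.on.isom_ext fun k => by
    rcases hall k with rfl | rfl | rfl | rfl <;>
      simp only [isom_mul_apply t t, tp, tp', tm', tq, map_smul, map_neg, smul_smul, hκ,
        mul_comm κ, one_smul, neg_neg] <;> rfl
  set f := (s : V ≃ₗ[F] V) (e m) with hfdef
  have sf : (s : V ≃ₗ[F] V) f = e m := by rw [hfdef, ← isom_mul_apply, s2]; rfl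
  have tf : (t : V ≃ₗ[F] V) f = f - (2 * B (e m) f) • e m := by
    rw [e1]
    simp only [map_sub, map_smulₛₗ, LinearMap.sub_apply, LinearMap.smul_apply, smul_eq_mul, hf]
    rw [← mul_assoc, hκ, one_mul, sub_self, zero_smul, sub_zero]
  have hX : ∀ j : ℕ, (s * t) ^ j ∈ X := fun j => pow_mem (mul_mem hsX tX) j
  rcases dih_mod (scal B) s2 t2 with ⟨-, n, hn⟩ | ⟨n, h1, h3⟩
  · set y := (s * t) ^ n * s * ((s * t) ^ n)⁻¹ with hy
    have yX : y ∈ X := mul_mem (mul_mem (hX n) hsX) (inv_mem (hX n))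
    have h4 := h.diag_of_mem (mul_mem yX hr) hij (ht.conj y) (by
      simpa using mul_mem (h.on.scal_le hn) tm)
    obtain ⟨c, -, hc⟩ := (act_of_scal (inv_mem hn)).mul h4 p
    rw [show (y * s * y⁻¹ * t⁻¹)⁻¹ * (y * s * y⁻¹) = t by group, tp] at hc
    simpa [h.on.self, h.on.ne _ _ hp.symm, hκ0] using congrArg (B (e p')) hc
  have c1 := dih_comm_left s2 t2 n
  have c2 := dih_comm_right s2 t2 n
  have hP : ∀ n : ℕ, ∀ x ∈ spanL F [e m, f],
      (((s * t) ^ n : isomGroup B) : V ≃ₗ[F] V) x ∈ spanL F [e m, f] := fun n => by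
    induction n with
    | zero => exact fun x hx => hx
    | succ n ih =>
      intro x hx
      rw [pow_succ, isom_mul_apply]
      refine ih _ ?_
      obtain ⟨a, b, rfl⟩ := mem_spanL_pair.1 hx
      refine mem_spanL_pair.2 ⟨b, -a - b * (2 * B (e m) f), ?_⟩
      simp only [isom_mul_apply s t, map_add, map_smul, tm', tf, map_neg, map_sub, sf, ← hfdef]
      module
  obtain ⟨α, β, hw⟩ := mem_spanL_pair.1 (hP n _ (mem_spanL_of_mem (y := e m) (by simp)))
  have wX := hX n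
  obtain ⟨c, hc0, hc⟩ := h3
  generalize (s * t) ^ n = w at *
  replace c1 : ∀ x, (w : V ≃ₗ[F] V) ((s : V ≃ₗ[F] V) x) =
      c • (s : V ≃ₗ[F] V) ((w : V ≃ₗ[F] V) x) := fun x => by
    rw [← isom_mul_apply, c1, isom_mul_apply, hc]; rfl
  replace c2 : ∀ x, (w : V ≃ₗ[F] V) ((t : V ≃ₗ[F] V) x) =
      c • (t : V ≃ₗ[F] V) ((w : V ≃ₗ[F] V) x) := fun x => by
    rw [← isom_mul_apply, c2, isom_mul_apply, hc]; rfl
  have nz := h.nz hsX hs0
  have hβ : β = 0 := by
    by_contra hβ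
    have k1 := c2 (e m)
    rw [tm', map_neg, ← hw] at k1
    have k2 := congrArg (B (e q)) k1
    have k3 := congrArg (B (e m)) k1
    simp only [map_neg, map_add, map_smul, map_sub, tm', tf, h.on.self, h.on.ne _ _ hq.2.2,
      smul_eq_mul] at k2 k3
    have k4 : c = -1 := mul_right_cancel₀ (mul_ne_zero hβ (nz q m)) (by linear_combination -k2)
    refine h.nz wX (h.on.not_mem_monG (i := m) hp ?_ ?_) m m ?_
    · simpa [← hw, h.on.ne _ _ hm, hβ] using nz p m
    · simpa [← hw, h.on.ne _ _ hm', hβ] using nz p' m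
    · rw [← hw, map_add, map_smul, map_smul, h.on.self, smul_eq_mul, smul_eq_mul]
      exact mul_left_cancel₀ h2 (by rw [k4] at k3; linear_combination -k3)
  rw [hβ, zero_smul, add_zero] at hw
  have hα : σ α * α = 1 := h.on.norm_of_apply hw.symm
  have wf : (w : V ≃ₗ[F] V) f = (c * α) • f := by rw [hfdef, c1, ← hw, map_smul, smul_smul]
  have hc1 : c = 1 := by
    have := isom_apply w (e m) f
    rw [wf, ← hw] at this
    simp only [map_smulₛₗ, LinearMap.smul_apply, smul_eq_mul, RingHom.id_apply] at this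
    exact mul_right_cancel₀ (nz m m) (by linear_combination this - c * B (e m) f * hα)
  subst hc1
  obtain ⟨ρ, hρ⟩ := h.on.exists_act (h.ctx w wX m m α hw.symm)
  have fx : ∀ k l, ρ k = l ↔ B (e l) ((w : V ≃ₗ[F] V) (e k)) ≠ 0 := fun k l => by
    obtain ⟨d, hd0, hd⟩ := hρ k
    simp [hd, h.on.apply, hd0, eq_comm]
  have r1 : ρ m = m := (fx _ _).2 (by simpa [← hw, h.on.self] using right_ne_zero_of_mul_eq_one hα)
  have r2 : ρ q = q := by
    obtain ⟨d, hd0, hd⟩ := hρ q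
    have k1 := c2 (e q)
    rw [tq, one_smul, hd, map_smul] at k1
    replace k1 := congrArg (B (e (ρ q))) (smul_right_injective V hd0 k1)
    rcases hall (ρ q) with k | k | k | k
    · simp [k, tp, h.on.self, h.on.ne _ _ hp] at k1
    · simp [k, tp', h.on.self, h.on.ne _ _ hp.symm] at k1
    · exact absurd (ρ.injective (k.trans r1.symm)) hq.2.2
    · exact k
  by_cases r3 : ρ p = p
  · refine h1 (h.scal_of_diag hsX hs0 (by
      convert hρ
      ext k
      have := hall (ρ p')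
      have := ρ.injective.ne hp
      have := ρ.injective.ne hm'
      have := ρ.injective.ne hq.2.1
      rcases hall k with rfl | rfl | rfl | rfl <;> simp [r1, r2, r3] <;> grind) wf)
  have r4 : ρ p = p' ∧ ρ p' = p := by
    have := hall (ρ p)
    have := hall (ρ p')
    have := ρ.injective.ne hp
    have := ρ.injective.ne hm
    have := ρ.injective.ne hm'
    have := ρ.injective.ne hq.1
    have := ρ.injective.ne hq.2.1
    grind
  have a1 : Act e (H.rf _ hu') ρ := fun k => by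
    rcases hall k with rfl | rfl | rfl | rfl
    · exact ⟨κ, hκ0, by simp [r4, e0, h.on.self, h.on.ne _ _ hp.symm]⟩
    · refine ⟨σ κ, by simpa using hκ0, ?_⟩
      simp only [r4, e0, map_sub, map_smulₛₗ, LinearMap.sub_apply, LinearMap.smul_apply, h.on.self,
        h.on.ne _ _ hp, smul_eq_mul]
      match_scalars
      · linear_combination -hκ
      · ring
    · exact ⟨1, one_ne_zero, by simp [r1, e0, h.on.ne _ _ hm, h.on.ne _ _ hm']⟩
    · exact ⟨1, one_ne_zero, by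
        simp [r2, e0, h.on.ne _ _ (Ne.symm hq.1), h.on.ne _ _ (Ne.symm hq.2.1)]⟩
  have a2 := hρ.inv.mul a1
  rw [inv_mul_cancel] at a2
  have rf : (H.rf _ hu' : V ≃ₗ[F] V) f = f := by
    rw [e0]
    simp only [map_sub, map_smulₛₗ, LinearMap.sub_apply, LinearMap.smul_apply, smul_eq_mul, hf]
    rw [← mul_assoc, hκ, one_mul, sub_self, zero_smul, sub_zero]
  have hα0 : α ≠ 0 := right_ne_zero_of_mul_eq_one hα
  obtain ⟨d, -, hd'⟩ := h.scal_of_diag hsX hs0 a2 (j := m) (c := α⁻¹) (by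
    rw [← hfdef, isom_mul_apply, rf, ← smul_right_inj hα0, smul_smul, mul_inv_cancel₀ hα0,
      one_smul, ← map_smul, ← one_mul α, ← wf, isom_inv_apply])
  have k1 := det_of_forall_eq_smul hd'
  rw [Subgroup.coe_mul, map_mul, Units.val_mul, hd, mem_sIsom'.1 (h.le (inv_mem wX)),
    h.on.finrank_eq, h.card] at k1
  have k2 : α * α = 1 := by
    simpa [← hw, smul_smul, h.on.self] using congrArg (B (e m)) (hc (e m))
  have k3 : d * α = 1 := by
    have := congrArg (w : V ≃ₗ[F] V) (hd' (e m))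
    rw [isom_mul_apply, isom_apply_inv, map_smul, ← hw, smul_smul] at this
    simpa [e0, h.on.self, h.on.ne _ _ hm, h.on.ne _ _ hm'] using (congrArg (B (e m)) this).symm
  exact h2 (by linear_combination -k1 + (d ^ 4 * (α * α + 1)) * k2 -
    (d * α + 1) * (d * d * α * α + 1) * k3)

theorem mem_monG (h : CtxF e X) {g : isomGroup B} (hg : g ∈ X) : g ∈ monG B e := by
  classical
  by_contra hg'
  have hn := h.card
  obtain ⟨f⟩ : Nonempty (Fin 3 ↪ ι) := Function.Embedding.nonempty_of_card_le (by simp; omega)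
  have hf : ∀ {i j}, i ≠ j → f i ≠ f j := fun hij => f.injective.ne hij
  have h01 : f 0 ≠ f 1 := hf (by decide)
  have h02 : f 0 ≠ f 2 := hf (by decide)
  obtain ⟨b, hbX, hb⟩ := (h.map hg).exists_isT h01
  obtain ⟨a, s, ha, hS, hss, h2⟩ := h.exists_swap hg hg' h01 hb hbX h01
  obtain ⟨a', s', ha', hS', hss', h2'⟩ := h.exists_swap hg hg' h01 hb hbX h02
  have hm : s' * s ∈ monG B e := by
    convert mul_mem (inv_mem hS'.2.1) hS.2.1 using 1
    rw [mul_inv_rev, inv_eq_of_mul_eq_one_right hss']; group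
  obtain ⟨N, hN, h3⟩ := h.exists_odd hg' hS hS' hm
  obtain ⟨π, hπ⟩ := h.on.exists_act hm
  have h4 : π ^ N = 1 := (hπ.pow N).unique h.on (act_of_scal h3)
  obtain ⟨p, hp⟩ : ∃ p, π p ≠ p := by
    by_contra! hc
    obtain ⟨c, -, hc'⟩ := (scal_normal B).conj_mem _ (mul_mem h2 (inv_mem h2')) s'
    have e1 : ∀ x, ((s' * s * a : isomGroup B) : V ≃ₗ[F] V) x =
        c • ((a' * (s' * s) : isomGroup B) : V ≃ₗ[F] V) x := fun x => by
      rw [← hc', ← isom_mul_apply]
      congr 2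
      symm
      calc _ = s' * s * a * (s * (s'⁻¹ * (a'⁻¹ * (s' * s')⁻¹ * a') * s') * s) := by group
        _ = _ := by rw [hss']; simp [hss]
    obtain ⟨c₀, k0, k1⟩ := hπ (f 0)
    obtain ⟨c₁, k2, k3⟩ := hπ (f 1)
    have e2 := congrArg (B (e (f 0))) (e1 (e (f 0)))
    have e3 := congrArg (B (e (f 1))) (e1 (e (f 1)))
    simp only [isom_mul_apply _ a, isom_mul_apply a', ha.apply h.on h01, ha'.apply h.on h02, k1, k3,
      hc, map_smul, true_or, or_true, if_true, h01.symm, hf (show 1 ≠ 2 by decide), or_self,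
      if_false, h.on.self, smul_eq_mul] at e2 e3
    have e4 : c = 1 := mul_right_cancel₀ k0 (by linear_combination e2)
    exact mul_ne_zero h.two k2 (by rw [e4] at e3; linear_combination -e3)
  have n2 : π (π p) ≠ p := fun e => hp (perm_fix_of_odd (j := 1) hN h4 e)
  have n4 : π (π (π (π p))) ≠ p := fun e => hp (perm_fix_of_odd (j := 2) hN h4 e)
  obtain ⟨m, hm'⟩ := FX.exists_ne_of_card [p, π p, π (π p)] (by simp [hn])
  simp only [List.mem_cons, List.not_mem_nil, or_false, not_or] at hm'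
  have hall := mem_of_nodup [p, π p, π (π p), m] (by
    simp [hp.symm, n2.symm, Ne.symm hm'.1, Ne.symm hm'.2.1, Ne.symm hm'.2.2]) (by simp [hn])
  simp only [List.mem_cons, List.not_mem_nil, or_false] at hall
  have hπm : π m = m := by
    have u1 := hall (π m)
    have u2 := hall (π (π (π p)))
    have := π.injective
    clear * - u1 u2 hp n2 n4 hm' this
    grind
  obtain ⟨y, hy0, hy⟩ := hπ m
  obtain ⟨c, hc0, hc⟩ := hπ p
  rw [hπm] at hy
  have n5 := h.on.norm_of_apply hy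
  have n6 := h.on.norm_of_apply hc
  refine h.ne_smul hg' hS (m := m) hp.symm (Ne.symm hm'.1) (Ne.symm hm'.2.1) (κ := y * c)
    (by rw [map_mul]; linear_combination σ c * c * n5 + n6) ?_
  have e1 : (s' : V ≃ₗ[F] V) (e m) = y⁻¹ • (s : V ≃ₗ[F] V) (e m) := by
    have := congrArg (s' : V ≃ₗ[F] V) hy
    rw [← isom_mul_apply, ← mul_assoc, hss', one_mul, map_smul] at this
    rw [this, smul_smul, inv_mul_cancel₀ hy0, one_smul]
  have e2 := isom_apply (s' * s) (e p) ((s : V ≃ₗ[F] V) (e m))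
  rw [hc, isom_mul_apply, ← isom_mul_apply s s, hss] at e2
  simp only [OneMemClass.coe_one, LinearEquiv.coe_one, id, e1, map_smulₛₗ, LinearMap.smul_apply,
    smul_eq_mul, RingHom.id_apply] at e2
  rw [← e2]
  field_simp
  linear_combination -B (e (π p)) ((s : V ≃ₗ[F] V) (e m)) * n6

end CtxF

theorem ON.maxS_four [Finite F] (h : ON B e) (hn : Fintype.card ι = 4)
    (hq : (2 : F) = 0 ∨ ∃ l : F, σ l * l = 1 ∧ l ^ 4 ≠ 1) : MaxS B (monG B e) := by
  refine h.maxS_of hn.ge fun X hX g hg => ?_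
  by_cases h2 : (2 : F) = 0
  · exact hX.mem_monG_four_even h2 hn hg
  · exact CtxF.mem_monG ⟨hX, h2, hn, hq.resolve_left h2⟩ hg

end Cfsg.Lib.Class.Form
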