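import Cfsg.Agent.Class.SU.FrameC

/-! Overgroups of frame stabilisers in `SU(V)`: odd characteristic. -/

namespace Cfsg.Lib.Class.Form
open Module

variable {F V : Type*} [Field F] [AddCommGroup V] [Module F V] {σ : F →+* F}
  {B : V →ₛₗ[σ] V →ₗ[F] F} {ι : Type*} [Fintype ι] {e : ι → V} {X : Subgroup (isomGroup B)}

/-- `t` is `-1` on `⟨u, v⟩` and `1` on its complement. -/
def IsT (t : isomGroup B) (u v : V) : Prop :=
  ∀ x, (t : V ≃ₗ[F] V) x = x - (2 * B u x) • u - (2 * B v x) • v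

theorem IsT.conj {t : isomGroup B} {u v : V} (h : IsT t u v) (g : isomGroup B) :
    IsT (g * t * g⁻¹) ((g : V ≃ₗ[F] V) u) ((g : V ≃ₗ[F] V) v) := fun x => by
  rw [isom_mul_apply, isom_mul_apply, h]
  simp only [map_sub, map_smul, isom_apply_inv, isom_apply_left]

theorem IsT.smul {t : isomGroup B} {u v : V} {a b : F} (h : IsT t (a • u) (b • v))
    (ha : σ a * a = 1) (hb : σ b * b = 1) : IsT t u v := fun x => by
  rw [h]
  simp only [map_smulₛₗ, LinearMap.smul_apply, smul_eq_mul]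
  match_scalars
  · rfl
  · linear_combination (-2 * B u x) * ha
  · linear_combination (-2 * B v x) * hb

theorem IsT.apply (h : ON B e) {t : isomGroup B} {i j : ι} (hij : i ≠ j) (ht : IsT t (e i) (e j))
    [DecidableEq ι] (p : ι) :
    (t : V ≃ₗ[F] V) (e p) = (if p = i ∨ p = j then -1 else 1 : F) • e p := by
  rw [ht]
  by_cases hi : p = i
  · simp only [hi, h.self, h.ne _ _ hij.symm, true_or, if_true]; module
  by_cases hj : p = j
  · simp only [hj, h.self, h.ne _ _ hij, or_true, if_true]; module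
  · simp [hi, hj, h.ne _ _ (Ne.symm hi), h.ne _ _ (Ne.symm hj)]

theorem IsT.mul_self (h : ON B e) {t : isomGroup B} {i j : ι} (hij : i ≠ j)
    (ht : IsT t (e i) (e j)) : t * t = 1 := by
  classical
  refine h.isom_ext fun p => ?_
  rw [isom_mul_apply, ht.apply h hij, map_smul, ht.apply h hij]
  split_ifs <;> simp

theorem IsT.commute (h : ON B e) {t t' : isomGroup B} {i j k l : ι} (hij : i ≠ j) (hkl : k ≠ l)
    (ht : IsT t (e i) (e j)) (ht' : IsT t' (e k) (e l)) : t * t' = t' * t := by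
  classical
  refine h.isom_ext fun p => ?_
  simp only [isom_mul_apply, ht.apply h hij, ht'.apply h hkl, map_smul, smul_smul, mul_comm]

theorem ON.norm_of_apply (h : ON B e) {g : isomGroup B} {i j : ι} {c : F}
    (hc : (g : V ≃ₗ[F] V) (e i) = c • e j) : σ c * c = 1 := by
  have := isom_apply g (e i) (e i)
  simpa [hc, h.self, mul_comm] using this

variable [FiniteDimensional F V]

theorem IsT.mem (h : ON B e) {t : isomGroup B} {i j : ι} (hij : i ≠ j)
    (ht : IsT t (e i) (e j)) : t ∈ monG B e := by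
  classical
  exact h.mem_monG.2 fun p => ⟨p, _, ht.apply h hij p⟩

theorem FX.exists_isT (h : FX e X) {i j : ι} (hij : i ≠ j) : ∃ t ∈ X, IsT t (e i) (e j) := by
  obtain ⟨d, hd, e1⟩ := h.exists_dg hij (μ := -1) (by simp)
  exact ⟨d, hd, fun x => by rw [e1, map_neg, map_one]; module⟩

/-- The data for odd characteristic. -/
structure CtxO (e : ι → V) (X : Subgroup (isomGroup B)) : Prop extends Ctx e X where
  two : (2 : F) ≠ 0
  big : 6 ≤ Fintype.card ι

namespace CtxO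

theorem map (h : CtxO e X) {g : isomGroup B} (hg : g ∈ X) :
    CtxO (fun i => (g : V ≃ₗ[F] V) (e i)) X := ⟨h.toCtx.map hg, h.two, h.big⟩

omit [FiniteDimensional F V] in
theorem hq (h : CtxO e X) : ∃ l : F, σ l = l ∧ l ≠ 0 ∧ l ≠ 1 :=
  ⟨-1, by simp, by simp, fun e => h.two (by linear_combination -e)⟩

theorem lemU (h : CtxO e X) {g t : isomGroup B} (hg : g ∈ X) {i j : ι} (hij : i ≠ j)
    (ht : IsT t ((g : V ≃ₗ[F] V) (e i)) ((g : V ≃ₗ[F] V) (e j))) (ht' : t ∈ monG B e) :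
    g ∈ monG B e := by
  by_contra hg'
  have hn := h.big
  have hf := h.on.map g
  have htt := ht.mul_self hf hij
  obtain ⟨π, c, hc⟩ := h.on.exists_perm ht'
  have h1 : ∀ k, π k ≠ k := fun k hk => by
    have e1 := (hc k).2
    rw [hk, ht] at e1
    have e2 : ∀ m, B ((g : V ≃ₗ[F] V) (e m)) (e k - (2 * B ((g : V ≃ₗ[F] V) (e i)) (e k)) •
        (g : V ≃ₗ[F] V) (e i) - (2 * B ((g : V ≃ₗ[F] V) (e j)) (e k)) • (g : V ≃ₗ[F] V) (e j)) =
        c k * B ((g : V ≃ₗ[F] V) (e m)) (e k) := fun m => by rw [e1, map_smul, smul_eq_mul]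
    simp only [map_sub, map_smul, isom_apply, smul_eq_mul] at e2
    by_cases hc1 : c k = 1
    · have e3 := e2 i
      have e4 := e2 j
      rw [hc1, h.on.self, h.on.ne _ _ hij] at e3
      rw [hc1, h.on.self, h.on.ne _ _ hij.symm] at e4
      exact h.two_zero' h.hq (by omega) hg hg' hij (j := k)
        (mul_left_cancel₀ h.two (by linear_combination -e3))
        (mul_left_cancel₀ h.two (by linear_combination -e4))
    · obtain ⟨a, ha⟩ := FX.exists_ne_of_card [i, j] (by simp; omega)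
      obtain ⟨b, hb⟩ := FX.exists_ne_of_card [i, j, a] (by simp; omega)
      simp only [List.mem_cons, List.not_mem_nil, or_false, not_or] at ha hb
      have e3 := e2 a
      have e4 := e2 b
      rw [h.on.ne _ _ ha.1, h.on.ne _ _ ha.2] at e3
      rw [h.on.ne _ _ hb.1, h.on.ne _ _ hb.2.1] at e4
      exact h.two_zero' h.hq (by omega) hg hg' hb.2.2 (j := k)
        (mul_left_cancel₀ (sub_ne_zero.2 hc1) (by linear_combination -e4))
        (mul_left_cancel₀ (sub_ne_zero.2 hc1) (by linear_combination -e3))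
  have h2 : ∀ k, π (π k) = k := fun k => by
    by_contra hk
    have := congrArg (fun x : isomGroup B => B (e k) ((x : V ≃ₗ[F] V) (e k))) htt
    simp [(hc _).2, h.on.self, h.on.ne _ _ (Ne.symm hk)] at this
  obtain ⟨b, hb⟩ := FX.exists_ne_of_card [i, π i] (by simp; omega)
  obtain ⟨a, ha⟩ := FX.exists_ne_of_card [i, π i, b, π b] (by simp; omega)
  simp only [List.mem_cons, List.not_mem_nil, or_false, not_or] at ha hb
  have e1 : ∀ k m, B (e m) (c k • e (π k) - e k) =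
      -(2 * B ((g : V ≃ₗ[F] V) (e i)) (e k)) * B (e m) ((g : V ≃ₗ[F] V) (e i)) +
        -(2 * B ((g : V ≃ₗ[F] V) (e j)) (e k)) * B (e m) ((g : V ≃ₗ[F] V) (e j)) := fun k m => by
    rw [← (hc k).2, ht]; simp only [map_sub, map_smul, smul_eq_mul]; ring
  have hbi : i ≠ π b := fun e => hb.2 (by rw [e, h2])
  obtain ⟨e2, e3⟩ := det_two_kill (p := B (e a) ((g : V ≃ₗ[F] V) (e i)))
    (q := B (e a) ((g : V ≃ₗ[F] V) (e j)))
    ((e1 i i).symm.trans (by simp [h.on.self, h.on.ne _ _ (h1 i).symm]))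
    ((e1 b i).symm.trans (by simp [h.on.ne _ _ hbi, h.on.ne _ _ (Ne.symm hb.1)]))
    ((e1 b b).symm.trans (by simp [h.on.self, h.on.ne _ _ (h1 b).symm]))
    ((e1 i a).symm.trans (by simp [h.on.ne _ _ ha.1, h.on.ne _ _ ha.2.1]))
    ((e1 b a).symm.trans (by simp [h.on.ne _ _ ha.2.2.1, h.on.ne _ _ ha.2.2.2]))
  exact h.two_zero' h.hq (by omega) hg hg' hij (h.on.herm.comm e2) (h.on.herm.comm e3)

theorem exists_isT_of_mem (h : CtxO e X) {g t : isomGroup B} (hg : g ∈ X) {i j : ι} (hij : i ≠ j)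
    (ht : IsT t ((g : V ≃ₗ[F] V) (e i)) ((g : V ≃ₗ[F] V) (e j))) (ht' : t ∈ monG B e) :
    ∃ k l, k ≠ l ∧ IsT t (e k) (e l) := by
  obtain ⟨π, c, hc⟩ := h.on.exists_perm (h.lemU hg hij ht ht')
  rw [(hc i).2, (hc j).2] at ht
  exact ⟨_, _, π.injective.ne hij,
    ht.smul (h.on.norm_of_apply (hc i).2) (h.on.norm_of_apply (hc j).2)⟩

theorem lemZ (h : CtxO e X) {g t t' : isomGroup B} (hg : g ∈ X) (hg' : g ∉ monG B e)
    {i j k l m : ι} (hij : i ≠ j) (hkl : k ≠ l) (ht : IsT t (e i) (e j)) (ht' : IsT t' (e k) (e l))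
    {c : F} (hc : ((t * t' : isomGroup B) : V ≃ₗ[F] V) ((g : V ≃ₗ[F] V) (e m)) =
      c • (g : V ≃ₗ[F] V) (e m)) : t = t' := by
  classical
  have hn := h.big
  have e1 : ∀ p, (if p = i ∨ p = j then -1 else 1 : F) * (if p = k ∨ p = l then -1 else 1 : F) *
      B (e p) ((g : V ≃ₗ[F] V) (e m)) = c * B (e p) ((g : V ≃ₗ[F] V) (e m)) := fun p => by
    rw [← smul_eq_mul c, ← map_smul, ← hc, ← isom_apply (t * t'), isom_mul_apply,
      ht'.apply h.on hkl, map_smul, ht.apply h.on hij]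
    split_ifs <;> simp
  have key : ∀ p p', p ≠ p' → ∀ s : F,
      (if p = i ∨ p = j then -1 else 1 : F) * (if p = k ∨ p = l then -1 else 1 : F) = s →
      (if p' = i ∨ p' = j then -1 else 1 : F) * (if p' = k ∨ p' = l then -1 else 1 : F) = s →
      c = s := fun p p' hp s h1 h2 => by
    by_contra hs
    have e2 := e1 p
    have e3 := e1 p'
    rw [h1] at e2
    rw [h2] at e3
    exact h.two_zero h.hq (by omega) hg hg' hp (j := m)
      (mul_left_cancel₀ (sub_ne_zero.2 hs) (by linear_combination -e2))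
      (mul_left_cancel₀ (sub_ne_zero.2 hs) (by linear_combination -e3))
  obtain ⟨a, ha⟩ := FX.exists_ne_of_card [i, j, k, l] (by simp; omega)
  obtain ⟨b, hb⟩ := FX.exists_ne_of_card [i, j, k, l, a] (by simp; omega)
  simp only [List.mem_cons, List.not_mem_nil, or_false, not_or] at ha hb
  have hc1 : c = 1 := key b a hb.2.2.2.2 1 (by simp [hb]) (by simp [ha])
  have h3 : ∀ p p', (p = i ∨ p = j) → ¬ (p = k ∨ p = l) → ¬ (p' = i ∨ p' = j) →
      (p' = k ∨ p' = l) → False := fun p p' h1 h2 h3 h4 =>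
    h.two (by
      have := key p p' (by rintro rfl; exact h2 h4) (-1) (by simp [h1, h2]) (by simp [h3, h4])
      linear_combination this - hc1)
  refine h.on.isom_ext fun p => ?_
  rw [ht.apply h.on hij, ht'.apply h.on hkl]
  have : (p = i ∨ p = j) ↔ (p = k ∨ p = l) := by
    have := h3 i k
    have := h3 i l
    have := h3 j k
    have := h3 j l
    grind
  simp only [this]

variable [Finite F]

theorem lemO (h : CtxO e X) {g a b : isomGroup B} (hg : g ∈ X) (hg' : g ∉ monG B e)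
    {i j k l : ι} (hij : i ≠ j) (hkl : k ≠ l) (ha : IsT a (e i) (e j)) (haX : a ∈ X)
    (hb : IsT b ((g : V ≃ₗ[F] V) (e k)) ((g : V ≃ₗ[F] V) (e l))) (hbX : b ∈ X) :
    Odd (orderOf (a * b)) := by
  classical
  have := C6.eg_finite_linearEquiv (K := F) (V := V)
  by_contra hev
  have h' := h.map hg
  obtain ⟨w, hw1, -, hwa, hwb, hw⟩ := C6.dih_even (G := X) (s := ⟨a, haX⟩) (u := ⟨b, hbX⟩)
    (Subtype.ext (ha.mul_self h.on hij)) (Subtype.ext (hb.mul_self h'.on hkl))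
    (by rw [← Subgroup.orderOf_coe]; exact Nat.not_odd_iff_even.1 hev)
  have c1 : (w : isomGroup B) * a * (w : isomGroup B)⁻¹ = a :=
    mul_inv_eq_iff_eq_mul.2 (congrArg Subtype.val hwa)
  have c2 : (w : isomGroup B) * b * (w : isomGroup B)⁻¹ = b :=
    mul_inv_eq_iff_eq_mul.2 (congrArg Subtype.val hwb)
  have m1 := h.lemU w.2 hij (c1 ▸ ha.conj w) (ha.mem h.on hij)
  have m2 := h'.lemU w.2 hkl (c2 ▸ hb.conj w) (hb.mem h'.on hkl)
  have d1 : ∀ x : X, ∀ y : isomGroup B, (x : isomGroup B) * a * (x : isomGroup B)⁻¹ = y →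
      (y ∈ monG B e → ∃ k l, k ≠ l ∧ IsT y (e k) (e l)) ∧
      (y ∈ monG B (fun i => (g : V ≃ₗ[F] V) (e i)) → ∃ k l, k ≠ l ∧
        IsT y ((g : V ≃ₗ[F] V) (e k)) ((g : V ≃ₗ[F] V) (e l))) := by
    rintro x _ rfl
    refine ⟨h.exists_isT_of_mem x.2 hij (ha.conj x),
      h'.exists_isT_of_mem (mul_mem x.2 (inv_mem hg)) hij ?_⟩
    simpa only [isom_mul_apply, isom_inv_apply] using ha.conj x
  have d2 : ∀ x : X, ∀ y : isomGroup B, (x : isomGroup B) * b * (x : isomGroup B)⁻¹ = y →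
      (y ∈ monG B e → ∃ k l, k ≠ l ∧ IsT y (e k) (e l)) ∧
      (y ∈ monG B (fun i => (g : V ≃ₗ[F] V) (e i)) → ∃ k l, k ≠ l ∧
        IsT y ((g : V ≃ₗ[F] V) (e k)) ((g : V ≃ₗ[F] V) (e l))) := by
    rintro x _ rfl
    exact ⟨h.exists_isT_of_mem (mul_mem x.2 hg) hkl (hb.conj x),
      h'.exists_isT_of_mem x.2 hkl (hb.conj x)⟩
  have m3 := mul_mem m1 (ha.mem h.on hij)
  have m4 := mul_mem m2 (hb.mem h'.on hkl)
  obtain ⟨⟨k', l', hkl', h1⟩, p, p', hp, h2⟩ : (∃ k l, k ≠ l ∧ IsT (w.1 * a) (e k) (e l)) ∧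
      ∃ k l, k ≠ l ∧ IsT (w.1 * b) ((g : V ≃ₗ[F] V) (e k)) ((g : V ≃ₗ[F] V) (e l)) := by
    rcases hw with ⟨⟨x, hx⟩, y, hy⟩ | ⟨⟨x, hx⟩, y, hy⟩
    · exact ⟨(d1 x _ (congrArg Subtype.val hx)).1 m3, (d2 y _ (congrArg Subtype.val hy)).2 m4⟩
    · exact ⟨(d2 x _ (congrArg Subtype.val hx)).1 m3, (d1 y _ (congrArg Subtype.val hy)).2 m4⟩
  have e1 : w.1 * a * a = w.1 * b * b := by
    rw [mul_assoc, mul_assoc, ha.mul_self h.on hij, hb.mul_self h'.on hkl]
  have := h.lemZ hg hg' hkl' hij h1 ha (m := i) (by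
    rw [e1, isom_mul_apply, hb.apply h'.on hkl, map_smul, h2.apply h'.on hp, smul_smul])
  exact hw1 (Subtype.ext (by simpa using this))

theorem exists_swap (h : CtxO e X) {g b : isomGroup B} (hg : g ∈ X) (hg' : g ∉ monG B e)
    {k l : ι} (hkl : k ≠ l) (hb : IsT b ((g : V ≃ₗ[F] V) (e k)) ((g : V ≃ₗ[F] V) (e l)))
    (hbX : b ∈ X) {i j : ι} (hij : i ≠ j) : ∃ a s r : isomGroup B, IsT a (e i) (e j) ∧ s ∈ X ∧
      r ∈ X ∧ IsT s ((r : V ≃ₗ[F] V) (e i)) ((r : V ≃ₗ[F] V) (e j)) ∧ s * s = 1 ∧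
      s * a * s = b ∧ g⁻¹ * s ∈ monG B e := by
  obtain ⟨a, haX, ha⟩ := h.exists_isT hij
  obtain ⟨m, hm⟩ := dih_odd_conj (ha.mul_self h.on hij) (hb.mul_self (h.on.map g) hkl)
    (h.lemO hg hg' hij hkl ha haX hb hbX)
  have hr := pow_mem (mul_mem haX hbX) m
  have hs := mul_mem (mul_mem hr haX) (inv_mem hr)
  have h1 := ha.conj ((a * b) ^ m)
  have h2 := h1.mul_self (h.on.map _) hij
  generalize (a * b) ^ m * a * ((a * b) ^ m)⁻¹ = s at *
  refine ⟨a, s, _, ha, hs, hr, h1, h2, by rw [← hm, inv_eq_of_mul_eq_one_right h2], ?_⟩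
  refine h.lemU (mul_mem (inv_mem hg) hs) hij (ha.conj _) ?_
  have := hb.conj g⁻¹
  rw [isom_inv_apply, isom_inv_apply, ← hm] at this
  convert this.mem h.on hkl using 1
  group

omit [Finite F] in
theorem fix_of_odd (h : CtxO e X) {i₁ i₂ i₃ i₄ : ι} (h12 : i₁ ≠ i₂) (h13 : i₁ ≠ i₃) (h14 : i₁ ≠ i₄)
    (h23 : i₂ ≠ i₃) (h24 : i₂ ≠ i₄) (h34 : i₃ ≠ i₄) {a a' k : isomGroup B}
    (ha : IsT a (e i₁) (e i₂)) (ha' : IsT a' (e i₃) (e i₄)) (hk : k * a = a' * k)
    (hk' : k ∈ monG B e) (hodd : Odd (orderOf k)) (hn : 7 ≤ Fintype.card ι) {Y : Submodule F V}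
    (hY : finrank F Y ≤ 4) (hkY : k ∈ mov B Y) : ∃ m, ∀ y ∈ Y, B (e m) y = 0 := by
  classical
  let Ψ : (Fin 4 → F) →ₗ[F] V := (((k : V ≃ₗ[F] V) : V →ₗ[F] V) - LinearMap.id) ∘ₗ
    Fintype.linearCombination F ![e i₁, e i₂, e i₃, e i₄]
  have hΨ : ∀ c, Ψ c = (k : V ≃ₗ[F] V) (c 0 • e i₁ + c 1 • e i₂ + (c 2 • e i₃ + c 3 • e i₄)) -
      (c 0 • e i₁ + c 1 • e i₂ + (c 2 • e i₃ + c 3 • e i₄)) := fun c => by
    simp [Ψ, Fintype.linearCombination_apply, Fin.sum_univ_four, add_assoc]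
  have hinj : Function.Injective Ψ := by
    rw [← LinearMap.ker_eq_bot, eq_bot_iff]
    intro c hc
    rw [LinearMap.mem_ker, hΨ, sub_eq_zero] at hc
    set v := c 0 • e i₁ + c 1 • e i₂ with hv
    set w := c 2 • e i₃ + c 3 • e i₄ with hw
    have e1 : (a : V ≃ₗ[F] V) (v + w) = w - v := by
      simp [hv, hw, ha.apply h.on h12, h13.symm, h14.symm, h23.symm, h24.symm]; module
    have e2 : (a' : V ≃ₗ[F] V) (v + w) = v - w := by
      simp [hv, hw, ha'.apply h.on h34, h13, h14, h23, h24]; module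
    have e3 := congrArg (fun x : isomGroup B => (x : V ≃ₗ[F] V) (v + w)) hk
    simp only [isom_mul_apply, e1, hc, e2, map_sub] at e3
    rw [map_add] at hc
    have e4 : (k : V ≃ₗ[F] V) w = v :=
      smul_right_injective V h.two (by beta_reduce; linear_combination (norm := module) hc + e3)
    have e5 : (k : V ≃ₗ[F] V) v = w :=
      smul_right_injective V h.two (by beta_reduce; linear_combination (norm := module) hc - e3)
    obtain ⟨j, hj⟩ := hodd
    have e6 : ∀ j : ℕ, ((k ^ (2 * j + 1) : isomGroup B) : V ≃ₗ[F] V) v = w := fun j => by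
      induction j with
      | zero => simpa using e5
      | succ j ih =>
        rw [show 2 * (j + 1) + 1 = 2 * j + 1 + 1 + 1 by ring, pow_succ, pow_succ, isom_mul_apply,
          isom_mul_apply, e5, e4, ih]
    have e7 : v = w := by simpa [← hj] using e6 j
    ext p
    fin_cases p
    · simpa [hv, hw, h.on.self, h.on.ne, h12, h13, h14] using congrArg (B (e i₁)) e7
    · simpa [hv, hw, h.on.self, h.on.ne, h12.symm, h23, h24] using congrArg (B (e i₂)) e7
    · simpa [hv, hw, h.on.self, h.on.ne, h13.symm, h23.symm, h34] using (congrArg (B (e i₃)) e7).symm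
    · simpa [hv, hw, h.on.self, h.on.ne, h14.symm, h24.symm, h34.symm] using
        (congrArg (B (e i₄)) e7).symm
  have hr : LinearMap.range Ψ = Y := Submodule.eq_of_le_of_finrank_le
    (by rintro _ ⟨c, rfl⟩; rw [hΨ]; exact hkY _)
    (by rw [LinearMap.finrank_range_of_inj hinj]; simpa using hY)
  obtain ⟨π, c, hc⟩ := h.on.exists_perm hk'
  have hπ : ∀ p, p = i₁ ∨ p = i₂ → π p = i₃ ∨ π p = i₄ := fun p hp => by
    by_contra hp'
    have := congrArg (fun x : isomGroup B => B (e (π p)) ((x : V ≃ₗ[F] V) (e p))) hk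
    simp only [isom_mul_apply, ha.apply h.on h12, hp, if_true, map_smul, (hc p).2,
      ha'.apply h.on h34, hp', if_false, h.on.self, smul_eq_mul] at this
    exact mul_ne_zero h.two (hc p).1 (by linear_combination -this)
  obtain ⟨m, hm⟩ := FX.exists_ne_of_card [i₁, i₂, i₃, i₄, π i₃, π i₄] (by simp; omega)
  simp only [List.mem_cons, List.not_mem_nil, or_false, not_or] at hm
  obtain ⟨m1, m2, m3, m4, m5, m6⟩ := hm
  have hkm : (k : V ≃ₗ[F] V) (e m) = e m := by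
    obtain ⟨d, hd⟩ := hr.ge (hkY (e m))
    rw [hΨ] at hd
    have e1 := congrArg (B (e m)) hd
    have n1 : m ≠ π i₁ := fun e => by rcases hπ i₁ (.inl rfl) with h | h <;> simp_all
    have n2 : m ≠ π i₂ := fun e => by rcases hπ i₂ (.inr rfl) with h | h <;> simp_all
    simp only [map_sub, map_add, map_smul, (hc _).2, h.on.ne _ _ m1, h.on.ne _ _ m2,
      h.on.ne _ _ m3, h.on.ne _ _ m4, h.on.ne _ _ m5, h.on.ne _ _ m6, h.on.ne _ _ n1,
      h.on.ne _ _ n2, h.on.self, smul_eq_mul] at e1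
    by_cases hm : m = π m
    · rw [← hm, h.on.self] at e1
      rw [(hc m).2, ← hm, show c m = 1 by linear_combination -e1, one_smul]
    · simp [h.on.ne _ _ hm] at e1
  refine ⟨m, fun y hy => ?_⟩
  obtain ⟨d, rfl⟩ := hr.ge hy
  rw [hΨ, map_sub]
  conv_lhs => enter [1]; rw [← hkm, isom_apply]
  exact sub_self _

theorem mem_monG (h : CtxO e X) (hn : 7 ≤ Fintype.card ι) {g : isomGroup B} (hg : g ∈ X) :
    g ∈ monG B e := by
  classical
  by_contra hg'
  obtain ⟨f⟩ : Nonempty (Fin 5 ↪ ι) := Function.Embedding.nonempty_of_card_le (by simp; omega)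
  have hf : ∀ {i j}, i ≠ j → f i ≠ f j := fun hij => f.injective.ne hij
  have h01 : f 0 ≠ f 1 := hf (by decide)
  obtain ⟨b, hbX, hb⟩ := (h.map hg).exists_isT h01
  obtain ⟨a, s, r, ha, hs, hr, h1, hss, h2, h3⟩ := h.exists_swap hg hg' h01 hb hbX h01
  have hs' : s ∉ monG B e := fun hs' => hg' (by simpa [mul_mem_cancel_right hs'] using h3)
  have key : ∀ j : Fin 5, j ≠ 0 → j ≠ 1 → j ≠ 2 → ∃ a' s', IsT a' (e (f 2)) (e (f j)) ∧
      s' * s' = 1 ∧ s' * a' * s' = b ∧ s' * s * a = a' * (s' * s) ∧ s' * s ∈ monG B e ∧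
      ∃ p p', p ≠ p' ∧ IsT s' ((r : V ≃ₗ[F] V) (e p)) ((r : V ≃ₗ[F] V) (e p')) := by
    intro j j0 j1 j2
    obtain ⟨a', s', r', ha', hs1, hr', h1', hss', h2', h3'⟩ :=
      h.exists_swap hg hg' h01 hb hbX (hf j2.symm)
    have e1 : s' * s * a = a' * (s' * s) := by
      calc s' * s * a = s' * (s * a * s) * s := by rw [mul_assoc _ _ s, mul_assoc _ s s, hss]; group
        _ = (s' * s') * a' * (s' * s) := by rw [h2, ← h2']; group
        _ = _ := by rw [hss', one_mul]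
    have e2 : s' * s ∈ monG B e := by
      convert mul_mem (inv_mem h3') h3 using 1
      rw [mul_inv_rev, inv_eq_of_mul_eq_one_right hss']; group
    refine ⟨a', s', ha', hss', h2', e1, e2, ?_⟩
    by_cases hrr : r'⁻¹ * r ∈ monG B e
    · obtain ⟨π, c, hc⟩ := h.on.exists_perm (inv_mem hrr)
      have e3 : ∀ p, (r' : V ≃ₗ[F] V) (e p) = c p • (r : V ≃ₗ[F] V) (e (π p)) := fun p => by
        rw [← map_smul, ← (hc p).2, ← isom_mul_apply]; congr 2; group
      rw [e3, e3] at h1'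
      exact ⟨_, _, π.injective.ne (hf j2.symm),
        h1'.smul (h.on.norm_of_apply (hc _).2) (h.on.norm_of_apply (hc _).2)⟩
    · exfalso
      have hodd := (h.map hr').lemO (g := r * r'⁻¹) (mul_mem hr (inv_mem hr'))
        (by rw [h.on.mem_monG_map]; convert hrr using 2; group) (hf j2.symm) h01 h1' hs1
        (by simpa only [isom_mul_apply, isom_inv_apply] using h1) hs
      set Y := spanL F [(r : V ≃ₗ[F] V) (e (f 0)), (r : V ≃ₗ[F] V) (e (f 1)),
        (r' : V ≃ₗ[F] V) (e (f 2)), (r' : V ≃ₗ[F] V) (e (f j))] with hY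
      have m1 : ∀ {t : isomGroup B} {u v}, IsT t u v → u ∈ Y → v ∈ Y → t ∈ mov B Y :=
        fun ht hu hv x => by
          rw [ht, sub_sub x, sub_sub_cancel_left]
          exact neg_mem (add_mem (Y.smul_mem _ hu) (Y.smul_mem _ hv))
      have m2 := m1 h1 (mem_spanL_of_mem (by simp)) (mem_spanL_of_mem (by simp))
      obtain ⟨m, hm⟩ := h.fix_of_odd h01 (hf (by decide)) (hf j0.symm) (hf (by decide))
        (hf j1.symm) (hf j2.symm) ha ha' e1 e2 hodd hn (finrank_spanL_le _)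
        (mul_mem (m1 h1' (mem_spanL_of_mem (by simp)) (mem_spanL_of_mem (by simp))) m2)
      refine hs' (h.of_fix hs (j := m) ?_)
      rw [h1, h.on.herm.comm (hm _ (mem_spanL_of_mem (by simp))),
        h.on.herm.comm (hm _ (mem_spanL_of_mem (by simp)))]
      simp
  obtain ⟨a₁, s₁, ha₁, q₁, b₁, c₁, m₁, p₁, p₁', hp₁, t₁⟩ := key 3 (by decide) (by decide) (by decide)
  obtain ⟨a₂, s₂, ha₂, q₂, b₂, c₂, m₂, p₂, p₂', hp₂, t₂⟩ := key 4 (by decide) (by decide) (by decide)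
  have hR := h.on.map r
  have k1 := t₁.commute hR hp₁ h01 h1
  have k2 := t₂.commute hR hp₂ h01 h1
  have k3 := t₁.commute hR hp₁ hp₂ t₂
  obtain ⟨π, c, hc⟩ := h.on.exists_perm m₁
  obtain ⟨ρ, d, hd⟩ := h.on.exists_perm m₂
  have l1 : ∀ {k a a' : isomGroup B} {π : Equiv.Perm ι} {c : ι → F} {i j i' j' : ι}, i ≠ j →
      i' ≠ j' → IsT a (e i) (e j) → IsT a' (e i') (e j') → k * a = a' * k →
      (∀ i, c i ≠ 0 ∧ (k : V ≃ₗ[F] V) (e i) = c i • e (π i)) →
      ∀ p, (p = i ∨ p = j) ↔ (π p = i' ∨ π p = j') := by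
    intro k a a' π c i j i' j' hij hij' ha ha' hk hc p
    have := congrArg (fun x : isomGroup B => B (e (π p)) ((x : V ≃ₗ[F] V) (e p))) hk
    simp only [isom_mul_apply, ha.apply h.on hij, map_smul, (hc p).2,
      ha'.apply h.on hij', h.on.self, smul_eq_mul] at this
    have h2 := mul_ne_zero h.two (hc p).1
    split_ifs at this with h3 h4 h4
    · tauto
    · exact absurd (by linear_combination -this) h2
    · exact absurd (by linear_combination this) h2
    · tauto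
  have l2 : ∀ {k k' l l' : isomGroup B} {π π' ρ ρ' : Equiv.Perm ι} {c c' d d' : ι → F},
      (∀ i, c i ≠ 0 ∧ (k : V ≃ₗ[F] V) (e i) = c i • e (π i)) →
      (∀ i, c' i ≠ 0 ∧ (k' : V ≃ₗ[F] V) (e i) = c' i • e (π' i)) →
      (∀ i, d i ≠ 0 ∧ (l : V ≃ₗ[F] V) (e i) = d i • e (ρ i)) →
      (∀ i, d' i ≠ 0 ∧ (l' : V ≃ₗ[F] V) (e i) = d' i • e (ρ' i)) → k * k' = l * l' →
      ∀ p, π (π' p) = ρ (ρ' p) := by
    intro k k' l l' π π' ρ ρ' c c' d d' h1 h2 h3 h4 hk p
    by_contra hp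
    have := congrArg (fun x : isomGroup B => B (e (π (π' p))) ((x : V ≃ₗ[F] V) (e p))) hk
    simp [(h1 _).2, (h2 _).2, (h3 _).2, (h4 _).2, h.on.self, h.on.ne _ _ hp, (h1 _).1,
      (h2 _).1] at this
  have h0 : ∀ i, (fun _ => (1 : F)) i ≠ 0 ∧ ((1 : isomGroup B) : V ≃ₗ[F] V) (e i) =
      (fun _ => (1 : F)) i • e ((1 : Equiv.Perm ι) i) := fun i => by simp
  have u1 : s₁ * s * (s₁ * s) = 1 * 1 := by
    rw [mul_assoc, ← mul_assoc s, ← k1, mul_assoc, hss, mul_one, q₁, mul_one]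
  have u2 : s₂ * s * (s₂ * s) = 1 * 1 := by
    rw [mul_assoc, ← mul_assoc s, ← k2, mul_assoc, hss, mul_one, q₂, mul_one]
  have u3 : s₁ * s * (s₂ * s) = s₁ * s₂ := by
    rw [mul_assoc, ← mul_assoc s, ← k2, mul_assoc, hss, mul_one]
  have u4 : s₂ * s * (s₁ * s) = s₁ * s₂ := by
    rw [mul_assoc, ← mul_assoc s, ← k1, mul_assoc, hss, mul_one, k3]
  have v1 := l2 hc hc h0 h0 u1
  have v2 := l2 hd hd h0 h0 u2
  have v3 := l2 hc hd hd hc (u3.trans u4.symm)
  have w1 := l1 h01 (hf (by decide)) ha ha₁ c₁ hc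
  have w2 := l1 h01 (hf (by decide)) ha ha₂ c₂ hd
  simp only [Equiv.Perm.one_apply] at v1 v2
  have x1 : ρ (π (f 2)) = f 2 := by
    have y1 := (w1 (π (f 2))).2 (by simp [v1])
    have y2 := (w2 (ρ (f 2))).2 (by simp [v2])
    have y3 := (w2 _).1 y1
    have y4 := (w1 (π (ρ (π (f 2))))).1 (by rwa [v3, v1])
    rw [v1] at y4
    have := hf (show (3 : Fin 5) ≠ 4 by decide)
    grind
  have hr' : r⁻¹ ∉ monG B fun i => (r : V ≃ₗ[F] V) (e i) := fun hr' => by
    rw [h.on.mem_monG_map, inv_mul_cancel_right, inv_mem_iff] at hr'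
    obtain ⟨t, -, ht⟩ := h.exists_isT h01
    have : s = r * t * r⁻¹ := isom_ext fun x => by rw [h1, ht.conj r]
    exact hs' (this ▸ mul_mem (mul_mem hr' (ht.mem h.on h01)) (inv_mem hr'))
  have := (h.map hr).lemZ (inv_mem hr) hr' hp₁ hp₂ t₁ t₂ (m := π (f 2))
    (c := d (π (f 2)) * c (f 2)) (by
      rw [isom_inv_apply, ← u3, isom_mul_apply, (hd _).2, x1, map_smul, (hc _).2, smul_smul])
  subst this
  have e1 : a₁ = a₂ := mul_left_cancel (mul_right_cancel (b₁.trans b₂.symm))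
  have e2 := ha₁.apply h.on (hf (by decide)) (f 3)
  rw [e1, ha₂.apply h.on (hf (by decide))] at e2
  have e3 := congrArg (B (e (f 3))) e2
  simp only [hf (show (3 : Fin 5) ≠ 2 by decide), hf (show (3 : Fin 5) ≠ 4 by decide), or_self,
    if_false, or_true, if_true, map_smul, h.on.self, smul_eq_mul] at e3
  exact h.two (by linear_combination e3)

end CtxO
end Cfsg.Lib.Class.Form
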