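import Cfsg.Agent.Class.SU.FrameEven

/-! Overgroups of frame stabilisers in `SU(V)`: dimension six. -/

namespace Cfsg.Lib.Class.Form
open Module

variable {F V : Type*} [Field F] [AddCommGroup V] [Module F V] {σ : F →+* F}
  {B : V →ₛₗ[σ] V →ₗ[F] F} {ι : Type*} [Fintype ι] {e : ι → V} {X : Subgroup (isomGroup B)}

theorem mem_of_nodup (l : List ι) (hl : l.Nodup) (h : Fintype.card ι ≤ l.length) (p : ι) :
    p ∈ l := by
  classical
  have := Finset.eq_univ_of_card l.toFinset (le_antisymm (Finset.card_le_univ _)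
    (by rwa [List.toFinset_card_of_nodup hl]))
  simpa using this.ge (Finset.mem_univ p)

/-- `k` permutes the frame points according to `π`. -/
def Act (e : ι → V) (k : isomGroup B) (π : Equiv.Perm ι) : Prop :=
  ∀ i, ∃ c : F, c ≠ 0 ∧ (k : V ≃ₗ[F] V) (e i) = c • e (π i)

omit [Fintype ι] in
theorem Act.mul {k k' : isomGroup B} {π π' : Equiv.Perm ι} (h : Act e k π) (h' : Act e k' π') :
    Act e (k * k') (π * π') := fun i => by
  obtain ⟨c', h1, h2⟩ := h' i
  obtain ⟨c, h3, h4⟩ := h (π' i)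
  exact ⟨c' * c, mul_ne_zero h1 h3, by rw [isom_mul_apply, h2, map_smul, h4, smul_smul]; rfl⟩

omit [Fintype ι] in
theorem Act.one : Act e (1 : isomGroup B) 1 := fun i => ⟨1, one_ne_zero, by simp⟩

omit [Fintype ι] in
theorem Act.pow {k : isomGroup B} {π : Equiv.Perm ι} (h : Act e k π) (n : ℕ) :
    Act e (k ^ n) (π ^ n) := by
  induction n with
  | zero => simpa using Act.one
  | succ n ih => rw [pow_succ, pow_succ]; exact ih.mul h

omit [Fintype ι] in
theorem Act.inv {k : isomGroup B} {π : Equiv.Perm ι} (h : Act e k π) : Act e k⁻¹ π⁻¹ := fun i => by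
  obtain ⟨c, h1, h2⟩ := h (π⁻¹ i)
  rw [show π (π⁻¹ i) = i by simp] at h2
  refine ⟨c⁻¹, inv_ne_zero h1, ?_⟩
  rw [← isom_inv_apply k (e (π⁻¹ i)), h2, map_smul, smul_smul, inv_mul_cancel₀ h1, one_smul]

theorem Act.unique (h : ON B e) {k : isomGroup B} {π π' : Equiv.Perm ι} (h1 : Act e k π)
    (h2 : Act e k π') : π = π' := Equiv.ext fun i => by
  obtain ⟨c, h3, h4⟩ := h1 i
  obtain ⟨c', -, h5⟩ := h2 i
  by_contra hp
  simpa [h.self, h.ne _ _ hp, h3] using congrArg (B (e (π i))) (h4.symm.trans h5)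

theorem ON.exists_act (h : ON B e) {g : isomGroup B} (hg : g ∈ monG B e) : ∃ π, Act e g π := by
  obtain ⟨π, c, hc⟩ := h.exists_perm hg
  exact ⟨π, fun i => ⟨c i, hc i⟩⟩

theorem Act.mem_iff (h : ON B e) (h2 : (2 : F) ≠ 0) {k a a' : isomGroup B} {π : Equiv.Perm ι}
    {i j i' j' : ι} (hij : i ≠ j) (hij' : i' ≠ j') (ha : IsT a (e i) (e j))
    (ha' : IsT a' (e i') (e j')) (hk : k * a = a' * k) (hπ : Act e k π) (p : ι) :
    (p = i ∨ p = j) ↔ (π p = i' ∨ π p = j') := by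
  classical
  obtain ⟨c, hc0, hc⟩ := hπ p
  have := congrArg (fun x : isomGroup B => B (e (π p)) ((x : V ≃ₗ[F] V) (e p))) hk
  simp only [isom_mul_apply, ha.apply h hij, map_smul, hc, ha'.apply h hij', h.self,
    smul_eq_mul] at this
  have h2 := mul_ne_zero h2 hc0
  split_ifs at this with h3 h4 h4
  · tauto
  · exact absurd (by linear_combination -this) h2
  · exact absurd (by linear_combination this) h2
  · tauto

omit [Fintype ι] in
theorem perm_fix_of_odd {π : Equiv.Perm ι} {N j : ℕ} (hN : Odd N) (h : π ^ N = 1) {p : ι}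
    (hp : (π ^ (2 ^ j)) p = p) : π p = p := by
  have h1 : Function.IsPeriodicPt π N p := by
    rw [Function.IsPeriodicPt, ← Equiv.Perm.coe_pow, h]; rfl
  have h2 : Function.IsPeriodicPt π (2 ^ j) p := by
    rwa [Function.IsPeriodicPt, ← Equiv.Perm.coe_pow]
  have := h1.gcd h2
  rwa [Nat.Coprime.gcd_eq_one (Nat.Coprime.pow_right j (Nat.coprime_two_right.2 hN))] at this

variable [FiniteDimensional F V]

theorem Act.cube (h : ON B e) (hn : 6 ≤ Fintype.card ι) {k : isomGroup B} {π : Equiv.Perm ι}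
    (hk : Act e k π) (hodd : Odd (orderOf k)) {Y : Submodule F V} (hY : finrank F Y ≤ 4)
    (hkY : k ∈ mov B Y) : π ^ 3 = 1 ∨ ∃ m, ∀ y ∈ Y, B (e m) y = 0 := by
  classical
  refine or_iff_not_imp_left.2 fun h3 => ?_
  obtain ⟨p, hp⟩ : ∃ p, π (π (π p)) ≠ p := by
    by_contra! hc
    exact h3 (Equiv.ext hc)
  have hN : π ^ orderOf k = 1 := (hk.pow _).unique h (by rw [pow_orderOf_eq_one]; exact Act.one)
  have n1 : π p ≠ p := fun e => hp (by rw [e, e, e])
  have n2 : π (π p) ≠ p := fun e => n1 (perm_fix_of_odd (j := 1) hodd hN e)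
  have n4 : π (π (π (π p))) ≠ p := fun e => n1 (perm_fix_of_odd (j := 2) hodd hN e)
  obtain ⟨m, hm⟩ := FX.exists_ne_of_card [p, π p, π (π p), π (π (π p)), π (π (π (π p)))]
    (by simp; omega)
  simp only [List.mem_cons, List.not_mem_nil, or_false, not_or] at hm
  obtain ⟨c₀, a0, b0⟩ := hk p
  obtain ⟨c₁, a1, b1⟩ := hk (π p)
  obtain ⟨c₂, a2, b2⟩ := hk (π (π p))
  obtain ⟨c₃, a3, b3⟩ := hk (π (π (π p)))
  let Ψ : (Fin 4 → F) →ₗ[F] V := (((k : V ≃ₗ[F] V) : V →ₗ[F] V) - LinearMap.id) ∘ₗ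
    Fintype.linearCombination F ![e p, e (π p), e (π (π p)), e (π (π (π p)))]
  have hΨ0 : ∀ c, Ψ c = (k : V ≃ₗ[F] V) (c 0 • e p + c 1 • e (π p) + c 2 • e (π (π p)) +
      c 3 • e (π (π (π p)))) - (c 0 • e p + c 1 • e (π p) + c 2 • e (π (π p)) +
      c 3 • e (π (π (π p)))) := fun c => by
    simp [Ψ, Fintype.linearCombination_apply, Fin.sum_univ_four]
  have hΨ : ∀ c, Ψ c = -c 0 • e p + (c 0 * c₀ - c 1) • e (π p) + (c 1 * c₁ - c 2) • e (π (π p)) +
      (c 2 * c₂ - c 3) • e (π (π (π p))) + (c 3 * c₃) • e (π (π (π (π p)))) := fun c => by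
    simp only [hΨ0, map_add, map_smul, b0, b1, b2, b3]
    module
  have hinj : Function.Injective Ψ := by
    rw [← LinearMap.ker_eq_bot, eq_bot_iff]
    intro c hc
    rw [LinearMap.mem_ker, hΨ] at hc
    have e0 := congrArg (B (e p)) hc
    have e1 := congrArg (B (e (π p))) hc
    have e2 := congrArg (B (e (π (π p)))) hc
    have e3 := congrArg (B (e (π (π (π p))))) hc
    simp [h.apply, n1, n2, hp, n1.symm, n2.symm, hp.symm, n4.symm] at e0 e1 e2 e3
    rw [e0, zero_mul, zero_sub, neg_eq_zero] at e1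
    rw [e1, zero_mul, zero_sub, neg_eq_zero] at e2
    rw [e2, zero_mul, zero_sub, neg_eq_zero] at e3
    ext i
    fin_cases i <;> assumption
  have hr : LinearMap.range Ψ = Y := Submodule.eq_of_le_of_finrank_le
    (by rintro _ ⟨c, rfl⟩; rw [hΨ0]; exact hkY _)
    (by rw [LinearMap.finrank_range_of_inj hinj]; simpa using hY)
  refine ⟨m, fun y hy => ?_⟩
  obtain ⟨d, rfl⟩ := hr.ge hy
  simp [hΨ, h.ne, hm]

omit [FiniteDimensional F V] in
theorem IsT.symm {t : isomGroup B} {u v : V} (h : IsT t u v) : IsT t v u := fun x => by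
  rw [h]; abel

/-- Membership in the set of special involutions moving the frame to its image under `g`. -/
def Sw (e : ι → V) (X : Subgroup (isomGroup B)) (g s : isomGroup B) : Prop :=
  s ∈ X ∧ g⁻¹ * s ∈ monG B e ∧ ∃ r ∈ X, ∃ i j, i ≠ j ∧
    IsT s ((r : V ≃ₗ[F] V) (e i)) ((r : V ≃ₗ[F] V) (e j))

namespace CtxO

omit [FiniteDimensional F V] in
theorem sw_mul_self (h : CtxO e X) {g s : isomGroup B} (hs : Sw e X g s) : s * s = 1 := by
  obtain ⟨-, -, r, -, i, j, hij, ht⟩ := hs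
  exact ht.mul_self (h.on.map r) hij

omit [FiniteDimensional F V] in
theorem sw_mul (h : CtxO e X) {g s s' : isomGroup B} (hs : Sw e X g s) (hs' : Sw e X g s') :
    s' * s ∈ monG B e := by
  convert mul_mem (inv_mem hs'.2.1) hs.2.1 using 1
  rw [mul_inv_rev, inv_eq_of_mul_eq_one_right (h.sw_mul_self hs')]; group

omit [FiniteDimensional F V] in
theorem sw_conj (h : CtxO e X) {g s s' : isomGroup B} (hs : Sw e X g s) (hs' : Sw e X g s') :
    Sw e X g (s * s' * s) := by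
  obtain ⟨r, hr, i, j, hij, ht⟩ := hs'.2.2
  refine ⟨mul_mem (mul_mem hs.1 hs'.1) hs.1, ?_, s * r, mul_mem hs.1 hr, i, j, hij, ?_⟩
  · convert mul_mem hs.2.1 (h.sw_mul hs hs') using 1
    group
  · simpa only [inv_eq_of_mul_eq_one_right (h.sw_mul_self hs), isom_mul_apply] using ht.conj s

theorem eq_of_mul_mem (h : CtxO e X) (hn : Fintype.card ι = 6) {r s s' : isomGroup B} (hr : r ∈ X)
    (hr' : r ∉ monG B e) {i j k l : ι} (hij : i ≠ j) (hkl : k ≠ l)
    (ht : IsT s ((r : V ≃ₗ[F] V) (e i)) ((r : V ≃ₗ[F] V) (e j)))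
    (ht' : IsT s' ((r : V ≃ₗ[F] V) (e k)) ((r : V ≃ₗ[F] V) (e l))) (hm : s' * s ∈ monG B e) :
    s' * s = 1 := by
  classical
  have hR := h.on.map r
  have key : ∀ {i j k l : ι}, i ≠ j → k ≠ l →
      IsT s ((r : V ≃ₗ[F] V) (e i)) ((r : V ≃ₗ[F] V) (e j)) →
      IsT s' ((r : V ≃ₗ[F] V) (e k)) ((r : V ≃ₗ[F] V) (e l)) → i = k → s' * s = 1 := by
    rintro i j _ l hij hkl ht ht' rfl
    by_cases hjl : j = l
    · subst hjl
      rw [show s' = s from isom_ext fun x => (ht' x).trans (ht x).symm, ht.mul_self hR hij]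
    · refine absurd (h.lemU hr hjl (fun x => ?_) hm) hr'
      rw [isom_mul_apply, ht, ht']
      simp only [map_sub, map_smul, hR.self, hR.ne _ _ hij, hR.ne _ _ hkl.symm,
        hR.ne _ _ (Ne.symm hjl), smul_eq_mul]
      module
  by_cases h1 : i = k
  · exact key hij hkl ht ht' h1
  by_cases h2 : i = l
  · exact key hij hkl.symm ht ht'.symm h2
  by_cases h3 : j = k
  · exact key hij.symm hkl ht.symm ht' h3
  by_cases h4 : j = l
  · exact key hij.symm hkl.symm ht.symm ht'.symm h4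
  obtain ⟨p, hp⟩ := FX.exists_ne_of_card [i, j, k, l] (by simp; omega)
  obtain ⟨p', hp'⟩ := FX.exists_ne_of_card [i, j, k, l, p] (by simp; omega)
  simp only [List.mem_cons, List.not_mem_nil, or_false, not_or] at hp hp'
  obtain ⟨u, -, hu⟩ := (h.map hr).exists_isT hp'.2.2.2.2
  have hall := mem_of_nodup [i, j, k, l, p, p'] (by simp; grind) (by simp [hn])
  refine absurd (h.lemU hr hp'.2.2.2.2 hu (h.on.mem_monG.2 fun m => ?_)) hr'
  obtain ⟨n, c, hc⟩ := h.on.mem_monG.1 hm m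
  refine ⟨n, -c, ?_⟩
  have : ∀ x, (u : V ≃ₗ[F] V) x = -((s' * s : isomGroup B) : V ≃ₗ[F] V) x := fun x => by
    rw [← hR.sum x]
    simp only [map_sum, map_smul, ← Finset.sum_neg_distrib]
    refine Finset.sum_congr rfl fun a _ => ?_
    rw [isom_mul_apply, ht.apply hR hij, map_smul, ht'.apply hR hkl, hu.apply hR hp'.2.2.2.2]
    have := hall a
    simp only [List.mem_cons, List.not_mem_nil, or_false] at this
    split_ifs <;> first | module | grind
  rw [this, hc, neg_smul]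

variable [Finite F]

theorem sw_cube (h : CtxO e X) (hn : Fintype.card ι = 6) {g s s' : isomGroup B}
    (hg : g ∉ monG B e) (hs : Sw e X g s) (hs' : Sw e X g s') {π : Equiv.Perm ι}
    (hπ : Act e (s' * s) π) : π ^ 3 = 1 := by
  have hm := h.sw_mul hs hs'
  have hs0 : s ∉ monG B e := fun h' => hg (by simpa [mul_mem_cancel_right h'] using hs.2.1)
  obtain ⟨hsX, -, r, hr, i, j, hij, ht⟩ := hs
  obtain ⟨hsX', -, r', hr', k, l, hkl, ht'⟩ := hs'
  by_cases hrr : r'⁻¹ * r ∈ monG B e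
  · obtain ⟨ρ, c, hc⟩ := h.on.exists_perm (inv_mem hrr)
    have e3 : ∀ p, (r' : V ≃ₗ[F] V) (e p) = c p • (r : V ≃ₗ[F] V) (e (ρ p)) := fun p => by
      rw [← map_smul, ← (hc p).2, ← isom_mul_apply]; congr 2; group
    rw [e3, e3] at ht'
    have := h.eq_of_mul_mem hn hr (fun hr0 => hs0 (by
      obtain ⟨t, -, ht0⟩ := h.exists_isT hij
      rw [show s = r * t * r⁻¹ from isom_ext fun x => by rw [ht, ht0.conj r]]
      exact mul_mem (mul_mem hr0 (ht0.mem h.on hij)) (inv_mem hr0))) hij (ρ.injective.ne hkl) ht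
      (ht'.smul (h.on.norm_of_apply (hc _).2) (h.on.norm_of_apply (hc _).2)) hm
    rw [this] at hπ
    rw [hπ.unique h.on Act.one, one_pow]
  have hodd := (h.map hr').lemO (g := r * r'⁻¹) (mul_mem hr (inv_mem hr'))
    (by rw [h.on.mem_monG_map]; convert hrr using 2; group) hkl hij ht' hsX'
    (by simpa only [isom_mul_apply, isom_inv_apply] using ht) hsX
  set Y := spanL F [(r : V ≃ₗ[F] V) (e i), (r : V ≃ₗ[F] V) (e j),
    (r' : V ≃ₗ[F] V) (e k), (r' : V ≃ₗ[F] V) (e l)] with hY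
  have m1 : ∀ {t : isomGroup B} {u v}, IsT t u v → u ∈ Y → v ∈ Y → t ∈ mov B Y :=
    fun ht hu hv x => by
      rw [ht, sub_sub x, sub_sub_cancel_left]
      exact neg_mem (add_mem (Y.smul_mem _ hu) (Y.smul_mem _ hv))
  refine (hπ.cube h.on h.big hodd (finrank_spanL_le _) (mul_mem
    (m1 ht' (mem_spanL_of_mem (by simp)) (mem_spanL_of_mem (by simp)))
    (m1 ht (mem_spanL_of_mem (by simp)) (mem_spanL_of_mem (by simp))))).resolve_right ?_
  rintro ⟨m, hm⟩
  refine hs0 (h.of_fix hsX (j := m) ?_)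
  rw [ht, h.on.herm.comm (hm _ (mem_spanL_of_mem (by simp))),
    h.on.herm.comm (hm _ (mem_spanL_of_mem (by simp)))]
  simp

theorem mem_monG_six (h : CtxO e X) (hn : Fintype.card ι = 6) {g : isomGroup B} (hg : g ∈ X) :
    g ∈ monG B e := by
  classical
  by_contra hg'
  obtain ⟨f⟩ : Nonempty (Fin 4 ↪ ι) := Function.Embedding.nonempty_of_card_le (by simp; omega)
  have hf : ∀ {i j}, i ≠ j → f i ≠ f j := fun hij => f.injective.ne hij
  have h01 : f 0 ≠ f 1 := hf (by decide)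
  obtain ⟨b, hbX, hb⟩ := (h.map hg).exists_isT h01
  obtain ⟨a, s, r, ha, hs, hr, h1, hss, h2, h3⟩ := h.exists_swap hg hg' h01 hb hbX h01
  have hS : Sw e X g s := ⟨hs, h3, r, hr, _, _, h01, h1⟩
  have key : ∀ i j, i ≠ j → ∃ s' π, Sw e X g s' ∧ Act e (s' * s) π ∧
      (π (f 0) = i ∨ π (f 0) = j) ∧ (π (f 1) = i ∨ π (f 1) = j) := fun i j hij => by
    obtain ⟨a', s', r', ha', hs', hr', h1', hss', h2', h3'⟩ := h.exists_swap hg hg' h01 hb hbX hij
    have hS' : Sw e X g s' := ⟨hs', h3', r', hr', _, _, hij, h1'⟩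
    have e1 : s' * s * a = a' * (s' * s) := by
      calc s' * s * a = s' * (s * a * s) * s := by rw [mul_assoc _ _ s, mul_assoc _ s s, hss]; group
        _ = (s' * s') * a' * (s' * s) := by rw [h2, ← h2']; group
        _ = _ := by rw [hss', one_mul]
    obtain ⟨π, hπ⟩ := h.on.exists_act (h.sw_mul hS hS')
    have := hπ.mem_iff h.on h.two h01 hij ha ha' e1
    exact ⟨s', π, hS', hπ, (this _).1 (.inl rfl), (this _).1 (.inr rfl)⟩
  obtain ⟨s₁, π, hS₁, a₁, p0, p1⟩ := key (f 2) (f 3) (hf (by decide))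
  have c1 := h.sw_cube hn hg' hS hS₁ a₁
  have n0 : π (f 0) ≠ f 0 := by
    rcases p0 with e | e <;> rw [e] <;> exact hf (by decide)
  obtain ⟨s₂, ρ, hS₂, a₂, r0, r1⟩ := key (π (f 0)) (π (π (f 0))) (π.injective.ne n0.symm)
  have c2 := h.sw_cube hn hg' hS hS₂ a₂
  have c3 := h.sw_cube hn hg' hS₂ hS₁ (π := π * ρ⁻¹) (by
    convert a₁.mul a₂.inv using 1
    rw [mul_inv_rev, inv_eq_of_mul_eq_one_right (h.sw_mul_self hS₂),
      inv_eq_of_mul_eq_one_right hss, mul_assoc, ← mul_assoc s, hss, one_mul])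
  have c4 := h.sw_cube hn hg' (h.sw_conj hS hS₂) hS₁ (π := π * ρ) (by
    convert a₁.mul a₂ using 1
    group)
  have d1 : ∀ p, π (π (π p)) = p := fun p => Equiv.congr_fun c1 p
  have d2 : ∀ p, ρ (ρ (ρ p)) = p := fun p => Equiv.congr_fun c2 p
  have d3 : ∀ p, π (ρ (ρ (π (ρ (ρ (π (ρ (ρ p)))))))) = p := fun p => by
    have : ρ⁻¹ = ρ * ρ := by rw [inv_eq_iff_mul_eq_one, ← c2]; rfl
    rw [this] at c3
    exact Equiv.congr_fun c3 p
  have d4 : ∀ p, π (ρ (π (ρ (π (ρ p))))) = p := fun p => Equiv.congr_fun c4 p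
  have n1 : f 0 ≠ f 2 := hf (by decide)
  have n2 : f 0 ≠ f 3 := hf (by decide)
  have n3 : f 1 ≠ f 2 := hf (by decide)
  have n4 : f 1 ≠ f 3 := hf (by decide)
  have hnd : [f 0, π (f 0), π (π (f 0)), f 1, π (f 1), π (π (f 1))].Nodup := by
    clear * - h01 n1 n2 n3 n4 d1 p0 p1
    simp only [List.nodup_cons, List.mem_cons, List.not_mem_nil, or_false, not_or,
      List.nodup_nil, not_false_eq_true, and_true]
    and_intros <;> grind
  have hall := mem_of_nodup _ hnd (by simp [hn])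
  have u1 := hall (ρ (π (f 0)))
  have u2 := hall (ρ (π (π (f 0))))
  have u3 := d3 (π (π (f 0)))
  have u4 := d4 (f 1)
  simp only [List.nodup_cons, List.mem_cons, List.not_mem_nil, or_false, not_or,
    List.nodup_nil, not_false_eq_true, and_true] at hnd u1 u2
  clear * - hnd u1 u2 u3 u4 d1 d2 r0 r1
  rcases r0 with r0 | r0 <;> rcases r1 with r1 | r1 <;> grind

end CtxO

variable [Finite F]

theorem Ctx.lemV_six (h : Ctx e X) (h2 : (2 : F) = 0) (hq : ∃ l : F, σ l = l ∧ l ≠ 0 ∧ l ≠ 1)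
    (hn : 6 ≤ Fintype.card ι) {g t : isomGroup B} (hg : g ∈ X) {i j : ι} (hij : i ≠ j)
    (ht : IsV t ((g : V ≃ₗ[F] V) (e i - (1 : F) • e j))) (ht' : t ∈ monG B e) :
    g ∈ monG B e := by
  by_contra hg'
  have H := h.on.herm
  set w := (g : V ≃ₗ[F] V) (e i - (1 : F) • e j) with hwdef
  have hw : B w w = 0 := by rw [isom_apply]; exact h.on.iso_sub h2 hij (by simp)
  have hw1 : w = (1 : F) • (g : V ≃ₗ[F] V) (e i) + (-1 : F) • (g : V ≃ₗ[F] V) (e j) := by
    rw [hwdef, map_sub, map_smul]; module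
  have hw0 : w ≠ 0 := fun e1 => by
    simpa [hw1, isom_apply, h.on.self, h.on.ne _ _ hij] using congrArg (B ((g : V ≃ₗ[F] V) (e i))) e1
  obtain ⟨k, k', hk, hkw, h1⟩ := h.on.supp_of_isV ht hw hw0 ht'
  have hw2 := h.on.eq_pair hk h1
  have r1 : ∀ m, k ≠ m → k' ≠ m → H.RfA (indG X w) (e m) := fun m h3 h4 => by
    rw [hw2] at hw ⊢; exact h.toFX.rfA_indG_pair h2 hk h3 h4 hkw hw
  obtain ⟨m₀, hm₀⟩ := FX.exists_ne_of_card [i, j] (by simp; omega)
  simp only [List.mem_cons, List.not_mem_nil, or_false, not_or] at hm₀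
  have r2 : H.RfA (indG X w) ((g : V ≃ₗ[F] V) (e m₀)) := by
    rw [hw1] at hw ⊢
    exact (h.toFX.map hg).rfA_indG_pair h2 hij (Ne.symm hm₀.1) (Ne.symm hm₀.2) one_ne_zero hw
  obtain ⟨z, hz⟩ : ∃ z, ∀ p, p ≠ z → B (e p) ((g : V ≃ₗ[F] V) (e m₀)) ≠ 0 := by
    by_contra! hcon
    obtain ⟨p, -, h3⟩ := hcon i
    obtain ⟨p', h4, h5⟩ := hcon p
    exact h.two_zero hq (by omega) hg hg' h4 h5 h3
  obtain ⟨l, hl⟩ := FX.exists_ne_of_card [k, k', z] (by simp; omega)
  obtain ⟨l', hl'⟩ := FX.exists_ne_of_card [k, k', z, l] (by simp; omega)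
  obtain ⟨m, hm⟩ := FX.exists_ne_of_card [k, k', z, l, l'] (by simp; omega)
  obtain ⟨p, hp⟩ := FX.exists_ne_of_card [k, k', l, l', m] (by simp; omega)
  simp only [List.mem_cons, List.not_mem_nil, or_false, not_or] at hl hl' hm hp
  have o1 := h.on.ne _ _ hl'.2.2.2
  have o2 := h.on.ne _ _ hm.2.2.2.1
  have o3 := h.on.ne _ _ hm.2.2.2.2
  have q1 := r1 l (Ne.symm hl.1) (Ne.symm hl.2.1)
  obtain ⟨a, b, c, ha, hb, hc, hr, y, hy, e1⟩ := Herm.exists_shear r2 q1
    (r1 l' (Ne.symm hl'.1) (Ne.symm hl'.2.1)) (H.comm o1) (H.comm o2) (H.comm o3)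
    (hz l hl.2.2) (hz l' hl'.2.2.1) (hz m hm.2.2.1)
  have hE := Herm.smul_mem_eichSub_of_shear (r1 m (Ne.symm hm.1) (Ne.symm hm.2.1)) hr
    (by simp [H.comm o2, H.comm o3]) hc hy e1
  clear e1 hy hc y c
  have hab : σ a * a + σ b * b = 0 := by
    simpa [h.on.self, o1, H.comm o1, mul_comm] using hr
  obtain ⟨μ, hμ, hμ'⟩ := exists_normOne_ne_one H.ne_id H.invol
  have hμ1 : μ - 1 ≠ 0 := fun e => hμ' (by simp [sub_eq_zero.1 e])
  have hμ2 : σ μ - 1 ≠ 0 := by simpa using (map_ne_zero σ).2 hμ1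
  have ha' : σ a ≠ 0 := by simpa using ha
  obtain ⟨n, hn1, hn0, hn2⟩ := hq
  obtain ⟨c, hc⟩ := H.exists_norm_eq (μ := n / (σ a * a * ((σ μ - 1) * (μ - 1)))) (by
    simp only [map_div₀, map_mul, map_sub, map_one, H.invol, hn1]; ring)
  rw [eq_div_iff (by simp [ha, hμ1, hμ2])] at hc
  have hc0 : c ≠ 0 := by rintro rfl; exact hn0 (by simpa using hc.symm)
  obtain ⟨_, β₁, hβ₁, y1⟩ := hE (-σ c)
  obtain ⟨y, y2, e2⟩ := q1.exists hμ
  obtain ⟨_, β, hβ, y3⟩ := hE (-(c * (σ a * a) * (μ - 1))⁻¹)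
  obtain ⟨-, x, hx, -, hy⟩ := mul_mem y3 (mul_mem y2 y1)
  obtain ⟨d, hd⟩ := hy (e m) (H.comm (h1 m hm.1 hm.2.1))
  have hN := isom_apply (H.eich hr ‹_› β hβ * (y * H.eich hr ‹_› β₁ hβ₁)) (e m) (e m)
  obtain ⟨τ, hτ⟩ : ∃ τ : F, ((H.eich hr ‹_› β hβ * (y * H.eich hr ‹_› β₁ hβ₁) : isomGroup B) :
      V ≃ₗ[F] V) (e m) = (a * (c * μ - τ)) • e l + (b * (c - τ)) • e l' := by
    refine ⟨σ (-(c * (σ a * a) * (μ - 1))⁻¹) + β * (c * (σ a * a) * (μ - 1)), ?_⟩
    have e3 : σ b * b = -(σ a * a) := by linear_combination hab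
    simp only [isom_mul_apply, H.eich_apply, e2, map_add, map_sub, map_smulₛₗ, LinearMap.add_apply,
      LinearMap.smul_apply, smul_eq_mul, RingHom.id_apply, h.on.self, o1, o2, o3, H.comm o1,
      H.comm o2, H.comm o3, map_neg, H.invol]
    generalize σ (c * (σ a * a) * (μ - 1))⁻¹ = γ
    match_scalars
    · field_simp
      linear_combination -c * hab
    · linear_combination (-(β * c * a)) * hab
    · linear_combination (-(β * c * b)) * hab
  rw [hτ] at hd hN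
  simp only [map_add, map_smulₛₗ, LinearMap.add_apply, LinearMap.smul_apply, smul_eq_mul,
    RingHom.id_apply, h.on.self, o1, H.comm o1, map_mul, map_sub] at hN
  refine h.two_zero ⟨n, hn1, hn0, hn2⟩ (by omega) hx (fun hx' => ?_) hp.2.2.2.2 (j := m) ?_ ?_
  · obtain ⟨u, s, hs⟩ := h.on.mem_monG.1 hx' m
    rw [hd] at hs
    by_cases hu : l = u
    · have := congrArg (B (e l')) hs
      simp only [← hu, map_add, map_smul, h.on.self, o1, h1 l' hl'.1 hl'.2.1, smul_eq_mul,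
        mul_zero, zero_add, add_zero, mul_one, mul_eq_zero, hb, false_or, sub_eq_zero] at this
      subst this
      exact hn2 (by linear_combination hN - hc)
    · have := congrArg (B (e l)) hs
      simp only [map_add, map_smul, h.on.self, H.comm o1, h1 l hl.1 hl.2.1, smul_eq_mul,
        mul_zero, add_zero, mul_one, mul_eq_zero, ha, false_or, sub_eq_zero, h.on.ne _ _ hu] at this
      subst this
      rw [map_mul] at hN
      exact hn2 (by linear_combination -hN - hc + (σ c * c * ((σ μ - 1) * (μ - 1))) * hab - h2)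
  · simp [hd, h1 p hp.1 hp.2.1, h.on.ne, hp]
  · simp [hd, h1 m hm.1 hm.2.1, o2, o3]

theorem ON.maxS_six (h : ON B e) (hn : Fintype.card ι = 6) (hq : ∃ l : F, σ l = l ∧ l ≠ 0 ∧ l ≠ 1) :
    MaxS B (monG B e) := by
  refine h.maxS_of (by omega) fun X hX g hg => ?_
  by_cases h2 : (2 : F) = 0
  · exact hX.mem_monG_of_lemV h2 (by omega)
      (fun g hg t i j hij ht => hX.lemV_six h2 hq hn.ge hg hij ht) hg
  · exact CtxO.mem_monG_six ⟨hX, h2, hn.ge⟩ hn hg

end Cfsg.Lib.Class.Form
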