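import Cfsg.Agent.Class.SU.Basic

/-!
The stabiliser of a pair of complementary totally isotropic subspaces is maximal in `SU_{2k}(q)` for
`k ≥ 3`, and for `k = 2` if `q ≥ 4`.
-/

set_option autoImplicit false

namespace Cfsg.Lib.Class.Form

open Module

variable {F V : Type*} [Field F] [AddCommGroup V] [Module F V] {σ : F →+* F}
  {B : V →ₛₗ[σ] V →ₗ[F] F} [FiniteDimensional F V] {W U W' U' : Submodule F V}
  {M : Subgroup (isomGroup B)}

namespace HLag

omit [FiniteDimensional F V] in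
theorem mem_of_orth (hp : HLag B W U) (h : Herm B) {x : V} (hx : ∀ w ∈ W, B w x = 0) : x ∈ W := by
  obtain ⟨a, ha, b, hb, rfl⟩ := hp.exists_add x
  rw [h.sep' b fun v => ?_, add_zero]
  · exact ha
  obtain ⟨c, hc, d, hd, rfl⟩ := hp.exists_add v
  simpa [hp.left c hc a ha, hp.right d hd b hb] using hx c hc

theorem full_of_smul_mem (hp : HLag B W U) (h : Herm B) (hd : 2 ≤ finrank F W) (hM : HasLevi M W U)
    {z : V} (hz : z ∈ W) {i : V} (hiW : i ∈ W) (hiz : i ∉ spanL F [z])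
    (hi : ∀ c : F, c • i ∈ h.eichSub M (hp.left z hz z hz)) : h.Full M z := by
  refine h.full_of_forall (by have := (hp.finrank_eq h).1; omega) (hp.left z hz z hz) fun w hw => ?_
  obtain ⟨a, ha, b, hb, rfl⟩ := hp.exists_add w
  have h1 := hp.mem_eichSub h hM hz hb (by simpa [hp.left z hz a ha] using hw)
  by_cases hiu : a ∈ spanL F [z, i]
  · obtain ⟨c, d, rfl⟩ := mem_spanL_pair.1 hiu
    exact ⟨-c, by convert add_mem (hi d) h1 using 1; module⟩
  obtain ⟨y, hy, hw1, hw2⟩ := hp.exists_dual h (s := [z, a]) (by simp [hz, ha]) hiW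
    (notMem_spanL_pair_exchange hiu hiz) (-1)
  obtain ⟨k, hk, e⟩ := hM a ha y hy (h.comm (hw1 a (by simp)))
  have h2 := h.apply_mem_eichSub hk (hz' := hp.left z hz z hz)
    (by simp [e, hp.left a ha z hz, hw1 z (by simp)]) (hi 1)
  rw [one_smul, e, hp.left a ha i hiW, hw2] at h2
  exact ⟨0, by convert add_mem (sub_mem h2 (hi 1)) h1 using 1; module⟩

/-- An element of `M` stabilising `W` but not `U` yields a full point. -/
theorem exists_full_of_stab (hp : HLag B W U) (h : Herm B) (hd : 2 ≤ finrank F W)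
    (hM : HasLevi M W U) {m : isomGroup B} (hm : m ∈ M) (hmW : ∀ x ∈ W, m.1 x ∈ W) {y : V}
    (hy : y ∈ U) (hmy : m.1 y ∉ U) : ∃ z ∈ W, z ≠ 0 ∧ h.Full M z := by
  have hW := map_eq_of_forall_mem _ hmW le_rfl
  have hp' := hp.map m
  rw [hW] at hp'
  obtain ⟨_, ⟨x, hx, rfl⟩, w, hw, u, hu, e, h1⟩ : ∃ x ∈ U.map m.1.toLinearMap, ∃ w ∈ W, ∃ u ∈ U,
      w + u = x ∧ B u w ≠ 0 := by
    by_contra! hc
    obtain ⟨w, hw, u, hu, e⟩ := hp.exists_add (m.1 y)
    refine hmy ?_
    rw [← e, hp.eq_zero hw (hp.symm.mem_of_orth h fun v hv => ?_), zero_add]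
    · exact hu
    obtain ⟨a, ha, b, hb, e'⟩ := hp'.exists_add v
    obtain ⟨ω, hω⟩ := DFunLike.ne_iff.1 h.ne_id
    have h2 : ∀ c : F, c * B v w - σ c * B u a = 0 := fun c => by
      have := hc _ (add_mem hb (Submodule.smul_mem _ c ⟨y, hy, rfl⟩)) _
        (add_mem (W.neg_mem ha) (W.smul_mem c hw)) _ (add_mem hv (U.smul_mem c hu))
        (by rw [LinearEquiv.coe_coe, ← e, ← e']; module)
      have h3 := hc b hb _ (W.neg_mem ha) _ hv (by rw [← e']; module)
      have h4 := hc _ ⟨y, hy, rfl⟩ w hw u hu e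
      simp only [map_add, map_smulₛₗ, map_neg, LinearMap.add_apply, LinearMap.smul_apply,
        smul_eq_mul, RingHom.id_apply, h4] at this h3
      linear_combination this - h3
    have h3 := h2 1
    have h4 := h2 ω
    rw [map_one] at h3
    exact mul_left_cancel₀ (sub_ne_zero.2 (Ne.symm hω)) (by
      simp only [RingHom.id_apply]; linear_combination h4 - σ ω * h3)
  obtain ⟨z, hz, hz1, hz2⟩ := exists_mem_kerL_notMem W [B u] [] (by simp; omega)
  replace hz1 : B u z = 0 := hz1 _ (by simp)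
  obtain ⟨z', hz', rfl⟩ := hW.ge hz
  refine ⟨_, hz, ne_zero_of_notMem_spanL hz2, hp.full_of_smul_mem h hd hM hz hw (fun hc => ?_)
    fun c => ?_⟩
  · obtain ⟨c, rfl⟩ := mem_spanL_singleton.1 hc
    rw [map_smul, hz1, smul_zero] at h1
    exact h1 rfl
  · have h2 := h.apply_mem_eichSub hm (hz' := hp.left _ hz _ hz) rfl (hp.mem_eichSub h hM hz'
      (U.smul_mem c hx) (by
        rw [← isom_apply m, map_smul, map_smul, ← LinearEquiv.coe_coe, ← e, map_add, h.comm hz1,
          hp.left _ hz _ hw]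
        simp))
    rw [map_smul, ← LinearEquiv.coe_coe, ← e, smul_add] at h2
    simpa using sub_mem h2 (hp.mem_eichSub h hM hz (U.smul_mem c hu) (by rw [map_smul, h.comm hz1, smul_zero]))

theorem mem_of_meet (h : Herm B) (hM : HasLevi M W U) (hp' : HLag B W' U')
    (hst : ∀ m ∈ M, (∀ x ∈ W', m.1 x ∈ W') → ∀ x ∈ U', m.1 x ∈ U') {a : V} (ha : a ∈ W)
    (ha' : a ∈ W') (ha0 : a ≠ 0) {u : V} (hu : u ∈ U) (hau : B a u = 0) : u ∈ U' := by
  obtain ⟨x, hx, -, hxa⟩ := hp'.exists_dual h (s := []) (by simp) ha' (by simpa [spanL]) 1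
  have hax : B a x = 1 := by rw [← h.conj, hxa, map_one]
  have h1 : ∀ c : F, c • u - (σ c * B u x) • a ∈ U' := fun c => by
    obtain ⟨k, hk, e⟩ := hM a ha _ (U.smul_mem c hu) (by simp [hau])
    have := U'.sub_mem (hst k hk (fun y hy => by
      rw [e, hp'.left a ha' y hy, zero_smul, add_zero]
      exact W'.sub_mem hy (W'.smul_mem _ ha')) x hx) hx
    rw [e, hax] at this
    convert this using 1
    simp only [map_smulₛₗ, LinearMap.smul_apply, smul_eq_mul]
    module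
  obtain ⟨ω, hω⟩ := DFunLike.ne_iff.1 h.ne_id
  have h2 := U'.sub_mem (h1 ω) (U'.smul_mem (σ ω) (h1 1))
  rw [map_one, show ω • u - (σ ω * B u x) • a - σ ω • ((1 : F) • u - (1 * B u x) • a) =
    (ω - σ ω) • u by module] at h2
  exact (U'.smul_mem_iff (sub_ne_zero.2 (Ne.symm hω))).1 h2

theorem exists_split [Finite F] (hp : HLag B W U) (h : Herm B) (hT : TotIso B W')
    (hd : 2 ≤ finrank F W') : ∃ w ∈ W, ∃ u ∈ U, w + u ∈ W' ∧ w + u ≠ 0 ∧ B w u = 0 := by
  obtain ⟨z, hz, -, hz0⟩ := exists_mem_kerL_notMem W' [] [] (by simp; omega)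
  obtain ⟨w, hw, u, hu, rfl⟩ := hp.exists_add z
  by_cases h1 : B w u = 0
  · exact ⟨w, hw, u, hu, hz, ne_zero_of_notMem_spanL hz0, h1⟩
  obtain ⟨y, hy, h2, hy0⟩ := exists_mem_kerL_notMem W' [B w] [] (by simp; omega)
  obtain ⟨w', hw', u', hu', rfl⟩ := hp.exists_add y
  replace h2 : B w u' = 0 := by simpa [hp.left w hw w' hw'] using h2 (B w) (by simp)
  have h3 := hT _ hz _ hz
  have h4 := hT _ hy _ hy
  have h5 := hT _ hy _ hz
  simp only [map_add, LinearMap.add_apply, hp.left _ hw _ hw, hp.left _ hw' _ hw',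
    hp.left _ hw' _ hw, hp.right _ hu _ hu, hp.right _ hu' _ hu', hp.right _ hu' _ hu,
    h.comm h2, zero_add, add_zero] at h3 h4 h5
  obtain ⟨c, hc⟩ := h.exists_norm_eq (μ := -B w' u' / B w u) (by
    rw [map_div₀, map_neg, h.conj, h.conj, eq_neg_of_add_eq_zero_left h3,
      eq_neg_of_add_eq_zero_left h4, neg_div_neg_eq, neg_div])
  refine ⟨c • w + w', add_mem (W.smul_mem c hw) hw', c • u + u', add_mem (U.smul_mem c hu) hu',
    by convert add_mem (W'.smul_mem c hz) hy using 1; module, fun e => ?_, ?_⟩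
  · have h6 := congrArg (B w) e
    simp only [map_add, map_smul, hp.left _ hw _ hw, hp.left _ hw _ hw', h2, smul_eq_mul, mul_zero,
      zero_add, add_zero, map_zero, mul_eq_zero, h1, or_false] at h6
    exact ne_zero_of_notMem_spanL hy0 (by simpa [h6] using e)
  · simp only [map_add, map_smulₛₗ, LinearMap.add_apply, LinearMap.smul_apply, smul_eq_mul,
      RingHom.id_apply, h2, h5]
    rw [eq_div_iff h1] at hc
    linear_combination hc

end HLag

/-- The stabiliser of a pair of complementary totally isotropic subspaces is maximal in `SU`. -/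
theorem Herm.maxS_stabFam_hLag' [Finite F] (h : Herm B) {D : Fin 2 → Submodule F V}
    (hp : HLag B (D 0) (D 1)) (hd : 2 ≤ finrank F (D 0))
    (hq : 3 ≤ finrank F (D 0) ∨ ∃ l : F, σ l = l ∧ l ≠ 0 ∧ l * l ≠ 1) : MaxS B (stabFam B D) := by
  obtain ⟨hn, hd'⟩ := hp.finrank_eq h
  have hW0 : D 0 ≠ ⊥ := fun h0 => by rw [h0, finrank_bot] at hd; omega
  have hswap : ∀ g : isomGroup B, (∀ x ∈ D 0, g.1 x ∈ D 1) → (∀ x ∈ D 1, g.1 x ∈ D 0) →
      g ∈ stabFam B D := fun g h0 h1 => ⟨Equiv.swap 0 1, fun i => by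
    fin_cases i
    · exact map_eq_of_forall_mem _ h0 hd'.le
    · exact map_eq_of_forall_mem _ h1 hd'.ge⟩
  have hfix : ∀ g : isomGroup B, (∀ x ∈ D 0, g.1 x ∈ D 0) → (∀ x ∈ D 1, g.1 x ∈ D 1) →
      g ∈ stabFam B D := fun g h0 h1 => mem_stabFam_of_forall fun i => by
    fin_cases i
    · exact h0
    · exact h1
  refine ⟨fun hle => ?_, fun M hM _ g hg hgH => ?_⟩
  · obtain ⟨δ, hδ0, hδ⟩ := h.exists_trace_zero
    obtain ⟨e, he, he0⟩ := (D 0).exists_mem_ne_zero_of_ne_bot hW0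
    obtain ⟨f, hf, -, hfe⟩ := hp.exists_dual h (s := []) (by simp) he (by simpa [spanL]) 1
    obtain ⟨π, hπ⟩ := hle (h.transv_mem_sIsom f (hp.right f hf f hf) δ hδ)
    have h1 : e + δ • f ∈ D (π 0) := by
      rw [← hπ]
      exact ⟨e, he, by simp [h.transv_apply, hfe]⟩
    generalize π 0 = j at h1
    fin_cases j
    · have := hp.left _ h1 e he
      simp [map_smulₛₗ, hp.left e he e he, hfe, hδ0] at this
    · have := hp.right f hf _ h1
      simp [hp.right f hf f hf, hfe] at this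
  have hL : HasLevi M (D 0) (D 1) := fun u hu w hw huw =>
    ⟨h.eich (hp.left u hu u hu) huw 0 (by simp [hp.right w hw w hw]),
      hM _ (hfix _ (fun v hv => by
          rw [h.eich_apply, hp.left u hu v hv, zero_smul, add_zero]
          exact sub_mem hv (Submodule.smul_mem _ _ hu)) fun v hv => by
          rw [h.eich_apply, hp.right w hw v hv, zero_mul, add_zero, zero_smul, sub_zero]
          exact add_mem hv (Submodule.smul_mem _ _ hw)) (h.eich_mem_sIsom ..),
      fun x => by simp [h.eich_apply]⟩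
  obtain ⟨s, hs, hs0, hs1⟩ := hp.exists_swap h hW0
  have hsM : s ∈ M := hM s (hswap s hs0 hs1) hs
  have fin : ∀ z ∈ D 0, z ≠ 0 → h.Full M z → sIsom B ≤ M := fun z hz hz0 hf => by
    obtain ⟨x, hx, -, hxz⟩ := hp.symm.exists_dual h (s := []) (by simp) (hs0 z hz)
      (by simpa [spanL]) 1
    exact h.sIsom_le_of_full (by omega) (hp.full_of_full h hL hz hz0 hf hx) (hf.apply hsM)
      (by simp [hxz])
  by_contra hcon
  have s0 : ∀ m ∈ M, (∀ x ∈ D 0, m.1 x ∈ D 0) → ∀ x ∈ D 1, m.1 x ∈ D 1 := fun m hm h0 x hx => by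
    by_contra hc
    obtain ⟨z, hz, hz0, hf⟩ := hp.exists_full_of_stab h hd hL hm h0 hx hc
    exact hcon (fin z hz hz0 hf)
  have s1 : ∀ m ∈ M, (∀ x ∈ D 1, m.1 x ∈ D 1) → ∀ x ∈ D 0, m.1 x ∈ D 0 := fun m hm h0 x hx => by
    by_contra hc
    obtain ⟨z, hz, hz0, hf⟩ := hp.symm.exists_full_of_stab h (by omega) (hL.symm h) hm h0 hx hc
    exact hcon (fin _ (hs1 z hz) (by simpa using hz0) (hf.apply hsM))
  have conj : ∀ {S T : Submodule F V}, (∀ m ∈ M, (∀ x ∈ S, m.1 x ∈ S) → ∀ x ∈ T, m.1 x ∈ T) →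
      ∀ g ∈ M, ∀ m ∈ M, (∀ x ∈ S.map g.1.toLinearMap, m.1 x ∈ S.map g.1.toLinearMap) →
      ∀ x ∈ T.map g.1.toLinearMap, m.1 x ∈ T.map g.1.toLinearMap := by
    rintro S T H g hg m hm h0 _ ⟨x, hx, rfl⟩
    exact ⟨_, H _ (mul_mem (mul_mem (inv_mem hg) hm) hg) (fun y hy => by
      obtain ⟨z, hz, e⟩ := h0 _ ⟨y, hy, rfl⟩
      simpa [← show g.1 z = m.1 (g.1 y) from e]) x hx, by simp⟩
  have meet : ∀ g ∈ M, ∀ a ∈ D 0, a ≠ 0 → g.1 a ∈ D 0 → ∀ x ∈ D 0, g.1 x ∈ D 0 := by
    intro g hg a ha ha0 hga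
    have hp' := hp.map g
    have ha1 : g.1 a ∈ (D 0).map g.1.toLinearMap := ⟨a, ha, rfl⟩
    have ha2 : g.1 a ≠ 0 := by simpa using ha0
    generalize g.1 a = b at hga ha1 ha2
    have h1 := fun u => HLag.mem_of_meet (u := u) h hL hp' (conj s0 g hg) hga ha1 ha2
    rcases hq with hq | ⟨l, hl, hl0, hl1⟩
    · have h2 : ∀ u ∈ D 1, u ≠ 0 → B b u = 0 → ∀ x ∈ D 0, B u x = 0 →
          x ∈ (D 0).map g.1.toLinearMap := fun u hu hu0 hbu x =>
        HLag.mem_of_meet h (hL.symm h) hp'.symm (conj s1 g hg) hu (h1 u hu hbu) hu0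
      obtain ⟨u, hu, hu1, hu2⟩ := exists_mem_kerL_notMem (D 1) [B b] [] (by simp; omega)
      obtain ⟨v, hv, hv1, hv2⟩ := exists_mem_kerL_notMem (D 1) [B b] [u] (by simp; omega)
      have hu0 := ne_zero_of_notMem_spanL hu2
      obtain ⟨y, hy, hy1, hy2⟩ := hp.symm.exists_dual h (s := [v]) (by simp [hv]) hu
        (notMem_spanL_singleton_symm hv2 hu0) 1
      have h3 : B u y = 1 := by rw [← h.conj, hy2, map_one]
      have h4 : D 0 ≤ (D 0).map g.1.toLinearMap := fun x hx => by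
        simpa using add_mem (h2 u hu hu0 (hu1 _ (by simp)) _ (sub_mem hx ((D 0).smul_mem (B u x) hy))
          (by simp [h3])) (Submodule.smul_mem _ (B u x) (h2 v hv (ne_zero_of_notMem_spanL hv2)
            (hv1 _ (by simp)) y hy (h.comm (hy1 v (by simp)))))
      exact fun x hx => (Submodule.eq_of_le_of_finrank_eq h4
        (LinearEquiv.finrank_map_eq _ _).symm).ge ⟨x, hx, rfl⟩
    · obtain ⟨f, hf, -, hfb⟩ := hp.exists_dual h (s := []) (by simp) hga (by simpa [spanL]) 1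
      have hbf : B b f = 1 := by rw [← h.conj, hfb, map_one]
      have hbb := hp.left b hga b hga
      have hff := hp.right f hf f hf
      have e1 : σ l * l⁻¹ = 1 := by rw [hl, mul_inv_cancel₀ hl0]
      have h2 := conj s0 g hg _ (hM (h.hypDiag hbb hff hbf l l⁻¹ e1) (hfix _ (fun v hv => by
          rw [h.hypDiag_apply, hp.left b hga v hv, mul_zero, zero_smul, add_zero]
          exact add_mem hv (Submodule.smul_mem _ _ hga)) fun v hv => by
          rw [h.hypDiag_apply, hp.right f hf v hv, mul_zero, zero_smul, add_zero]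
          exact add_mem hv (Submodule.smul_mem _ _ hf))
        (by rw [mem_sIsom', h.det_hypDiag, mul_inv_cancel₀ hl0])) fun v hv => by
          rw [h.hypDiag_apply, hp'.left b ha1 v hv, mul_zero, zero_smul, add_zero]
          exact add_mem hv (Submodule.smul_mem _ _ ha1)
      have h3 : f ∈ (D 1).map g.1.toLinearMap := hp'.symm.mem_of_orth h fun x hx => by
        have h4 := sub_mem (h2 x hx) hx
        have h5 := sub_mem (h2 _ h4) (Submodule.smul_mem _ l⁻¹ h4)
        have h6 := hp'.eq_zero (Submodule.smul_mem _ ((l - l⁻¹) * (l - 1) * B f x) ha1) (by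
          convert h5 using 1
          simp only [h.hypDiag_apply, map_add, map_sub, map_smul, hbb, hff, hbf, hfb, smul_eq_mul]
          module)
        have h7 : l - l⁻¹ ≠ 0 := fun e => hl1 (by
          nth_rw 2 [sub_eq_zero.1 e]; exact mul_inv_cancel₀ hl0)
        have h8 : l - 1 ≠ 0 := fun e => hl1 (by rw [sub_eq_zero.1 e, mul_one])
        exact h.comm (by simpa [ha2, h7, h8] using h6)
      have h4 : D 1 ≤ (D 1).map g.1.toLinearMap := fun x hx => by
        simpa using add_mem (h1 _ (sub_mem hx ((D 1).smul_mem (B b x) hf)) (by simp [hbf]))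
          (Submodule.smul_mem _ (B b x) h3)
      exact s1 g hg fun x hx => (Submodule.eq_of_le_of_finrank_eq h4
        (LinearEquiv.finrank_map_eq _ _).symm).ge ⟨x, hx, rfl⟩
  have hp' := hp.map g
  obtain ⟨w, hw, u, hu, ⟨x, hx, e⟩, h0, hwu⟩ := hp.exists_split h hp'.left
    (by rwa [LinearEquiv.finrank_map_eq])
  replace e : g.1 x = w + u := e
  have hx0 : x ≠ 0 := by rintro rfl; exact h0 (by simpa using e.symm)
  by_cases h1 : ∃ a ∈ D 0, a ≠ 0 ∧ g.1 a ∈ D 0
  · obtain ⟨a, ha, ha0, hga⟩ := h1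
    exact hgH (hfix g (meet g hg a ha ha0 hga) (s0 g hg (meet g hg a ha ha0 hga)))
  by_cases h2 : ∃ a ∈ D 0, a ≠ 0 ∧ g.1 a ∈ D 1
  · obtain ⟨a, ha, ha0, hga⟩ := h2
    have h3 := meet _ (mul_mem hsM hg) a ha ha0 (hs1 _ hga)
    have h4 := s0 _ (mul_mem hsM hg) h3
    have h5 := (stabFam B D).mul_mem ((stabFam B D).inv_mem (hswap s hs0 hs1)) (hfix _ h3 h4)
    exact hgH (by simpa using h5)
  push Not at h1 h2
  obtain ⟨ω, hω⟩ := DFunLike.ne_iff.1 h.ne_id
  obtain ⟨k, hk, ek⟩ := hL w hw _ ((D 1).smul_mem ω hu) (by simp [hwu])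
  have h3 := meet _ (mul_mem (mul_mem (inv_mem hg) hk) hg) x hx hx0 (by
    have : k.1 (g.1 x) = g.1 x := by
      rw [ek, e]
      simp [hwu, h.comm hwu, hp.left w hw w hw, hp.right u hu u hu]
    simpa [this])
  obtain ⟨_, ⟨y, hy, rfl⟩, hwy⟩ : ∃ y ∈ (D 0).map g.1.toLinearMap, B w y ≠ 0 := by
    by_contra! hc
    obtain ⟨a, ha, ea⟩ := hp'.mem_of_orth h fun y hy => h.comm (hc y hy)
    replace ea : g.1 a = w := ea
    refine h1 a ha (fun e' => h2 x hx hx0 ?_) (ea ▸ hw)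
    rwa [e, ← ea, e', map_zero, zero_add]
  replace hwy : B w (g.1 y) ≠ 0 := hwy
  have h4 : B u (g.1 y) = -B w (g.1 y) := by
    have := (isom_apply g x y).trans (hp.left x hx y hy)
    rw [e, map_add, LinearMap.add_apply] at this
    linear_combination this
  have h5 : g.1 ((g⁻¹ * k * g).1 y - y - (σ ω * B w (g.1 y)) • x) =
      ((ω - σ ω) * B w (g.1 y)) • u := by
    simp only [map_sub, isom_mul_apply, isom_apply_inv, ek, map_smul, e, map_smulₛₗ,
      LinearMap.smul_apply, h4, smul_eq_mul]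
    module
  refine h2 _ (sub_mem (sub_mem (h3 y hy) hy) ((D 0).smul_mem _ hx)) (fun e' => ?_)
    (h5 ▸ (D 1).smul_mem _ hu)
  rw [e', map_zero, eq_comm, smul_eq_zero, mul_eq_zero, sub_eq_zero] at h5
  rcases h5 with (h5 | h5) | h5
  · exact hω h5.symm
  · exact hwy h5
  · exact h1 x hx hx0 (by rwa [e, h5, add_zero])

end Cfsg.Lib.Class.Form
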