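import Cfsg.Agent.Class.SubfieldSU
import Cfsg.Agent.Class.SU.Orth
import Cfsg.Agent.Class.SU.Dec

/-!
# Subfield subgroups of odd prime index in `SU`, dimension at least four
-/

set_option autoImplicit false
set_option linter.unusedSectionVars false

namespace Cfsg.Lib.Class.Form

open Module Cfsg.Geo
open scoped MatrixGroups

variable {F V : Type*} [Field F] [AddCommGroup V] [Module F V] {ι : Type} [Fintype ι]
  [DecidableEq ι] {σ : F →+* F} {B : V →ₛₗ[σ] V →ₗ[F] F} {M : Subgroup (isomGroup B)}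
  [FiniteDimensional F V]

theorem not_quadratic [Fintype F] {F₀ : Subfield F} {r : ℕ} (hr : r.Prime) (hr2 : r ≠ 2)
    (hcard : Fintype.card F = Nat.card F₀ ^ r) {τ a b : F} (hτ : τ ∉ F₀) (ha : a ∈ F₀)
    (hb : b ∈ F₀) : τ * τ ≠ a + b * τ := by
  intro h
  have h1 := forall_of_prime_index hr hcard (p := fun c => ∃ x ∈ F₀, ∃ y ∈ F₀, c = x + y * τ)
    (fun c hc => ⟨c, hc, 0, zero_mem _, by simp⟩)
    (by
      rintro _ _ ⟨x, hx, y, hy, rfl⟩ ⟨x', hx', y', hy', rfl⟩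
      exact ⟨x + x', add_mem hx hx', y + y', add_mem hy hy', by ring⟩)
    (by
      rintro _ _ ⟨x, hx, y, hy, rfl⟩ ⟨x', hx', y', hy', rfl⟩
      exact ⟨x * x' + y * y' * a, add_mem (mul_mem hx hx') (mul_mem (mul_mem hy hy') ha),
        x * y' + y * x' + y * y' * b, add_mem (add_mem (mul_mem hx hy') (mul_mem hy hx'))
          (mul_mem (mul_mem hy hy') hb), by linear_combination y * y' * h⟩)
    ⟨0, zero_mem _, 1, one_mem _, by simp⟩ hτ
  have h2 := Nat.card_le_card_of_surjective (fun p : F₀ × F₀ => (p.1 : F) + p.2 * τ) fun c => by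
    obtain ⟨x, hx, y, hy, e⟩ := h1 c
    exact ⟨(⟨x, hx⟩, ⟨y, hy⟩), e.symm⟩
  rw [Nat.card_prod, Nat.card_eq_fintype_card, hcard, ← sq] at h2
  have := (Nat.pow_le_pow_iff_right (Finite.one_lt_card (α := F₀))).1 h2
  have := hr.two_le
  omega

/-- A subgroup containing the rational elements of `SU`. -/
structure RatU (F₀ : Subfield F) (e : V ≃ₗ[F] (ι → F)) (M : Subgroup (isomGroup B)) : Prop where
  herm : Herm B
  rat : ∀ u v, IsRat F₀ e u → IsRat F₀ e v → B u v ∈ F₀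
  sig : ∀ a ∈ F₀, σ a ∈ F₀
  nfix : ∃ θ ∈ F₀, σ θ ≠ θ
  mem : ∀ g ∈ sIsom B, (∀ v, IsRat F₀ e v → IsRat F₀ e ((g : V ≃ₗ[F] V) v)) → g ∈ M
  big : 4 ≤ Fintype.card ι

namespace RatU

variable [Fintype F] {F₀ : Subfield F} {e : V ≃ₗ[F] (ι → F)}

theorem res (h : RatU F₀ e M) : ∃ τ : F₀ →+* F₀, τ ≠ RingHom.id F₀ ∧ (∀ a, τ (τ a) = a) ∧
    ∀ a, (τ a : F) = σ a := by
  obtain ⟨θ, h1, h2⟩ := h.nfix
  refine ⟨σ.restrict F₀ F₀ h.sig, fun h' => h2 ?_, fun a => Subtype.ext (h.herm.invol a),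
    fun _ => rfl⟩
  exact congrArg Subtype.val (RingHom.congr_fun h' ⟨θ, h1⟩)

theorem exists_trace (h : RatU F₀ e M) {w : V} (hw : IsRat F₀ e w) :
    ∃ b ∈ F₀, b + σ b = B w w := by
  obtain ⟨τ, h1, h2, h3⟩ := h.res
  obtain ⟨s, hs⟩ := exists_trace_eq h1 h2 (n := ⟨B w w, h.rat _ _ hw hw⟩)
    (Subtype.ext ((h3 _).trans (h.herm.conj _ _)))
  exact ⟨s, s.2, by rw [← h3]; exact congrArg Subtype.val hs⟩

theorem exists_norm (h : RatU F₀ e M) {c : F} (hc : c ∈ F₀) (hc' : σ c = c) :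
    ∃ b ∈ F₀, σ b * b = c := by
  obtain ⟨τ, h1, h2, h3⟩ := h.res
  obtain ⟨s, hs⟩ := exists_norm_eq h1 h2 (μ := ⟨c, hc⟩) (Subtype.ext ((h3 _).trans hc'))
  exact ⟨s, s.2, by rw [← h3]; exact congrArg Subtype.val hs⟩

theorem exists_delta (h : RatU F₀ e M) : ∃ δ ∈ F₀, δ ≠ 0 ∧ δ + σ δ = 0 := by
  obtain ⟨θ, h1, h2⟩ := h.nfix
  exact ⟨θ - σ θ, sub_mem h1 (h.sig _ h1), sub_ne_zero.2 h2.symm, by simp [h.herm.invol]⟩

theorem transv_mem (h : RatU F₀ e M) {a : V} (ha : IsRat F₀ e a) (haa : B a a = 0) {c : F}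
    (hc : c ∈ F₀) (hc' : c + σ c = 0) : h.herm.transv a haa c hc' ∈ M :=
  h.mem _ (h.herm.transv_mem_sIsom ..) fun v hv => by
    rw [h.herm.transv_apply]
    exact hv.add (ha.smul (mul_mem hc (h.rat _ _ ha hv)))

theorem eich_mem (h : RatU F₀ e M) {z w : V} (hz : IsRat F₀ e z) (hw : IsRat F₀ e w)
    (hzz : B z z = 0) (hzw : B z w = 0) {b : F} (hb : b ∈ F₀) (hb' : b + σ b = B w w) :
    h.herm.eich hzz hzw b hb' ∈ M :=
  h.mem _ (h.herm.eich_mem_sIsom ..) fun v hv => by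
    rw [h.herm.eich_apply]
    exact (hv.add (hw.smul (h.rat _ _ hz hv))).sub
      (hz.smul (add_mem (h.rat _ _ hw hv) (mul_mem hb (h.rat _ _ hz hv))))

theorem mem_eichSub (h : RatU F₀ e M) {z w : V} (hz : IsRat F₀ e z) (hw : IsRat F₀ e w)
    (hzz : B z z = 0) (hzw : B z w = 0) : w ∈ h.herm.eichSub M hzz := by
  obtain ⟨b, h1, h2⟩ := h.exists_trace hw
  exact ⟨hzw, b, h2, h.eich_mem hz hw hzz hzw h1 h2⟩

theorem ratF (h : RatU F₀ e M) {l : List V} (hl : ∀ y ∈ l, IsRat F₀ e y) :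
    ∀ φ ∈ l.map B, IsRatF F₀ e φ := by
  simp only [List.forall_mem_map]
  exact fun y hy v hv => h.rat y v (hl y hy) hv

theorem exists_perp (h : RatU F₀ e M) {l : List V} (hl : ∀ y ∈ l, IsRat F₀ e y)
    (hd : l.length < 4) : ∃ w, IsRat F₀ e w ∧ (∀ y ∈ l, B y w = 0) ∧ w ≠ 0 := by
  obtain ⟨w, h1, h2, h3⟩ := exists_rat_ker (h.ratF hl) [] (by have := h.big; simp; omega)
  exact ⟨w, h1, by simpa using h2, ne_zero_of_notMem_spanL h3⟩

theorem exists_perp_ne (h : RatU F₀ e M) {l : List V} (hl : ∀ y ∈ l, IsRat F₀ e y) {x : V}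
    (hx : x ∉ spanL F l) : ∃ w, IsRat F₀ e w ∧ (∀ y ∈ l, B y w = 0) ∧ B x w ≠ 0 := by
  obtain ⟨w, h1, h2⟩ := h.herm.exists_orth_of_notMem hx
  obtain ⟨w, h3, h4, h5⟩ := exists_rat_notMem (h.ratF hl) (w := w) (by
    simpa using fun y hy => h.herm.comm (h1 y (mem_spanL_of_mem hy)))
    (S := LinearMap.ker (B x)) (h.herm.ne_comm h2)
  exact ⟨w, h3, by simpa using h4, h5⟩

theorem exists_iso (h : RatU F₀ e M) {l : List V} (hl : ∀ y ∈ l, IsRat F₀ e y)
    (hd : l.length ≤ 2) : ∃ w, IsRat F₀ e w ∧ B w w = 0 ∧ (∀ y ∈ l, B y w = 0) ∧ w ≠ 0 := by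
  obtain ⟨x, hx, h1, h2⟩ := h.exists_perp hl (by omega)
  by_cases hxx : B x x = 0
  · exact ⟨x, hx, hxx, h1, h2⟩
  obtain ⟨y, hy, h3, h4⟩ := h.exists_perp (l := x :: l) (by simpa [hx] using hl) (by simp; omega)
  have h5 := h3 x (by simp)
  by_cases hyy : B y y = 0
  · exact ⟨y, hy, hyy, fun z hz => h3 z (by simp [hz]), h4⟩
  obtain ⟨t, ht, ht'⟩ := h.exists_norm (c := -B x x / B y y)
    (div_mem (neg_mem (h.rat _ _ hx hx)) (h.rat _ _ hy hy)) (by simp [h.herm.conj])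
  refine ⟨x + t • y, hx.add (hy.smul ht), ?_, fun z hz => by simp [h1 z hz, h3 z (by simp [hz])],
    fun h' => hxx (by simpa [h5] using congrArg (B x) h')⟩
  simp only [map_add, map_smulₛₗ, LinearMap.add_apply, LinearMap.smul_apply, smul_eq_mul,
    RingHom.id_apply, h5, h.herm.comm h5]
  field_simp at ht'
  linear_combination ht'

theorem exists_sub_iso (h : RatU F₀ e M) {p w : V} (hp : IsRat F₀ e p) (hpp : B p p = 0)
    (hw : IsRat F₀ e w) (hpw : B p w ≠ 0) : ∃ b ∈ F₀, B (w - b • p) (w - b • p) = 0 := by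
  obtain ⟨b, hb, hb'⟩ := h.exists_trace hw
  have h1 := h.herm.ne_comm hpw
  refine ⟨b / B w p, div_mem hb (h.rat _ _ hw hp), ?_⟩
  simp only [map_sub, map_smulₛₗ, LinearMap.sub_apply, LinearMap.smul_apply, smul_eq_mul,
    RingHom.id_apply, hpp, map_div₀, h.herm.conj]
  rw [mul_zero, sub_zero, div_mul_cancel₀ _ h1, div_mul_cancel₀ _ hpw]
  linear_combination -hb'

theorem exists_partner (h : RatU F₀ e M) {l : List V} (hl : ∀ y ∈ l, IsRat F₀ e y) {p : V}
    (hp : IsRat F₀ e p) (hpp : B p p = 0) (h1 : ∀ y ∈ l, B y p = 0) (h2 : p ∉ spanL F l) :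
    ∃ f, IsRat F₀ e f ∧ B f f = 0 ∧ B p f = 1 ∧ B f p = 1 ∧ ∀ y ∈ l, B y f = 0 := by
  obtain ⟨w, hw, h3, h4⟩ := h.exists_perp_ne hl h2
  obtain ⟨b, hb, hb'⟩ := h.exists_sub_iso hp hpp hw h4
  have h5 : B p ((B p w)⁻¹ • (w - b • p)) = 1 := by simp [hpp, h4]
  exact ⟨_, (hw.sub (hp.smul hb)).smul (inv_mem (h.rat _ _ hp hw)),
    by simp only [map_smulₛₗ, LinearMap.smul_apply, hb', smul_zero], h5,
    by rw [← h.herm.conj, h5, map_one], fun y hy => by simp [h1 y hy, h3 y hy]⟩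

/-- Rational isotropic vectors span. -/
theorem mem_of_iso (h : RatU F₀ e M) {l : List V} {p f : V} (hp : IsRat F₀ e p)
    (hf : IsRat F₀ e f) (hpp : B p p = 0) (hff : B f f = 0) (hpf : B p f = 1)
    (h1 : ∀ y ∈ l, B y p = 0) (h2 : ∀ y ∈ l, B y f = 0) {P : V → Prop}
    (hsub : ∀ x y, P x → P y → P (x - y)) (hP' : ∀ t ∈ F₀, P (t • p))
    (hP : ∀ a, IsRat F₀ e a → B a a = 0 → (∀ y ∈ l, B y a = 0) → B p a ≠ 0 → P a) {w : V}
    (hw : IsRat F₀ e w) (hw' : ∀ y ∈ l, B y w = 0) : P w := by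
  have key : ∀ w, IsRat F₀ e w → (∀ y ∈ l, B y w = 0) → B p w ≠ 0 → P w := fun w hw hw' hpw => by
    obtain ⟨b, hb, hb'⟩ := h.exists_sub_iso hp hpp hw hpw
    simpa using hsub _ _ (hP _ (hw.sub (hp.smul hb)) hb' (fun y hy => by simp [hw' y hy, h1 y hy])
      (by simpa [hpp] using hpw)) (hP' _ (neg_mem hb))
  by_cases hpw : B p w = 0
  · simpa using hsub _ _ (key _ (hw.add hf) (fun y hy => by simp [hw' y hy, h2 y hy])
      (by simp [hpw, hpf])) (hP f hf hff h2 (by simp [hpf]))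
  · exact key w hw hw' hpw

theorem isRat_of_forall (h : RatU F₀ e M) {y : V} (hy : ∀ x, IsRat F₀ e x → B x y ∈ F₀) :
    IsRat F₀ e y := by
  obtain ⟨π, hπ⟩ := LinearMap.exists_leftInverse_of_injective (Algebra.linearMap F₀ F)
    (LinearMap.ker_eq_bot.2 (algebraMap F₀ F).injective)
  have hπ' : ∀ a ∈ F₀, (π a : F) = a := fun a ha =>
    congrArg Subtype.val (LinearMap.congr_fun hπ ⟨a, ha⟩)
  have h0 : IsRat F₀ e (e.symm fun i => (π (e y i) : F)) := fun i => by simp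
  have : y - e.symm (fun i => (π (e y i) : F)) = 0 := by
    refine h.herm.sep _ fun x => ?_
    rw [apply_eq_sum_ratB e]
    refine Finset.sum_eq_zero fun j _ => mul_eq_zero_of_right _ (h.herm.comm ?_)
    rw [map_sub, sub_eq_zero, ← hπ' _ (hy _ (isRat_ratB j))]
    have h1 := apply_eq_sum_ratB e (B (ratB e j))
    rw [h1, h1 (e.symm _), map_sum, AddSubmonoidClass.coe_finsetSum]
    refine Finset.sum_congr rfl fun i _ => ?_
    have : e y i * B (ratB e j) (ratB e i) = (⟨B (ratB e j) (ratB e i),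
      h.rat _ _ (isRat_ratB j) (isRat_ratB i)⟩ : F₀) • e y i := mul_comm _ _
    rw [this, map_smul]
    simp [mul_comm]
  exact sub_eq_zero.1 this ▸ h0

/-- Two orthogonal rational hyperbolic pairs. -/
structure Fr (B : V →ₛₗ[σ] V →ₗ[F] F) (F₀ : Subfield F) (e : V ≃ₗ[F] (ι → F)) (b f a a' : V) :
    Prop where
  rb : IsRat F₀ e b
  rf : IsRat F₀ e f
  ra : IsRat F₀ e a
  ra' : IsRat F₀ e a'
  bb : B b b = 0
  bf : B b f = 1
  ba : B b a = 0
  ba' : B b a' = 0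
  fb : B f b = 1
  ff : B f f = 0
  fa : B f a = 0
  fa' : B f a' = 0
  ab : B a b = 0
  af : B a f = 0
  aa : B a a = 0
  aa' : B a a' = 1
  a'b : B a' b = 0
  a'f : B a' f = 0
  a'a : B a' a = 1
  a'a' : B a' a' = 0

theorem exists_fr (h : RatU F₀ e M) {b a : V} (hb : IsRat F₀ e b) (ha : IsRat F₀ e a)
    (hb0 : b ≠ 0) (hbb : B b b = 0) (haa : B a a = 0) (hba : B b a = 0) (hs : a ∉ spanL F [b]) :
    ∃ f a', Fr B F₀ e b f a a' := by
  have H := h.herm
  obtain ⟨f, h1, h2, h3, h4, h5⟩ := h.exists_partner (l := [a]) (by simpa using ha) hb hbb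
    (by simpa using H.comm hba) (notMem_spanL_singleton_symm hs hb0)
  replace h5 := h5 a (by simp)
  obtain ⟨a', k1, k2, k3, k4, k5⟩ := h.exists_partner (l := [b, f]) (by simp [hb, h1]) ha haa
    (by simp [hba, H.comm h5]) (fun hm => hs (by
      obtain ⟨s, t, rfl⟩ := mem_spanL_pair.1 hm
      have : t = 0 := by simpa [hbb, h3] using hba
      exact mem_spanL_singleton.2 ⟨s, by simp [this]⟩))
  exact ⟨f, a', hb, h1, ha, k1, hbb, h3, hba, k5 b (by simp), h4, h2, H.comm h5, k5 f (by simp),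
    H.comm hba, h5, haa, k3, H.comm (k5 b (by simp)), H.comm (k5 f (by simp)), k4, k2⟩

theorem exists_fr' (h : RatU F₀ e M) {b : V} (hb : IsRat F₀ e b) (hb0 : b ≠ 0) (hbb : B b b = 0) :
    ∃ f a a', Fr B F₀ e b f a a' := by
  obtain ⟨f, h1, h2, h3, h4, -⟩ := h.exists_partner (l := []) (by simp) hb hbb (by simp)
    (by simpa [spanL] using hb0)
  obtain ⟨a, k1, k2, k3, k4⟩ := h.exists_iso (l := [b, f]) (by simp [hb, h1]) (by simp)
  obtain ⟨f', a', hf⟩ := h.exists_fr hb k1 hb0 hbb k2 (k3 b (by simp)) fun hm => k4 (by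
    obtain ⟨s, rfl⟩ := mem_spanL_singleton.1 hm
    have : s = 0 := by simpa [h4] using k3 f (by simp)
    simp [this])
  exact ⟨f', a, a', hf⟩

theorem hypDiag_rat (h : RatU F₀ e M) {a f : V} (ha : IsRat F₀ e a) (hf : IsRat F₀ e f)
    (haa : B a a = 0) (hff : B f f = 0) (haf : B a f = 1) {l m : F} (hl : l ∈ F₀) (hm : m ∈ F₀)
    (hlm : σ l * m = 1) {v : V} (hv : IsRat F₀ e v) :
    IsRat F₀ e ((h.herm.hypDiag haa hff haf l m hlm : V ≃ₗ[F] V) v) := by
  rw [h.herm.hypDiag_apply]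
  exact (hv.add (ha.smul (mul_mem (sub_mem hl (one_mem _)) (h.rat _ _ hf hv)))).add
    (hf.smul (mul_mem (sub_mem hm (one_mem _)) (h.rat _ _ ha hv)))

theorem smul_mem (h : RatU F₀ e M) {b a : V} (hb : IsRat F₀ e b) (ha : IsRat F₀ e a)
    (hb0 : b ≠ 0) {hbb : B b b = 0} (haa : B a a = 0) (hba : B b a = 0) {c : F}
    (hc : c • a ∈ h.herm.eichSub M hbb) {t : F} (ht : t ∈ F₀) :
    (t * c) • a ∈ h.herm.eichSub M hbb := by
  have H := h.herm
  by_cases hs : a ∈ spanL F [b]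
  · obtain ⟨s, rfl⟩ := mem_spanL_singleton.1 hs
    rw [smul_smul]
    exact H.smul_self_mem_eichSub ..
  obtain ⟨f, a', k⟩ := h.exists_fr hb ha hb0 hbb haa hba hs
  let A : AddSubgroup F := (H.eichSub M hbb).comap (LinearMap.toSpanSingleton F V a).toAddMonoidHom
  refine mem_of_forall_sq (F := F₀) (A := A) (y := c) (fun l => ?_) ⟨t, ht⟩
  obtain ⟨l, hlF⟩ := l
  change (l * l * c) • a ∈ H.eichSub M hbb
  by_cases hl : l = 0
  · simp [hl]
  have hl' : σ l ≠ 0 := by simpa using hl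
  have e1 : σ (σ l) * l⁻¹ = 1 := by rw [H.invol, mul_inv_cancel₀ hl]
  have e2 : σ l * (σ l)⁻¹ = 1 := mul_inv_cancel₀ hl'
  have hk := h.mem (H.hypDiag hbb k.ff k.bf _ _ e1 * H.hypDiag haa k.a'a' k.aa' _ _ e2) (by
      rw [mem_sIsom', Subgroup.coe_mul, map_mul, Units.val_mul, H.det_hypDiag, H.det_hypDiag]
      field_simp)
    fun v hv => h.hypDiag_rat hb k.rf hbb k.ff k.bf (h.sig _ hlF) (inv_mem hlF) e1
      (h.hypDiag_rat ha k.ra' haa k.a'a' k.aa' hlF (inv_mem (h.sig _ hlF)) e2 hv)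
  have hz' : B (σ l • b) (σ l • b) = 0 := by simp [hbb]
  have := (H.smul_mem_eichSub_iff hl' (hz := hbb)).2 (H.apply_mem_eichSub hk (hz := hbb)
    (hz' := hz') (by simp [H.hypDiag_apply, k.a'b, k.ab, k.fb, hbb, sub_smul]) hc)
  convert this using 1
  simp only [isom_mul_apply, H.hypDiag_apply, map_add, map_smul, k.a'a, k.aa, k.fa, k.ba, k.fa',
    k.ba', H.invol, smul_eq_mul]
  module

theorem smul_mem_of_mem (h : RatU F₀ e M) {b a w : V} (hb : IsRat F₀ e b) (ha : IsRat F₀ e a)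
    (hb0 : b ≠ 0) {hbb : B b b = 0} (haa : B a a = 0) (hba : B b a = 0)
    (hw : w ∈ h.herm.eichSub M hbb) : B a w • a ∈ h.herm.eichSub M hbb := by
  have H := h.herm
  obtain ⟨δ, h1, h2, h3⟩ := h.exists_delta
  have k3 := H.apply_mem_eichSub (h.transv_mem ha haa h1 h3) (hz' := hbb)
    (by simp [H.transv_apply, H.comm hba]) hw
  rw [H.transv_apply, (H.eichSub M hbb).add_mem_cancel_left hw] at k3
  simpa [h2] using h.smul_mem hb ha hb0 haa hba k3 (inv_mem h1)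

theorem swap_mem (h : RatU F₀ e M) {b a a' : V} (hb : IsRat F₀ e b) (ha : IsRat F₀ e a)
    (ha' : IsRat F₀ e a') (hb0 : b ≠ 0) {hbb : B b b = 0} (haa : B a' a' = 0) (hba : B b a' = 0)
    (h0 : B a' a ≠ 0) {c : F} (hc : c • a ∈ h.herm.eichSub M hbb) :
    c • a' ∈ h.herm.eichSub M hbb := by
  have := h.smul_mem hb ha' hb0 haa hba (h.smul_mem_of_mem hb ha' hb0 haa hba hc)
    (inv_mem (h.rat _ _ ha' ha))
  rwa [map_smul, smul_eq_mul, mul_comm c, inv_mul_cancel_left₀ h0] at this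

theorem le_of_forall (h : RatU F₀ e M) {b f a a' : V} (k : Fr B F₀ e b f a a')
    (hs : ∀ c : F, c • a ∈ h.herm.eichSub M k.bb) : sIsom B ≤ M := by
  have H := h.herm
  have hn : 4 ≤ finrank F V := by rw [finrank_eq_card_of_equiv e]; exact h.big
  have hb0 : b ≠ 0 := by rintro rfl; simpa using k.bf
  obtain ⟨δ, h1, h2, h3⟩ := h.exists_delta
  refine H.sIsom_le_of_full_of_transv hn (H.full_of_forall (by omega) k.bb fun w hw => ?_)
    k.ff (by simp [k.bf]) h2 h3 (h.transv_mem k.rf k.ff h1 h3)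
  let T : Submodule F V :=
    { carrier := {w | ∀ c : F, c • w ∈ H.eichSub M k.bb}
      add_mem' := fun hx hy c => by rw [smul_add]; exact add_mem (hx c) (hy c)
      zero_mem' := fun c => by rw [smul_zero]; exact zero_mem _
      smul_mem' := fun d x hx c => by rw [smul_smul]; exact hx _ }
  have : w ∈ T := by
    by_contra hc
    obtain ⟨w, h4, h5, h6⟩ := exists_rat_notMem (h.ratF (l := [b]) (by simpa using k.rb)) (w := w)
      (by simpa using hw) hc
    refine h6 (h.mem_of_iso (l := [b]) k.ra k.ra' k.aa k.a'a' k.aa' (by simpa using k.ba)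
      (by simpa using k.ba') (P := (· ∈ T)) (fun _ _ => T.sub_mem) (fun t _ => T.smul_mem _ hs)
      (fun x hx hxx hbx hax c => ?_) h4 (by simpa using h5))
    exact h.swap_mem k.rb k.ra hx hb0 hxx (hbx b (by simp)) (H.ne_comm hax) (hs c)
  exact ⟨0, by simpa using this 1⟩

variable {r : ℕ}

theorem mem_of_smul_mem (h : RatU F₀ e M) (hr : r.Prime)
    (hcard : Fintype.card F = Nat.card F₀ ^ r) (hne : ¬ sIsom B ≤ M) {b a : V}
    (hb : IsRat F₀ e b) (ha : IsRat F₀ e a) (hb0 : b ≠ 0) {hbb : B b b = 0} (haa : B a a = 0)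
    (hba : B b a = 0) (hs : a ∉ spanL F [b]) {c : F} (hc : c • a ∈ h.herm.eichSub M hbb) :
    c ∈ F₀ := by
  have H := h.herm
  obtain ⟨f, a', k⟩ := h.exists_fr hb ha hb0 hbb haa hba hs
  have sw : ∀ c : F, c • a ∈ H.eichSub M hbb → c • a' ∈ H.eichSub M hbb := fun c hc =>
    h.swap_mem hb ha k.ra' hb0 k.a'a' k.ba' (by simp [k.a'a]) hc
  have h1 : ∀ x : F, (∀ c : F, c • a ∈ H.eichSub M hbb → (x * c) • a ∈ H.eichSub M hbb) →
      x ∈ F₀ := fun x hx => by_contra fun hx' => hne (h.le_of_forall k fun d => by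
    simpa using forall_of_prime_index hr hcard
      (p := fun x => ∀ c : F, c • a ∈ H.eichSub M hbb → (x * c) • a ∈ H.eichSub M hbb)
      (fun t ht c hc => h.smul_mem hb ha hb0 haa hba hc ht)
      (fun s t hs ht c hc => by rw [add_mul, add_smul]; exact add_mem (hs c hc) (ht c hc))
      (fun s t hs ht c hc => by rw [mul_assoc]; exact hs _ (ht c hc)) hx hx' d 1
      (by simpa using h.mem_eichSub hb ha hbb hba))
  have hg := M.mul_mem (h.eich_mem k.ra' hb.neg k.a'a' (by simp [k.a'b]) (zero_mem _)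
    (by simp [hbb])) (h.eich_mem k.rf ha k.ff k.fa (zero_mem _) (by simp [haa]))
  have h2 : ∀ d ∈ F₀, σ d * c - σ c * d ∈ F₀ := fun d hd => h1 _ fun x hx => by
    have hα : σ d * c - σ c * d + σ (σ d * c - σ c * d) = 0 := by
      simp only [map_sub, map_mul, H.invol]; ring
    have k1 := H.transv_mem_of_eichSub hc (sw d (h.mem_eichSub hb (ha.smul hd) hbb
      (by simp [hba]))) (c := σ d * c - σ c * d) (by
        simp only [map_smulₛₗ, LinearMap.smul_apply, k.aa', k.a'a, smul_eq_mul, RingHom.id_apply]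
        ring) hα
    have k2 := M.mul_mem (M.mul_mem hg k1) (M.inv_mem hg)
    rw [H.conj_transv _ b hbb _ hα (by rw [isom_apply, hbb])] at k2
    have k3 := H.apply_mem_eichSub k2 (hz' := hbb) (by
      simp [H.transv_apply, H.eich_apply, k.fb, k.ab, k.a'b, k.a'a, hbb, hba]) (sw x hx)
    rw [H.transv_apply, (H.eichSub M hbb).add_mem_cancel_left (sw x hx)] at k3
    simpa [H.eich_apply, k.fb, k.ab, k.a'b, k.a'a, hbb, hba, k.aa'] using k3
  obtain ⟨θ, t1, t2⟩ := h.nfix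
  have h3 := div_mem (sub_mem (h2 θ t1) (mul_mem t1 (h2 1 (one_mem _))))
    (sub_mem (h.sig _ t1) t1)
  have h4 := sub_ne_zero.2 t2
  convert h3 using 1
  rw [map_one]
  field_simp
  ring

theorem eich_rat (h : RatU F₀ e M) (hr : r.Prime) (hcard : Fintype.card F = Nat.card F₀ ^ r)
    (hne : ¬ sIsom B ≤ M) {b w : V} (hb : IsRat F₀ e b) (hb0 : b ≠ 0) {hbb : B b b = 0}
    (hw : w ∈ h.herm.eichSub M hbb) : ∃ t : F, IsRat F₀ e (w - t • b) := by
  have H := h.herm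
  obtain ⟨f, a, a', k⟩ := h.exists_fr' hb hb0 hbb
  have h1 : ∀ x, IsRat F₀ e x → B x x = 0 → B b x = 0 → B x w ∈ F₀ := fun x hx hxx hbx => by
    by_cases hs : x ∈ spanL F [b]
    · obtain ⟨s, rfl⟩ := mem_spanL_singleton.1 hs
      simp [map_smulₛₗ, hw.1]
    · exact h.mem_of_smul_mem hr hcard hne hb hx hb0 hxx hbx hs
        (h.smul_mem_of_mem hb hx hb0 hxx hbx hw)
  refine ⟨B f w, h.isRat_of_forall fun x hx => ?_⟩
  have h2 := h.mem_of_iso (l := [b]) k.ra k.ra' k.aa k.a'a' k.aa' (by simpa using k.ba)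
    (by simpa using k.ba') (P := fun x => B x w ∈ F₀)
    (fun x y hx hy => by simpa using sub_mem hx hy)
    (fun t ht => h1 _ (k.ra.smul ht) (by simp [map_smulₛₗ, k.aa]) (by simp [k.ba]))
    (fun x hx hxx hbx _ => h1 x hx hxx (hbx b (by simp)))
    (hx.sub (k.rf.smul (h.rat _ _ hb hx))) (by simp [k.bf])
  convert h2 using 1
  simp [map_smulₛₗ, H.conj, mul_comm]

theorem easy (h : RatU F₀ e M) (hr : r.Prime)
    (hcard : Fintype.card F = Nat.card F₀ ^ r) (hne : ¬ sIsom B ≤ M) {u b : V} {c : F}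
    {huu : B u u = 0} {hc : c + σ c = 0} (hu : h.herm.transv u huu c hc ∈ M) (hc0 : c ≠ 0)
    (hb : IsRat F₀ e b) (hb0 : b ≠ 0) (hbb : B b b = 0) (hub : B u b = 0) :
    ∃ μ : F, μ ≠ 0 ∧ IsRat F₀ e (μ • u) := by
  have H := h.herm
  by_cases hs : u ∈ spanL F [b]
  · obtain ⟨t, rfl⟩ := mem_spanL_singleton.1 hs
    by_cases ht : t = 0
    · exact ⟨1, one_ne_zero, by simpa [ht] using IsRat.zero⟩
    · exact ⟨t⁻¹, inv_ne_zero ht, by simpa [ht] using hb⟩
  obtain ⟨w, hw, hbw, huw⟩ := h.exists_perp_ne (l := [b]) (by simpa using hb) hs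
  replace hbw := hbw b (by simp)
  have k1 := h.mem_eichSub hb hw hbb hbw
  have k2 := H.apply_mem_eichSub hu (hz' := hbb) (by simp [H.transv_apply, hub]) k1
  rw [H.transv_apply, (H.eichSub M hbb).add_mem_cancel_left k1] at k2
  obtain ⟨t, ht⟩ := h.eich_rat hr hcard hne hb hb0 k2
  have hμ := mul_ne_zero hc0 huw
  refine ⟨_, hμ, ?_⟩
  have hσμ : σ (c * B u w) ≠ 0 := (map_ne_zero σ).2 hμ
  have e1 : c / (σ (c * B u w) * (c * B u w)) * B ((c * B u w) • u) w = 1 := by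
    rw [map_smulₛₗ, LinearMap.smul_apply, smul_eq_mul]
    field_simp
  have e2 : B b ((c * B u w) • u) = 0 := by simp [H.comm hub]
  have e3 : B ((c * B u w) • u) ((c * B u w) • u) = 0 := by simp [map_smulₛₗ, huu]
  have e4 : c / (σ (c * B u w) * (c * B u w)) + σ (c / (σ (c * B u w) * (c * B u w))) = 0 := by
    rw [map_div₀, map_mul σ (σ _), H.invol, mul_comm (c * B u w), ← add_div, hc, zero_div]
  have e5 : H.transv _ e3 _ e4 ∈ M := by
    convert hu using 1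
    refine isom_ext fun x => ?_
    simp only [H.transv_apply, map_smulₛₗ, LinearMap.smul_apply, smul_eq_mul]
    generalize c * B u w = μ at hμ hσμ
    match_scalars <;> field_simp
  have e6 : (c * B u w) • u ∉ spanL F [b] := by rwa [Submodule.smul_mem_iff _ hμ]
  generalize c / (σ (c * B u w) * (c * B u w)) = d at e1 e4 e5
  generalize (c * B u w) • u = v at ht e1 e2 e3 e5 e6
  obtain ⟨a, rfl⟩ : ∃ a, v = a + t • b := ⟨v - t • b, by simp⟩
  rw [add_sub_cancel_right] at ht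
  have f1 : B b a = 0 := by simpa [hbb] using e2
  have f2 : B a a = 0 := by simpa [map_smulₛₗ, hbb, f1, H.comm f1] using e3
  have f3 : d * B a w = 1 := by simpa [map_smulₛₗ, hbw] using e1
  have f4 : d ∈ F₀ := by
    rw [eq_inv_of_mul_eq_one_left f3]
    exact inv_mem (h.rat _ _ ht hw)
  have f5 : σ d = -d := by linear_combination e4
  have f6 : d ≠ 0 := left_ne_zero_of_mul_eq_one f3
  have f7 := M.mul_mem e5 (h.transv_mem ht f2 (neg_mem f4) (by simp [f5]))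
  have f8 := h.mem_of_smul_mem hr hcard hne hb ht hb0 (hbb := hbb) f2 f1 (fun hm => e6
    (add_mem hm (Submodule.smul_mem _ _ (mem_spanL_of_mem (by simp))))) (c := d * σ t)
    ⟨by simp [f1], -d * (σ t * t), by simp [map_smulₛₗ, f2, f5, H.invol, mul_comm], by
      convert f7 using 1
      refine isom_ext fun x => ?_
      simp only [isom_mul_apply, H.transv_apply, H.eich_apply, map_add, map_smulₛₗ,
        LinearMap.add_apply, LinearMap.smul_apply, smul_eq_mul, RingHom.id_apply, f1, f2, f5,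
        map_mul, H.invol]
      module⟩
  have f9 := h.sig _ (mul_mem (inv_mem f4) f8)
  rw [inv_mul_cancel_left₀ f6, H.invol] at f9
  exact ht.add (hb.smul f9)

theorem exists_norm_ne (h : RatU F₀ e M) {x y : F} (hxy : ∀ s ∈ F₀, ∀ t ∈ F₀, s * x + t * y = 0 →
    s = 0 ∧ t = 0) : ∃ s ∈ F₀, ∃ t ∈ F₀, ¬ (s = 0 ∧ t = 0) ∧
      σ (s * x + t * y) * (s * x + t * y) ≠ σ x * x := by
  by_contra! hc
  obtain ⟨θ, h1, h2⟩ := h.nfix
  have h3 : θ ≠ 0 := by rintro rfl; simp at h2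
  have h4 : 1 + θ ≠ 0 := fun h' => h2 (by rw [show θ = -1 by linear_combination h']; simp)
  have a1 := hc 0 (zero_mem _) 1 (one_mem _) (by simp)
  have a2 := hc 0 (zero_mem _) θ h1 (by simp [h3])
  have a3 := hc 0 (zero_mem _) (1 + θ) (add_mem (one_mem _) h1) (by simp [h4])
  have a4 := hc 1 (one_mem _) 1 (one_mem _) (by simp)
  have a5 := hc 1 (one_mem _) θ h1 (by simp)
  have a6 := hc 1 (one_mem _) (1 + θ) (add_mem (one_mem _) h1) (by simp)
  simp only [map_add, map_mul, map_one, zero_mul, zero_add, one_mul] at a1 a2 a3 a4 a5 a6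
  have : σ x * x = 0 := by linear_combination a4 - a1 + a5 - a2 - a6 + a3
  have hx : x = 0 := by simpa using this
  exact one_ne_zero (hxy 1 (one_mem _) 0 (zero_mem _) (by simp [hx])).1

theorem exists_smul_isRat (h : RatU F₀ e M) (hr : r.Prime) (hr2 : r ≠ 2)
    (hcard : Fintype.card F = Nat.card F₀ ^ r) (hne : ¬ sIsom B ≤ M) {u : V} {c : F}
    {huu : B u u = 0} {hc : c + σ c = 0} (hu : h.herm.transv u huu c hc ∈ M) (hc0 : c ≠ 0) :
    ∃ μ : F, μ ≠ 0 ∧ IsRat F₀ e (μ • u) := by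
  have H := h.herm
  by_cases hard : ∃ b, IsRat F₀ e b ∧ b ≠ 0 ∧ B b b = 0 ∧ B u b = 0
  · obtain ⟨b, hb, hb0, hbb, hub⟩ := hard
    exact h.easy hr hcard hne hu hc0 hb hb0 hbb hub
  exfalso
  push Not at hard
  obtain ⟨δ, d1, d2, d3⟩ := h.exists_delta
  obtain ⟨a₁, h1, i1, -, n1⟩ := h.exists_iso (l := []) (by simp) (by simp)
  obtain ⟨f₁, a₂, f₂, k⟩ := h.exists_fr' h1 n1 i1
  have h2 := k.ra
  have s2 : a₂ ∉ spanL F [a₁] := fun hm => by
    obtain ⟨s, hs⟩ := mem_spanL_singleton.1 hm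
    simpa [k.a'a, k.a'b] using congrArg (B f₂) hs
  set I := spanL F [a₁, a₂] with hI
  have m1 : a₁ ∈ I := mem_spanL_of_mem (by simp)
  have m2 : a₂ ∈ I := mem_spanL_of_mem (by simp)
  have hiso : ∀ x ∈ I, ∀ y ∈ I, B x y = 0 := fun x hx y hy => by
    obtain ⟨s, t, rfl⟩ := mem_spanL_pair.1 hx
    obtain ⟨s', t', rfl⟩ := mem_spanL_pair.1 hy
    simp [map_smulₛₗ, k.bb, k.ba, k.ab, k.aa]
  have u1 := hard _ h1 n1 i1
  have u0 : ∀ s ∈ F₀, ∀ t ∈ F₀, s * B u a₁ + t * B u a₂ = 0 → s = 0 ∧ t = 0 := by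
    intro s hs t ht h'
    have hm := I.add_mem (I.smul_mem s m1) (I.smul_mem t m2)
    have h0 : s • a₁ + t • a₂ = 0 := by_contra fun h0 =>
      hard _ ((h1.smul hs).add (h2.smul ht)) h0 (hiso _ hm _ hm) (by simpa using h')
    exact ⟨by simpa [k.fb, k.fa] using congrArg (B f₁) h0,
      by simpa [k.a'a, k.a'b] using congrArg (B f₂) h0⟩
  have u12 : B u a₂ / B u a₁ ∉ F₀ := fun ht =>
    one_ne_zero (u0 _ (neg_mem ht) 1 (one_mem _) (by field_simp; ring)).2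
  set R := I ⊓ LinearMap.ker (B u) with hR
  have hRI : ∀ a ∈ I, a - (B u a / B u a₁) • a₁ ∈ R := fun a ha =>
    ⟨I.sub_mem ha (I.smul_mem _ m1), by simp [u1]⟩
  set N := Class.fixSub (M.map (isomGroup B).subtype) R with hN
  have hfix : ∀ y ∈ N, ∀ x ∈ R, y x ∈ R := fun y hy x hx => (hy.2 x hx).symm ▸ hx
  have hU : ∀ a ∈ I, IsRat F₀ e a →
      slU (δ * (σ (B u a) * B u a) / B u a₁) ∈ planeAct _ R hfix a₁ u := by
    intro a ha har
    refine ⟨_, ⟨⟨_, h.transv_mem har (hiso _ ha _ ha) d1 d3, rfl⟩, fun x hx => by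
      simp [H.transv_apply, hiso _ ha _ hx.1]⟩, by simp [H.transv_apply, hiso _ ha _ m1], ?_⟩
    convert R.smul_mem (δ * B a u) (hRI a ha) using 1
    simp only [Subgroup.coe_subtype, H.transv_apply, coe_slU, Matrix.of_apply, Matrix.cons_val',
      Matrix.cons_val_zero, Matrix.cons_val_one, Matrix.cons_val_fin_one, H.conj]
    module
  have hV : slV (c * B u a₁) ∈ planeAct _ R hfix a₁ u :=
    ⟨_, ⟨⟨_, hu, rfl⟩, fun x hx => by simp [H.transv_apply, show B u x = 0 from hx.2]⟩,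
      by simp [H.transv_apply], by simp [H.transv_apply, huu]⟩
  obtain ⟨s, hs, t, ht, hst, hst'⟩ := h.exists_norm_ne u0
  have hz : s * B u a₁ + t * B u a₂ ≠ 0 := fun h' => hst (u0 s hs t ht h')
  refine mul_ne_zero hc0 u1 (sl2_fix_of_unipotent _ ?_
    (div_ne_zero (mul_ne_zero d2 (mul_ne_zero ((map_ne_zero σ).2 u1) u1)) u1)
    (div_ne_zero (mul_ne_zero d2 (mul_ne_zero ((map_ne_zero σ).2 hz) hz)) u1) (fun h' => ?_)
    (hU _ m1 h1) (by
      have := hU _ (I.add_mem (I.smul_mem s m1) (I.smul_mem t m2)) ((h1.smul hs).add (h2.smul ht))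
      rwa [map_add (B u), map_smul, map_smul] at this) hV)
  swap
  · rw [div_left_inj' u1, mul_right_inj' d2] at h'
    exact hst' h'.symm
  rintro A ⟨_, ⟨⟨y, hy, rfl⟩, hyR⟩, e1, -⟩ hA0
  rw [Subgroup.coe_subtype] at e1 hyR
  rw [hA0, zero_smul, add_zero] at e1
  have hy1 : (y : V ≃ₗ[F] V) a₁ ∈ I := (I.sub_mem_iff_left (I.smul_mem _ m1)).1 e1.1
  have hya : ∀ a ∈ I, (y : V ≃ₗ[F] V) a = a + (B u a / B u a₁) • ((y : V ≃ₗ[F] V) a₁ - a₁) :=
    fun a ha => by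
      have := hyR _ (hRI a ha)
      rw [map_sub, map_smul, sub_eq_iff_eq_add] at this
      rw [this]
      module
  have hrat : ∀ a ∈ I, IsRat F₀ e a → ∃ μ : F, μ ≠ 0 ∧ IsRat F₀ e (μ • (y : V ≃ₗ[F] V) a) :=
    fun a ha har => by
      have := M.mul_mem (M.mul_mem hy (h.transv_mem har (hiso _ ha _ ha) d1 d3)) (M.inv_mem hy)
      rw [H.conj_transv y a _ δ d3 (by rw [isom_apply, hiso _ ha _ ha])] at this
      refine h.easy hr hcard hne this d2 h1 n1 i1 (hiso _ ?_ _ m1)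
      rw [hya a ha]
      exact I.add_mem ha (I.smul_mem _ (I.sub_mem hy1 m1))
  generalize (y : V ≃ₗ[F] V) = y at e1 hy1 hya hrat
  obtain ⟨μ, hμ0, hμ⟩ := hrat _ m1 h1
  have hμ' : IsRat F₀ e (μ • y a₂) := by
    obtain ⟨d, hd0, hd⟩ := hrat _ m2 h2
    obtain ⟨d', hd0', hd'⟩ := hrat _ (I.add_mem m1 m2) (h1.add h2)
    rw [map_add] at hd'
    refine isRat_smul_of_pair (y.map_ne_zero_iff.2 n1) (fun h' => s2 ?_) hμ0 hd0 hd0' hμ hd hd'
    obtain ⟨t, ht⟩ := mem_spanL_singleton.1 h'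
    exact mem_spanL_singleton.2 ⟨t, y.injective (by rw [map_smul, ht])⟩
  have hv : y a₁ = a₁ := by
    obtain ⟨α, β, hαβ⟩ := mem_spanL_pair.1 hy1
    rw [hya _ m2] at hμ'
    rw [← hαβ] at hμ hμ' ⊢
    have p1 := h.rat _ _ k.rf hμ
    have p2 := h.rat _ _ k.ra' hμ
    have p3 := h.rat _ _ k.rf hμ'
    have p4 := h.rat _ _ k.ra' hμ'
    simp only [map_add, map_sub, map_smul, k.fb, k.fa, k.a'b, k.a'a, smul_eq_mul, mul_one,
      mul_zero, add_zero, zero_add, sub_zero] at p1 p2 p3 p4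
    generalize B u a₂ / B u a₁ = τ at u12 p3 p4
    have hβ : β = 0 := by_contra fun hβ => not_quadratic hr hr2 hcard u12 (div_mem p3 p2)
      (div_mem (sub_mem p4 p1) p2) (by field_simp; ring)
    rw [hβ, mul_zero, add_zero, mul_one] at p4
    have hα : α = 1 := by_contra fun hα => u12 (by
      have h3 := sub_ne_zero.2 hα
      convert div_mem p3 (sub_mem p1 p4) using 1
      rw [← mul_sub_one]
      field_simp)
    simp [hα, hβ]
  have k : B u (y a₁ - A 0 0 • a₁) = 0 := e1.2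
  rw [hv, map_sub, map_smul, smul_eq_mul, sub_eq_zero, eq_comm, mul_eq_right₀ u1] at k
  exact k

theorem mem_ratG_of_iso (h : RatU F₀ e M) {g : V ≃ₗ[F] V}
    (hg : ∀ v, IsRat F₀ e v → B v v = 0 → ∃ c : F, c ≠ 0 ∧ IsRat F₀ e (c • g v)) :
    g ∈ ratG F₀ e := by
  have key : ∀ a b, IsRat F₀ e a → IsRat F₀ e b → B a a = 0 → B b b = 0 → B a b = 0 → a ≠ 0 →
      b ∉ spanL F [a] → ∀ μ : F, μ ≠ 0 → IsRat F₀ e (μ • g a) → IsRat F₀ e (μ • g b) := by
    intro a b ha hb haa hbb hab ha0 hs μ hμ0 hμ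
    obtain ⟨d, hd0, hd⟩ := hg _ hb hbb
    obtain ⟨d', hd0', hd'⟩ := hg _ (ha.add hb) (by simp [haa, hbb, hab, h.herm.comm hab])
    rw [map_add] at hd'
    refine isRat_smul_of_pair (g.map_ne_zero_iff.2 ha0) (fun h' => hs ?_) hμ0 hd0 hd0' hμ hd hd'
    obtain ⟨t, ht⟩ := mem_spanL_singleton.1 h'
    exact mem_spanL_singleton.2 ⟨t, g.injective (by rw [map_smul, ht])⟩
  obtain ⟨a, ha, haa, -, ha0⟩ := h.exists_iso (l := []) (by simp) (by simp)
  obtain ⟨f, hf, hff, haf, -⟩ := h.exists_partner (l := []) (by simp) ha haa (by simp)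
    (by simpa [spanL] using ha0)
  obtain ⟨μ, hμ0, hμ⟩ := hg a ha haa
  refine ⟨μ, hμ0, fun v hv => h.mem_of_iso (l := []) ha hf haa hff haf (by simp) (by simp)
    (P := fun v => IsRat F₀ e (μ • g v)) (fun x y hx hy => by simpa [smul_sub] using hx.sub hy)
    (fun t ht => by simpa [smul_comm μ t] using hμ.smul ht) (fun b hb hbb _ hab => ?_) hv (by simp)⟩
  obtain ⟨w, hw, hww, h1, h2⟩ := h.exists_iso (l := [a, b]) (by simp [ha, hb]) (by simp)
  have h3 := h1 a (by simp)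
  have h4 := h1 b (by simp)
  refine key w b hw hb hww hbb (h.herm.comm h4) h2 (fun hm => hab ?_) μ hμ0
    (key a w ha hw haa hww h3 ha0 (fun hm => h2 ?_) μ hμ0 hμ)
  · obtain ⟨s, rfl⟩ := mem_spanL_singleton.1 hm
    simp [h3]
  · obtain ⟨s, rfl⟩ := mem_spanL_singleton.1 hm
    have : s = 0 := by simpa [h.herm.ne_comm hab] using h4
    simp [this]

end RatU

theorem maxS_ratG' [Fintype F] {F₀ : Subfield F} {e : V ≃ₗ[F] (ι → F)} (H : Herm B)
    (hrat : ∀ u v, IsRat F₀ e u → IsRat F₀ e v → B u v ∈ F₀) (hn : 4 ≤ Fintype.card ι) {r : ℕ}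
    (hr : r.Prime) (hr2 : r ≠ 2) (hcard : Fintype.card F = Nat.card F₀ ^ r) :
    MaxS B ((ratG F₀ e).comap (isomGroup B).subtype) := by
  obtain ⟨q, hF, hq⟩ := exists_card_eq_sq H.ne_id H.invol
  have hfix : ∃ θ ∈ F₀, σ θ ≠ θ := by
    by_contra! hc
    have h1 : ∀ c, σ c = c → c ∈ F₀ := fun c hc' => by_contra fun h => H.ne_id (RingHom.ext
      (forall_of_prime_index hr hcard (p := fun c => σ c = c) hc
        (fun a b ha hb => by rw [map_add, ha, hb]) (fun a b ha hb => by rw [map_mul, ha, hb]) hc' h))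
    have h2 : Nat.card F₀ = q := (Nat.card_congr (Equiv.subtypeEquivRight fun x =>
      ⟨fun h => hq x ▸ hc x h, fun h => h1 x (by rw [hq, h])⟩)).trans (card_pow_eq_self hF)
    rw [h2, hF] at hcard
    exact hr2 (Nat.pow_right_injective (two_le_of_card_sq hF) hcard).symm
  have hsu : ∀ M : Subgroup (isomGroup B), (∀ g ∈ (ratG F₀ e).comap (isomGroup B).subtype,
      g ∈ sIsom B → g ∈ M) → RatU F₀ e M := fun M hM =>
    ⟨H, hrat, fun a ha => hq a ▸ pow_mem ha q, hfix,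
      fun g hg hg' => hM g (mem_ratG_of_rat hg') hg, hn⟩
  refine ⟨fun hle => ?_, fun M hM _ g hg hgH => ?_⟩
  · obtain ⟨c, hc⟩ := exists_notMem_of_prime_index hr hcard
    have h := hsu ⊤ fun _ _ _ => trivial
    obtain ⟨b, hb, hbb, -, hb0⟩ := h.exists_iso (l := []) (by simp) (by simp)
    obtain ⟨x, a, a', k⟩ := h.exists_fr' hb hb0 hbb
    obtain ⟨d, hd0, hd⟩ := hle (H.eich_mem_sIsom hbb (w := c • a) (by simp [k.ba]) 0
      (by simp [k.aa]))
    have h4 := hd b hb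
    have h5 := hd x k.rf
    simp only [Subgroup.coe_subtype, H.eich_apply, hbb, k.bf, map_smulₛₗ, LinearMap.smul_apply,
      k.ab, k.af, smul_zero, zero_smul, add_zero, sub_zero, mul_zero,
      zero_mul, one_smul] at h4 h5
    have hdF := div_mem_of_isRat (μ := 1) hb0 (by simpa using hb) h4
    rw [div_one] at hdF
    have h6 := (h5.smul (inv_mem hdF)).sub k.rf
    have h7 := div_mem_of_isRat (μ := 1) (ν := c) (x := a) (by rintro rfl; simpa using k.aa')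
      (by simpa using k.ra) (by simpa [hd0] using h6)
    exact hc (by simpa using h7)
  · by_contra hne
    have h := hsu M hM
    obtain ⟨δ, d1, d2, d3⟩ := h.exists_delta
    refine hgH (h.mem_ratG_of_iso fun v hv hvv => ?_)
    have := M.mul_mem (M.mul_mem hg (h.transv_mem hv hvv d1 d3)) (M.inv_mem hg)
    rw [H.conj_transv g v _ δ d3 (by rw [isom_apply, hvv])] at this
    exact h.exists_smul_isRat hr hr2 hcard hne this d2

end Cfsg.Lib.Class.Form
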