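import Cfsg.Agent.Class.SU.Table
import Cfsg.Agent.Class.SU.Lag
import Cfsg.Agent.Class.SU.SubOdd
import Cfsg.Agent.Class.HermRatStd

/-!
# More table entries for the special unitary groups
-/

set_option autoImplicit false

namespace Cfsg.Lib.Class.SUT

open Module Form Cfsg.Geo
open scoped MatrixGroups

variable {F : Type*} [Field F] [Fintype F] {q n : ℕ}

theorem lag (hF : Fintype.card F = q ^ 2) {k : ℕ} {D : Fin 2 → Submodule F (Fin n → F)}
    (hD : IsMDecomposition k D) (hts : ∀ i, IsTotallySingularFor (hermForm n F q) (D i))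
    (h2 : 2 ≤ k) (hq : 3 ≤ k ∨ ∃ l : F, frobq hF l = l ∧ l ≠ 0 ∧ l * l ≠ 1) :
    IsMaximalIn (GU n F q ⊓ specialLinear (Fin n) F)
      (decompositionStabilizer D ⊓ (GU n F q ⊓ specialLinear (Fin n) F)) := by
  refine isMaximalIn_SU_of hF n (H' := stabFam (hermSesq hF n) D)
    (fun g => mem_decompositionStabilizer_iff_glLin D g)
    ((herm_hermSesq hF n).maxS_stabFam_hLag' ⟨fun u hu v hv => hts 0 v hv u hu,
      fun u hu v hv => hts 1 v hv u hu, ?_, ?_⟩ (by rwa [hD.finrank_eq]) (by rwa [hD.finrank_eq]))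
  · exact hD.indep.pairwiseDisjoint (show (0 : Fin 2) ≠ 1 by decide)
  · rw [codisjoint_iff, eq_top_iff, ← hD.iSup_eq_top, iSup_le_iff]
    intro i
    fin_cases i
    · exact le_sup_left
    · exact le_sup_right

theorem subOdd (hF : Fintype.card F = q ^ 2) (hn : 4 ≤ n) (F₀ : Subfield F) (r : ℕ)
    (P : GL (Fin n) F) (hr : r.Prime) (hro : Odd r) (hcard : Fintype.card F = Nat.card F₀ ^ r)
    (hP : IsFormRationalStructure (hermForm n F q) F₀ 1 P) :
    IsMaximalIn (GU n F q ⊓ specialLinear (Fin n) F)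
      (subfieldSubgroup F₀ P ⊓ (GU n F q ⊓ specialLinear (Fin n) F)) := by
  refine isMaximalIn_SU_of hF n (fun g => (mem_subfieldSubgroup_iff_glLin F₀ P g).trans ?_)
    (maxS_ratG' (e := (glLin (Fin n) F P).symm) (herm_hermSesq hF n) (fun u v hu hv => ?_)
      (by simpa using hn) hr (by rintro rfl; exact absurd hro (by decide)) hcard)
  · rw [Subgroup.mem_comap, show glLin (Fin n) F g = (isomGroup (hermSesq hF n)).subtype
      (guEquivIsomGroup hF n g) from LinearEquiv.ext fun x => by simp [glLin_apply]]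
  · have := hP _ _ hv hu
    rw [← glLin_apply, ← glLin_apply, LinearEquiv.apply_symm_apply,
      LinearEquiv.apply_symm_apply] at this
    simpa using this

theorem subSymp (hF : Fintype.card F = q ^ 2) (hn : 4 ≤ n) (F₀ : Subfield F)
    (P : GL (Fin n) F) (ζ : F) (hcard : Fintype.card F = Nat.card F₀ ^ 2) (hζ0 : ζ ≠ 0)
    (hζ : ζ + ζ ^ q = 0) (hP : IsFormRationalStructure (hermForm n F q) F₀ ζ P)
    (halt : ∀ u : Fin n → F, (∀ i, u i ∈ F₀) → hermForm n F q
      (Matrix.mulVec (P : Matrix (Fin n) (Fin n) F) u)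
      (Matrix.mulVec (P : Matrix (Fin n) (Fin n) F) u) = 0) :
    IsMaximalIn (GU n F q ⊓ specialLinear (Fin n) F)
      (subfieldSubgroup F₀ P ⊓ (GU n F q ⊓ specialLinear (Fin n) F)) := by
  refine isMaximalIn_SU_of hF n (mem_subfieldSubgroup_iff_ratGroup hF hcard P (by omega))
    ((conj_stdConj hF hcard hζ0 (ε := -1) (by linear_combination hζ) hP).maxS_symplectic'
      (herm_hermSesq hF n) (by rw [Module.finrank_fin_fun]; omega) fun x hx => ?_)
  obtain ⟨u, hu, rfl⟩ := exists_of_stdConj_eq hF hcard P hx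
  exact halt u hu

theorem subOrth_of (hF : Fintype.card F = q ^ 2) (hn : 0 < n) (F₀ : Subfield F)
    (P : GL (Fin n) F) (hcard : Fintype.card F = Nat.card F₀ ^ 2)
    (hP : IsFormRationalStructure (hermForm n F q) F₀ 1 P)
    (H : ∀ κ, Conj (hermSesq hF n) κ 1 → MaxS (hermSesq hF n) (ratGroup (hermSesq hF n) κ)) :
    IsMaximalIn (GU n F q ⊓ specialLinear (Fin n) F)
      (subfieldSubgroup F₀ P ⊓ (GU n F q ⊓ specialLinear (Fin n) F)) :=
  isMaximalIn_SU_of hF n (mem_subfieldSubgroup_iff_ratGroup hF hcard P (by omega))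
    (H _ (conj_stdConj hF hcard one_ne_zero (ε := 1) (by simp) hP))

theorem subOrth (hF : Fintype.card F = q ^ 2) (hn : 6 ≤ n) (hodd : Odd q) (F₀ : Subfield F)
    (P : GL (Fin n) F) (hcard : Fintype.card F = Nat.card F₀ ^ 2)
    (hP : IsFormRationalStructure (hermForm n F q) F₀ 1 P) :
    IsMaximalIn (GU n F q ⊓ specialLinear (Fin n) F)
      (subfieldSubgroup F₀ P ⊓ (GU n F q ⊓ specialLinear (Fin n) F)) :=
  subOrth_of hF (by omega) F₀ P hcard hP fun _ hκ => hκ.maxS_orthogonal' (herm_hermSesq hF n)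
    (two_ne_zero_of_odd_card (by rw [hF]; exact hodd.pow)) (by rwa [Module.finrank_fin_fun])

end Cfsg.Lib.Class.SUT
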