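import Cfsg.Agent.Class.OSix
import Cfsg.Agent.Class.ExcIso
import Cfsg.Agent.Class.HermCount
import Cfsg.Agent.Class.HermSimple
import Cfsg.Agent.Class.SU.Table2

/-!
Orthogonal subfield subgroups of `SU₄`, through the Klein correspondence.
-/

set_option autoImplicit false

namespace Cfsg.Lib.Class.Klein

open Module Matrix QuadraticMap Orth OMax Form

theorem exists_O_hom {k W G : Type*} [Field k] [AddCommGroup W] [Module k W] [Group G]
    {Q : QuadraticForm k W} (τ : G →* End k W) (h : ∀ g x, Q (τ g x) = Q x) :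
    ∃ ρ : G →* O Q, ∀ g x, (ρ g).1 x = τ g x :=
  ⟨((LinearMap.GeneralLinearGroup.generalLinearEquiv k W).toMonoidHom.comp
    τ.toHomUnits).codRestrict _ fun g => mem_O.2 (h g), fun _ _ => rfl⟩

theorem polar_of_sim {k W : Type*} [Field k] [AddCommGroup W] [Module k W]
    {Q : QuadraticForm k W} {θ : W →ₗ[k] W} {c : k} (h : ∀ x, Q (θ x) = c * Q x) (x y : W) :
    polar Q (θ x) (θ y) = c * polar Q x y := by
  rw [polar, polar, ← map_add, h, h, h]; ring

variable {F : Type*} [Field F] (σ : F →+* F)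

/-- The alternating matrices fixed by the conjugate Hodge duality. -/
def kH (x : Fin 3 → F) : Matrix (Fin 4) (Fin 4) F :=
  alt4 (x 0) (x 1) (x 2) (σ (x 2)) (-σ (x 1)) (σ (x 0))

theorem kH_injective : Function.Injective (kH σ) := fun u v h => by
  obtain ⟨h1, h2, h3, -⟩ := alt4_inj h
  ext i
  fin_cases i
  exacts [h1, h2, h3]

theorem kH_add (x y : Fin 3 → F) : kH σ (x + y) = kH σ x + kH σ y := by
  simp only [kH, alt4_add, Pi.add_apply, map_add, neg_add]

variable {σ}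

theorem kH_smul {c : F} (hc : σ c = c) (x : Fin 3 → F) : kH σ (c • x) = c • kH σ x := by
  simp only [kH, alt4_smul, Pi.smul_apply, smul_eq_mul, map_mul, hc, mul_neg]

theorem kH_conj (x : Fin 3 → F) : kH σ (σ ∘ x) = (kH σ x).map σ := by
  simp only [kH, alt4_map, Function.comp_apply, map_neg]

theorem eq_of_congr (hσ : ∀ a, σ (σ a) = a) {η : F} (hη : σ η ≠ η)
    {G₁ G₂ G' : Matrix (Fin 4) (Fin 4) F} (hG : G' * G₂ = 1) {i : F} (hi : i ≠ 0)
    (h : ∀ x, G₁ * kH σ x * G₁ᵀ = (i * i) • (G₂ * kH σ x * G₂ᵀ)) :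
    G₁ = i • G₂ ∨ G₁ = -i • G₂ := by
  have hG' := mul_eq_one_comm.1 hG
  have h1 : ∀ x, (i⁻¹ • (G' * G₁)) * kH σ x * (i⁻¹ • (G' * G₁))ᵀ = kH σ x := fun x => by
    have := congrArg (fun A => G' * A * G'ᵀ) (h x)
    simp only [Matrix.mul_smul, Matrix.smul_mul, ← Matrix.mul_assoc, hG, Matrix.one_mul] at this
    rw [Matrix.mul_assoc (kH σ x), ← transpose_mul, hG, transpose_one, Matrix.mul_one] at this
    simp only [transpose_smul, transpose_mul, Matrix.mul_smul, Matrix.smul_mul, ← Matrix.mul_assoc,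
      this, smul_smul]
    rw [show i⁻¹ * (i⁻¹ * (i * i)) = 1 by field_simp, one_smul]
  have key : ∀ x y : F, ∃ α β : F, x = α + η * β ∧ y = σ α + η * σ β := fun x y => by
    have h2 := sub_ne_zero.2 hη
    have h3 := sub_ne_zero.2 hη.symm
    refine ⟨x - η * ((x - σ y) / (η - σ η)), (x - σ y) / (η - σ η), by ring, ?_⟩
    simp only [map_sub, map_mul, map_div₀, hσ]
    field_simp
    ring
  have h2 := eq_one_or_neg_one_of_congr_alt4 (i⁻¹ • (G' * G₁)) fun a b c d e f => by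
    obtain ⟨α₁, β₁, rfl, rfl⟩ := key a f
    obtain ⟨α₂, β₂, rfl, h2⟩ := key b (-e)
    obtain ⟨α₃, β₃, rfl, rfl⟩ := key c d
    obtain rfl : e = -σ α₂ + η * -σ β₂ := by linear_combination -h2
    have : alt4 (α₁ + η * β₁) (α₂ + η * β₂) (α₃ + η * β₃) (σ α₃ + η * σ β₃) (-σ α₂ + η * -σ β₂)
        (σ α₁ + η * σ β₁) = kH σ ![α₁, α₂, α₃] + η • kH σ ![β₁, β₂, β₃] := by
      simp [kH, alt4_smul, alt4_add]
    rw [this, Matrix.mul_add, Matrix.add_mul, Matrix.mul_smul, Matrix.smul_mul η, h1, h1]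
  have h3 : G₁ = i • (G₂ * (i⁻¹ • (G' * G₁))) := by
    rw [Matrix.mul_smul, ← Matrix.mul_assoc, hG', Matrix.one_mul, smul_smul, mul_inv_cancel₀ hi,
      one_smul]
  refine h2.imp (fun h2 => ?_) fun h2 => ?_ <;> rw [h3, h2] <;> simp

theorem exists_kH_eq (hσ : ∀ a, σ (σ a) = a) {g : Matrix (Fin 4) (Fin 4) F}
    (hg : gᵀ * g.map σ = 1) {μ : F} (hμ : μ * g.det = σ μ) (x : Fin 3 → F) :
    μ • (g * kH σ x * gᵀ) = kH σ ![(μ • (g * kH σ x * gᵀ)) 0 1, (μ • (g * kH σ x * gᵀ)) 0 2,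
      (μ • (g * kH σ x * gᵀ)) 0 3] := by
  have hg2 : g.map σ * gᵀ = 1 := mul_eq_one_comm.1 hg
  have hg3 : g * (g.map σ)ᵀ = 1 := by
    simpa only [transpose_mul, transpose_transpose, transpose_one] using congrArg transpose hg2
  have h0 : hodge4 (kH σ x) = (kH σ x).map σ := by
    simp only [kH, hodge4_alt4, alt4_map, hσ, neg_neg, map_neg]
  have h1 : hodge4 (g * kH σ x * gᵀ) = g.det • (g * kH σ x * gᵀ).map σ := by
    have h2 := congrArg (fun A => g.map σ * A * (g.map σ)ᵀ) (hodge4_congr g (x 0) (x 1) (x 2)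
      (σ (x 2)) (-σ (x 1)) (σ (x 0)))
    simp only [← Matrix.mul_assoc, hg2, Matrix.one_mul] at h2
    rw [Matrix.mul_assoc (hodge4 _), hg3, Matrix.mul_one] at h2
    rw [Matrix.map_mul, Matrix.map_mul, ← h0, transpose_map, kH, h2, Matrix.mul_smul,
      Matrix.smul_mul]
  have h3 : g * kH σ x * gᵀ = _ := congr_alt4 g _ _ _ _ _ _
  change g * kH σ x * gᵀ = alt4 ((g * kH σ x * gᵀ) 0 1) ((g * kH σ x * gᵀ) 0 2)
    ((g * kH σ x * gᵀ) 0 3) ((g * kH σ x * gᵀ) 1 2) ((g * kH σ x * gᵀ) 1 3)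
    ((g * kH σ x * gᵀ) 2 3) at h3
  generalize g * kH σ x * gᵀ = A at h1 h3
  generalize A 0 1 = a, A 0 2 = b, A 0 3 = c, A 1 2 = d, A 1 3 = e, A 2 3 = f at h3
  subst h3
  rw [hodge4_alt4, alt4_map, alt4_smul] at h1
  obtain ⟨rfl, h2, rfl, -⟩ := alt4_inj h1
  obtain rfl := neg_eq_iff_eq_neg.1 h2
  simp [kH, alt4, ← hμ, mul_assoc]

variable {k : Subfield F}

/-- The action of a unitary matrix on the six-dimensional space. -/
def kT (hk : ∀ a, a ∈ k ↔ σ a = a) (μ : F) (g : Matrix (Fin 4) (Fin 4) F) :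
    (Fin 3 → F) →ₗ[k] (Fin 3 → F) where
  toFun x := ![(μ • (g * kH σ x * gᵀ)) 0 1, (μ • (g * kH σ x * gᵀ)) 0 2,
      (μ • (g * kH σ x * gᵀ)) 0 3]
  map_add' x y := by simp [kH_add, Matrix.add_mul, mul_add]
  map_smul' c x := by
    rw [Subfield.smul_def, kH_smul ((hk _).1 c.2)]
    simp [Subfield.smul_def, mul_left_comm]

theorem kH_kT (hσ : ∀ a, σ (σ a) = a) (hk : ∀ a, a ∈ k ↔ σ a = a) {g : Matrix (Fin 4) (Fin 4) F}
    (hg : gᵀ * g.map σ = 1) {μ : F} (hμ : μ * g.det = σ μ) (x : Fin 3 → F) :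
    kH σ (kT hk μ g x) = μ • (g * kH σ x * gᵀ) := (exists_kH_eq hσ hg hμ x).symm

/-- Conjugation. -/
def kC (hk : ∀ a, a ∈ k ↔ σ a = a) : (Fin 3 → F) →ₗ[k] (Fin 3 → F) where
  toFun x := σ ∘ x
  map_add' x y := by ext; simp
  map_smul' c x := by ext; simp [Subfield.smul_def, (hk _).1 c.2]

/-- The trace form. -/
def kB (hσ : ∀ a, σ (σ a) = a) (hk : ∀ a, a ∈ k ↔ σ a = a) : LinearMap.BilinForm k (Fin 3 → F) :=
  LinearMap.mk₂ k (fun x y => ⟨∑ i, (σ (x i) * y i + σ (y i) * x i), (hk _).2 (by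
    simp [hσ, add_comm, mul_comm])⟩)
    (fun x y z => Subtype.ext (by simp [Fin.sum_univ_three]; ring))
    (fun c x y => Subtype.ext (by simp [Fin.sum_univ_three, Subfield.smul_def, (hk _).1 c.2]; ring))
    (fun x y z => Subtype.ext (by simp [Fin.sum_univ_three]; ring))
    (fun c x y => Subtype.ext (by simp [Fin.sum_univ_three, Subfield.smul_def, (hk _).1 c.2]; ring))

/-- The norm form. -/
def kQ (hσ : ∀ a, σ (σ a) = a) (hk : ∀ a, a ∈ k ↔ σ a = a) : QuadraticForm k (Fin 3 → F) :=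
  (kB hσ hk).toQuadraticMap

theorem kQ_apply (hσ : ∀ a, σ (σ a) = a) (hk : ∀ a, a ∈ k ↔ σ a = a) (x : Fin 3 → F) :
    (kQ hσ hk x : F) = 2 * pf4 (kH σ x) := by
  simp [kQ, kB, kH, Fin.sum_univ_three]
  ring

theorem kQ_kT (hσ : ∀ a, σ (σ a) = a) (hk : ∀ a, a ∈ k ↔ σ a = a) {g : Matrix (Fin 4) (Fin 4) F}
    (hg : gᵀ * g.map σ = 1) {μ : F} (hμ : μ * g.det = σ μ) {c : k} (hc : (c : F) = μ * σ μ)
    (x : Fin 3 → F) : kQ hσ hk (kT hk μ g x) = c * kQ hσ hk x := by
  have h1 : ∀ A : Matrix (Fin 4) (Fin 4) F, pf4 (μ • A) = μ * μ * pf4 A := fun A => by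
    simp [pf4]; ring
  refine Subtype.ext ?_
  rw [MulMemClass.coe_mul, kQ_apply, kQ_apply, kH_kT hσ hk hg hμ, h1, kH, pf4_congr, hc, ← hμ]
  ring

theorem kQ_kC (hσ : ∀ a, σ (σ a) = a) (hk : ∀ a, a ∈ k ↔ σ a = a) (x : Fin 3 → F) :
    kQ hσ hk (kC hk x) = kQ hσ hk x := Subtype.ext (by simp [kQ_apply, kH, kC, hσ, mul_comm])

theorem kQ_nondeg (hσ : ∀ a, σ (σ a) = a) (hk : ∀ a, a ∈ k ↔ σ a = a) (h2 : (2 : F) ≠ 0) :
    (polarBilin (kQ hσ hk)).Nondegenerate := by
  have key : ∀ x, (∀ y, polarBilin (kQ hσ hk) x y = 0) → x = 0 := fun x h => funext fun i => by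
    by_contra h0
    have h1 := congrArg Subtype.val (h (Pi.single i (x i)))
    rw [kQ, LinearMap.BilinMap.polarBilin_toQuadraticMap] at h1
    fin_cases i <;> simp [kB, Fin.sum_univ_three, ← two_mul, h2] at h1 <;>
      exact h0 (h1.resolve_left fun h => h2 (congrArg Subtype.val h))
  exact ⟨key, fun x h => key x fun y => by rw [polarBilin_apply_apply, polar_comm]; exact h y⟩

variable [Fintype F] {q : ℕ}

/-- The matrix of an isometry. -/
noncomputable def mat (hF : Fintype.card F = q ^ 2) :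
    isomGroup (hermSesq hF 4) →* Matrix (Fin 4) (Fin 4) F where
  toFun g := LinearMap.toMatrix' (g : (Fin 4 → F) ≃ₗ[F] (Fin 4 → F)).toLinearMap
  map_one' := LinearMap.toMatrix'_id
  map_mul' _ _ := LinearMap.toMatrix'_comp _ _

theorem mat_mulVec (hF : Fintype.card F = q ^ 2) (g : isomGroup (hermSesq hF 4)) (x : Fin 4 → F) :
    mat hF g *ᵥ x = (g : (Fin 4 → F) ≃ₗ[F] (Fin 4 → F)) x := LinearMap.toMatrix'_mulVec _ _

theorem det_mat (hF : Fintype.card F = q ^ 2) (g : isomGroup (hermSesq hF 4)) :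
    (mat hF g).det = LinearEquiv.det (g : (Fin 4 → F) ≃ₗ[F] (Fin 4 → F)) := by
  rw [LinearEquiv.coe_det]; exact LinearMap.det_toMatrix' _

theorem unitary_of (hF : Fintype.card F = q ^ 2) {A : Matrix (Fin 4) (Fin 4) F}
    (h : ∀ i j, hermSesq hF 4 (A *ᵥ Pi.single j 1) (A *ᵥ Pi.single i 1) =
      hermSesq hF 4 (Pi.single j 1) (Pi.single i 1)) : Aᵀ * A.map (frobq hF) = 1 := by
  ext i j
  have := h i j
  simp only [hermSesq_apply, hermForm, ← frobq_apply hF, mulVec_single_one, col_apply] at this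
  rw [mul_apply, one_apply]
  simp only [transpose_apply, map_apply, this]
  split_ifs with h <;> simp [h, Pi.single_apply, eq_comm]

theorem mat_unitary (hF : Fintype.card F = q ^ 2) (g : isomGroup (hermSesq hF 4)) :
    (mat hF g)ᵀ * (mat hF g).map (frobq hF) = 1 :=
  unitary_of hF fun i j => by rw [mat_mulVec, mat_mulVec, isom_apply]

theorem exists_klein (hF : Fintype.card F = q ^ 2) (h2 : (2 : F) ≠ 0)
    (hk : ∀ a, a ∈ k ↔ frobq hF a = a) (hq : Nat.card k = q) (h6 : finrank k (Fin 3 → F) = 6) :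
    ∃ ρ : sIsom (hermSesq hF 4) →* O (kQ (frobq_frobq hF) hk), ρ.range = commutator _ ∧
      ∀ g x, kH (frobq hF) ((ρ g).1 x) = mat hF g * kH (frobq hF) x * (mat hF g)ᵀ := by
  have H := herm_hermSesq hF 4
  have hσ := frobq_frobq hF
  have h0 : ∀ g : sIsom (hermSesq hF 4), 1 * (mat hF g).det = frobq hF 1 := fun g => by
    rw [det_mat, mem_sIsom'.1 g.2, map_one, one_mul]
  have h1 : ∀ (g : sIsom (hermSesq hF 4)) x, kH (frobq hF) (kT hk 1 (mat hF g) x) =
      mat hF g * kH (frobq hF) x * (mat hF g)ᵀ := fun g x => by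
    rw [kH_kT hσ hk (mat_unitary hF g) (h0 g), one_smul]
  obtain ⟨ρ, hρ⟩ := exists_O_hom (Q := kQ hσ hk) (G := sIsom (hermSesq hF 4))
    ⟨⟨fun g => kT hk 1 (mat hF g), LinearMap.ext fun x => kH_injective _ (by rw [h1]; simp)⟩,
      fun g g' => LinearMap.ext fun x => kH_injective (frobq hF) (by
        rw [End.mul_apply, h1, h1, h1]
        simp only [Subgroup.coe_mul, map_mul, transpose_mul, Matrix.mul_assoc])⟩
    fun g x => (kQ_kT hσ hk (mat_unitary hF g) (h0 g) (c := 1) (by simp) x).trans (one_mul _)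
  replace hρ : ∀ g x, kH (frobq hF) ((ρ g).1 x) = mat hF g * kH (frobq hF) x * (mat hF g)ᵀ :=
    fun g x => by rw [hρ]; exact h1 g x
  refine ⟨ρ, Subgroup.eq_of_le_of_card_ge (range_le_commutator_of_perfect ρ
    (H.commutator_sIsom (by simp) (by simp)) ⊤ le_top) ?_, hρ⟩
  obtain ⟨η, -, -, hη⟩ := Conj.exists_delta H h2
  have h3 : Nat.card ρ.ker ≤ 2 := by
    classical
    refine (Nat.card_le_card_of_injective (β := ({1, -1} : Finset (Matrix (Fin 4) (Fin 4) F)))
      (fun g => ⟨mat hF g.1, ?_⟩) fun a b h => Subtype.ext (Subtype.ext (isom_ext fun x => ?_))).trans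
      (by rw [Nat.card_eq_finsetCard]; exact Finset.card_le_two)
    · simpa using eq_of_congr hσ hη (G₁ := mat hF g.1) (Matrix.one_mul 1) one_ne_zero fun x => by
        rw [← hρ, g.2]; simp
    · rw [← mat_mulVec, ← mat_mulVec, Subtype.mk.inj h]
  have hQ := kQ_nondeg hσ hk h2
  have h4 := four_mul_card_commutator hQ (fun h => h2 (congrArg Subtype.val h)) (by omega)
  have h5 := ρ.ker.card_mul_index
  have h7 := H.card_sIsom hF (finrank_fin_fun F) (by omega)
  have h8 : Nat.card (O (kQ hσ hk)) ≤ 2 * q ^ 6 * (q ^ 3 + 1) * ((q ^ 2 - 1) * (q ^ 4 - 1)) := by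
    by_cases hp : Known.IsPlus (kQ hσ hk)
    · rw [card_O_plus hQ (m := 2) h6 hp, hq]
      simp only [Finset.prod_range_succ, Finset.prod_range_zero, one_mul]
      gcongr
      exact (Nat.sub_le _ _).trans (Nat.le_succ _)
    · rw [card_O_minus hQ (m := 2) h6 hp, hq]
      simp [Finset.prod_range_succ]
  rw [Subgroup.index_ker] at h5
  have h9 : Nat.card (sIsom (hermSesq hF 4)) = q ^ 6 * (q ^ 3 + 1) * ((q ^ 2 - 1) * (q ^ 4 - 1)) := by
    refine Nat.eq_of_mul_eq_mul_left q.succ_pos (h7.trans ?_)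
    simp only [guOrder, Finset.prod_range_succ, Finset.prod_range_zero]
    norm_num [show ¬ Even 3 by decide]
    ring
  have := Nat.mul_le_mul_right (Nat.card ρ.range) h3
  rw [mul_assoc 2, mul_assoc 2, ← h9] at h8
  omega

attribute [-simp] frobq_apply in
theorem maxS_orth (hF : Fintype.card F = q ^ 2) (hodd : Odd q) (h5 : 5 ≤ q)
    (hcard : Fintype.card F = Nat.card k ^ 2) {κ : (Fin 4 → F) →ₛₗ[frobq hF] (Fin 4 → F)}
    (hκ : Conj (hermSesq hF 4) κ 1) : MaxS (hermSesq hF 4) (ratGroup (hermSesq hF 4) κ) := by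
  have H := herm_hermSesq hF 4
  have hσ := frobq_frobq hF
  have h2 : (2 : F) ≠ 0 := two_ne_zero_of_odd_card (by rw [hF]; exact hodd.pow)
  have hk : ∀ a, a ∈ k ↔ frobq hF a = a := mem_subfield_iff_pow hF hcard
  have hq : Nat.card k = q := Nat.pow_left_injective two_ne_zero (hcard.symm.trans hF)
  have h6 : finrank k (Fin 3 → F) = 6 := by
    have := Module.natCard_eq_pow_finrank (K := k) (V := Fin 3 → F)
    rw [Nat.card_fun, Nat.card_eq_fintype_card, hF, hq, Nat.card_fin, ← pow_mul] at this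
    exact (Nat.pow_right_injective (by omega) this).symm
  obtain ⟨ρ, hρ, hρ'⟩ := exists_klein hF h2 hk hq h6
  obtain ⟨η, hη0, hη, hη'⟩ := Conj.exists_delta H h2
  obtain ⟨C, hC⟩ : ∃ C : Matrix (Fin 4) (Fin 4) F, ∀ x, κ x = C *ᵥ ((frobq hF) ∘ x) :=
    ⟨of fun i j => κ (Pi.single j 1) i, fun x => by
      conv_lhs => rw [pi_eq_sum_univ' x]
      ext i
      simp [map_smulₛₗ, mulVec, dotProduct, mul_comm]⟩
  have hmv : ∀ (A : Matrix (Fin 4) (Fin 4) F) x, (frobq hF) ∘ (A *ᵥ x) = A.map (frobq hF) *ᵥ ((frobq hF) ∘ x) :=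
    fun A x => funext fun i => RingHom.map_mulVec (frobq hF) A x i
  have hσσ : ∀ x : Fin 4 → F, (frobq hF) ∘ (frobq hF) ∘ x = x := fun x => funext fun i => hσ _
  have hC1 : C * C.map (frobq hF) = 1 := ext_of_mulVec_single fun i => by
    rw [← mulVec_mulVec, ← hσσ (Pi.single i 1), ← hmv, ← hC, ← hC, hκ.invol, hσσ, one_mulVec]
  have hC2 : Cᵀ * C.map (frobq hF) = 1 := unitary_of hF fun i j => by
    have h1 : ∀ i : Fin 4, (frobq hF) ∘ (Pi.single i 1 : Fin 4 → F) = Pi.single i 1 := fun i => by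
      ext j; simp [Pi.single_apply]
    have := hκ.form (Pi.single j 1) (Pi.single i 1)
    rw [hC, hC, h1, h1] at this
    rw [this]
    by_cases h : i = j <;> simp [hermForm, Pi.single_apply, h, ← frobq_apply hF]
  have hcomm : ∀ (g : isomGroup (hermSesq hF 4)) (l : F), (∀ x, κ (g.1 x) = l • g.1 (κ x)) ↔
      C * (mat hF g).map (frobq hF) = l • (mat hF g * C) := fun g l => by
    simp only [← mat_mulVec, hC, hmv, mulVec_mulVec, ← smul_mulVec]
    exact ⟨fun h => ext_of_mulVec_single fun i => by simpa only [hσσ] using h ((frobq hF) ∘ Pi.single i 1),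
      fun h x => by rw [h]⟩
  obtain ⟨l, hl0, hl⟩ : ∃ l : F, l ≠ 0 ∧ l * C.det = (frobq hF) l := by
    have h1 := congrArg det hC1
    rw [det_mul, det_one, ← RingHom.mapMatrix_apply, ← RingHom.map_det] at h1
    by_cases h : 1 + (frobq hF) C.det = 0
    · exact ⟨η, hη0, by rw [hη]; linear_combination η * C.det * h - η * h1⟩
    · exact ⟨_, h, by rw [map_add, map_one, hσ]; linear_combination h1⟩
  let θ := kT hk l C ∘ₗ kC hk
  have hθ : ∀ x, kH (frobq hF) (θ x) = l • (C * (kH (frobq hF) x).map (frobq hF) * Cᵀ) := fun x => by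
    rw [LinearMap.comp_apply, kH_kT hσ hk hC2 hl, ← kH_conj]; rfl
  let δ : k := ⟨l * (frobq hF) l, (hk _).2 (by rw [map_mul, hσ, mul_comm])⟩
  have hδ : δ ≠ 0 := fun h => mul_ne_zero hl0 ((map_ne_zero (frobq hF)).2 hl0) (congrArg Subtype.val h)
  have hmap : ∀ (c : F) (A B D : Matrix (Fin 4) (Fin 4) F), (c • (A * B * Dᵀ)).map (frobq hF) =
      (frobq hF) c • (A.map (frobq hF) * B.map (frobq hF) * (D.map (frobq hF))ᵀ) := fun c A B D => by
    rw [← transpose_map, ← Matrix.map_mul, ← Matrix.map_mul]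
    ext; simp only [map_apply, Matrix.smul_apply, smul_eq_mul, map_mul]
  have hθθ : ∀ x, θ (θ x) = δ • x := fun x => kH_injective (frobq hF) (by
    have h1 : ((kH (frobq hF) x).map (frobq hF)).map (frobq hF) = kH (frobq hF) x := by ext; simp [hσ]
    rw [hθ, hθ, hmap, h1, Subfield.smul_def, kH_smul ((hk _).1 δ.2), Matrix.mul_smul,
      Matrix.smul_mul, smul_smul]
    simp only [← Matrix.mul_assoc, hC1, Matrix.one_mul]
    rw [Matrix.mul_assoc, ← transpose_mul, hC1, transpose_one, Matrix.mul_one])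
  have hθQ := polar_of_sim (Q := kQ hσ hk) (θ := θ) (c := δ) fun x => by
    rw [LinearMap.comp_apply, kQ_kT hσ hk hC2 hl (c := δ) rfl, kQ_kC]
  have e1 : ∀ (G : Matrix (Fin 4) (Fin 4) F) (μ : F) x y, kH (frobq hF) y = μ • (G * kH (frobq hF) x * Gᵀ) →
      kH (frobq hF) (θ y) = (l * (frobq hF) μ) • (C * G.map (frobq hF) * kH (frobq hF) ((frobq hF) ∘ x) * (C * G.map (frobq hF))ᵀ) := fun G μ x y h => by
    rw [hθ, h, hmap]
    simp only [kH_conj, Matrix.mul_smul, Matrix.smul_mul, smul_smul, transpose_mul,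
      Matrix.mul_assoc]
  have e2 : ∀ (G : Matrix (Fin 4) (Fin 4) F) x,
      G * kH (frobq hF) (θ x) * Gᵀ = l • (G * C * kH (frobq hF) ((frobq hF) ∘ x) * (G * C)ᵀ) := fun G x => by
    simp only [hθ, kH_conj, Matrix.mul_smul, Matrix.smul_mul, transpose_mul, Matrix.mul_assoc]
  have key : ∀ g, (ρ g).1 ∈ pmCent θ ↔ g.1 ∈ ratGroup (hermSesq hF 4) κ := fun g => by
    have e3 := fun x => e1 (mat hF g) 1 x _ (by rw [hρ', one_smul])
    refine ⟨fun ⟨ε, h1, h3⟩ => ?_, fun ⟨c, hc⟩ => ?_⟩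
    · replace h1 : (ε : F) * ε = 1 := congrArg Subtype.val h1
      obtain ⟨i, hi⟩ : IsSquare (ε : F) := by
        rcases mul_self_eq_one_iff.1 h1 with h | h <;> rw [h]
        · exact IsSquare.one
        · rw [FiniteField.isSquare_neg_one_iff, hF]
          obtain ⟨m, rfl⟩ := hodd
          rw [show (2 * m + 1) ^ 2 = 4 * (m * m + m) + 1 by ring]
          omega
      have hi0 : i ≠ 0 := by rintro rfl; simp [hi] at h1
      have h4 := eq_of_congr hσ hη' (G₁ := mat hF g * C) (G₂ := C * (mat hF g).map (frobq hF))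
        (G' := (mat hF g)ᵀ * C.map (frobq hF)) (by
          rw [Matrix.mul_assoc, ← Matrix.mul_assoc _ C, mul_eq_one_comm.1 hC1, Matrix.one_mul,
            mat_unitary]) hi0 fun x => by
        have h4 := congrArg (kH (frobq hF)) (h3 ((frobq hF) ∘ x))
        rw [hρ', e2, Subfield.smul_def, kH_smul ((hk _).1 ε.2), e3, map_one, mul_one, smul_comm,
          show (frobq hF) ∘ (frobq hF) ∘ x = x from funext fun i => hσ _, hi] at h4
        exact smul_right_injective _ hl0 h4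
      rcases h4 with h4 | h4
      · exact ⟨(Units.mk0 i hi0)⁻¹, (hcomm _ _).2 (by simp [h4, smul_smul, hi0])⟩
      · exact ⟨-(Units.mk0 i hi0)⁻¹, (hcomm _ _).2 (by simp [h4, smul_smul, hi0])⟩
    · have h1 := (hcomm _ _).1 hc
      have h3 := congrArg det h1
      rw [det_smul, det_mul, det_mul, ← RingHom.mapMatrix_apply, ← RingHom.map_det, det_mat,
        mem_sIsom'.1 g.2, map_one, Fintype.card_fin] at h3
      have h4 : (c : F) * c * (c * c) = 1 := mul_right_cancel₀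
        (right_ne_zero_of_mul (hl ▸ (map_ne_zero (frobq hF)).2 hl0 : l * C.det ≠ 0)) (by
          linear_combination -h3)
      refine ⟨⟨c * c, (hk _).2 ?_⟩, Subtype.ext h4, fun x => kH_injective (frobq hF) ?_⟩
      · rcases mul_self_eq_one_iff.1 h4 with h | h <;> simp [h]
      · rw [hρ', e2, Subfield.smul_def, kH_smul ((hk _).1 (Subtype.prop _)), e3, h1]
        simp only [transpose_smul, Matrix.mul_smul, Matrix.smul_mul, smul_smul, map_one]
        congr 1
        linear_combination -l * h4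
  obtain ⟨d, hd, -, hdd⟩ := hκ.exists_aniso_lt H h2 (l := []) (by simp) (by simp)
  have r1 : η * (mat hF (H.rf d hdd)).det = (frobq hF) η := by
    rw [det_mat, Herm.rf, H.det_qrefl, hη, mul_neg_one]
  have r2 := (hcomm (H.rf d hdd) 1).1 fun x => by
    simp only [H.rf_apply, map_sub, map_smulₛₗ, map_div₀, map_mul, map_ofNat, hd,
      hκ.left_form hd x, hκ.fix_form hd hd, one_mul, one_smul]
  have r3 := polar_of_sim (kQ_kT hσ hk (mat_unitary hF _) r1
    (c := ⟨η * (frobq hF) η, (hk _).2 (by rw [map_mul, hσ, mul_comm])⟩) rfl)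
  have hQ := kQ_nondeg hσ hk h2
  refine ⟨hκ.not_sIsom_le H (by simp), fun M hM hMS g hg hg' s hs => by_contra fun hs' => hg' ?_⟩
  let _ := Fintype.ofFinite k
  refine (key ⟨g, hMS hg⟩).1 (mem_pmCent (X := (M.subgroupOf _).map ρ) hQ
    (fun h => h2 (congrArg Subtype.val h)) h6 (by rw [← Nat.card_eq_fintype_card, hq]; omega)
    (fun x y => mul_left_cancel₀ hδ (by rw [← hθQ x, hθθ, polar_smul_right'])) hδ hθθ
    (γ := LinearEquiv.ofInjectiveEndo (kT hk η (mat hF (H.rf d hdd)))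
      ((injective_iff_map_eq_zero _).2 fun x hx => hQ.1 x fun y => ?_))
    (fun x => kH_injective (frobq hF) ?_) (hρ ▸ Subgroup.map_le_range _ _) (fun a ha ha' => ?_)
    (fun h => hs' ?_) ⟨_, hg, rfl⟩)
  · have := r3 x y
    rw [hx, polar_zero_left, eq_comm, mul_eq_zero] at this
    exact this.resolve_left fun h => mul_ne_zero hη0 ((map_ne_zero (frobq hF)).2 hη0)
      (congrArg Subtype.val h)
  · rw [LinearEquiv.coe_ofInjectiveEndo, ← neg_one_smul F, kH_smul (by simp),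
      e1 _ _ _ _ (kH_kT hσ hk (mat_unitary hF _) r1 x), kH_kT hσ hk (mat_unitary hF _) r1, e2, r2,
      hη, one_smul, smul_smul, smul_smul]
    congr 1
    ring
  · obtain ⟨a, rfl⟩ := hρ ▸ ha
    exact ⟨a, hM _ ((key a).1 ha') a.2, rfl⟩
  · obtain ⟨m, hm, e⟩ := h (hρ ▸ ⟨⟨s, hs⟩, rfl⟩ : ρ ⟨s, hs⟩ ∈ commutator _)
    have := hM _ ((key (m⁻¹ * ⟨s, hs⟩)).1 (by rw [map_mul, map_inv, e]; simp [one_mem]))
      (Subtype.prop _)
    exact (M.mul_mem_cancel_left (M.inv_mem hm)).1 this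

end Cfsg.Lib.Class.Klein
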