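import Cfsg.Agent.Class.SU.FrameEven

/-! Matrix-level forms of the maximality theorems for reducible and imprimitive subgroups of
`SU_n(q)`. -/

namespace Cfsg.Lib.Class.SUT
open Module Form Cfsg.Geo
open scoped MatrixGroups

variable {F : Type*} [Field F] [Fintype F] {q n : ℕ}

theorem totIso (hF : Fintype.card F = q ^ 2) (hn : 4 ≤ n) (W : Submodule F (Fin n → F))
    (hW0 : W ≠ ⊥) (hW : IsTotallySingularFor (hermForm n F q) W) :
    IsMaximalIn (GU n F q ⊓ specialLinear (Fin n) F)
      (subspaceStabilizer W ⊓ (GU n F q ⊓ specialLinear (Fin n) F)) :=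
  isMaximalIn_SU_of hF n (H' := stab (hermSesq hF n) W) (fun _ => Iff.rfl)
    ((herm_hermSesq hF n).maxS_stab_totIso (by rwa [finrank_fin_fun]) hW0
      fun u hu v hv => hW v hv u hu)

theorem nondeg (hF : Fintype.card F = q ^ 2) (hn : 4 ≤ n) (W : Submodule F (Fin n → F))
    (hW0 : W ≠ ⊥) (hW : IsNondegenerateOn (hermForm n F q) W) (hdim : 2 * finrank F W < n) :
    IsMaximalIn (GU n F q ⊓ specialLinear (Fin n) F)
      (subspaceStabilizer W ⊓ (GU n F q ⊓ specialLinear (Fin n) F)) := by
  refine isMaximalIn_SU_of hF n (H' := stab (hermSesq hF n) W) (fun g => Iff.rfl)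
    ((herm_hermSesq hF n).maxS_stab_nondeg' hW0 (fun u hu hu' => ?_)
      (by rwa [finrank_fin_fun]) (by rwa [finrank_fin_fun]))
  by_contra h0
  obtain ⟨x, hx, hxu⟩ := (hW u hu h0).1
  exact hxu (hu' x hx)

theorem exists_uDec (hF : Fintype.card F = q ^ 2) {t k : ℕ} {D : Fin t → Submodule F (Fin n → F)}
    (hD : IsNondegenerateMDecomposition (hermForm n F q) k D) :
    ∃ p, UDec (hermSesq hF n) D p := by
  obtain ⟨p, hp⟩ := exists_isDecProj hD.decomp.indep hD.decomp.iSup_eq_top
  exact ⟨p, herm_hermSesq hF n, hp, fun i j hij u hu v hv => hD.orthogonal j i hij.symm v hv u hu⟩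

theorem decomp (hF : Fintype.card F = q ^ 2) {t k : ℕ} {D : Fin t → Submodule F (Fin n → F)}
    (hD : IsNondegenerateMDecomposition (hermForm n F q) k D) (h2 : 2 ≤ k) (hq : 3 ≤ k ∨ q ≠ 2) :
    IsMaximalIn (GU n F q ⊓ specialLinear (Fin n) F)
      (decompositionStabilizer D ⊓ (GU n F q ⊓ specialLinear (Fin n) F)) := by
  obtain ⟨p, hp⟩ := exists_uDec hF hD
  have : Nontrivial (Fin t) := Fin.nontrivial_iff_two_le.2 hD.decomp.two_le
  exact isMaximalIn_SU_of hF n (H' := stabFam (hermSesq hF n) D)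
    (fun g => mem_decompositionStabilizer_iff_glLin D g)
    (hp.maxS hD.decomp.finrank_eq h2 (hq.imp_right (exists_fixed_ne_of_ne_two hF)))

theorem frame_of (hF : Fintype.card F = q ^ 2) {t : ℕ} {D : Fin t → Submodule F (Fin n → F)}
    (hD : IsNondegenerateMDecomposition (hermForm n F q) 1 D)
    (H : ∀ e : Fin t → Fin n → F, t = n → ON (hermSesq hF n) e →
      MaxS (hermSesq hF n) (monG (hermSesq hF n) e)) :
    IsMaximalIn (GU n F q ⊓ specialLinear (Fin n) F)
      (decompositionStabilizer D ⊓ (GU n F q ⊓ specialLinear (Fin n) F)) := by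
  obtain ⟨p, hp⟩ := exists_uDec hF hD
  have h1 := hD.decomp.finrank_eq
  have : ∀ i, ∃ v, hermSesq hF n v v = 1 ∧ D i = Submodule.span F {v} := fun i => by
    obtain ⟨v, hv, hvv⟩ := hp.herm.exists_norm_of_nondegOn (hp.nondeg i)
      (fun e => by have := h1 i; rw [e, finrank_bot] at this; omega) (map_one _)
    have hv0 : v ≠ 0 := by rintro rfl; simp at hvv
    exact ⟨v, hvv, (Submodule.eq_of_le_of_finrank_le
      ((Submodule.span_singleton_le_iff_mem _ _).2 hv)
      (by rw [h1, finrank_span_singleton hv0])).symm⟩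
  choose e he hD' using this
  have hm : ∀ i, e i ∈ D i := fun i => hD' i ▸ Submodule.mem_span_singleton_self _
  have hon : ON (hermSesq hF n) e := ⟨hp.herm, he, fun i j hij => hp.orth i j hij _ (hm i) _ (hm j),
    fun x => by
      conv_rhs => rw [← hp.proj.sum x]
      refine Finset.sum_congr rfl fun i _ => ?_
      obtain ⟨c, hc⟩ := Submodule.mem_span_singleton.1 (hD' i ▸ hp.proj.mem i x)
      rw [← hp.apply_proj (hm i), ← hc, map_smul, he, smul_eq_mul, mul_one]⟩
  obtain rfl : D = fun i => Submodule.span F {e i} := funext hD'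
  exact isMaximalIn_SU_of hF n (H' := monG (hermSesq hF n) e)
    (fun g => mem_decompositionStabilizer_iff_glLin (fun i => Submodule.span F {e i}) g)
    (H e (by simpa using hon.finrank_eq.symm) hon)

theorem frame (hF : Fintype.card F = q ^ 2) (hn : 7 ≤ n) {t : ℕ}
    {D : Fin t → Submodule F (Fin n → F)}
    (hD : IsNondegenerateMDecomposition (hermForm n F q) 1 D) :
    IsMaximalIn (GU n F q ⊓ specialLinear (Fin n) F)
      (decompositionStabilizer D ⊓ (GU n F q ⊓ specialLinear (Fin n) F)) :=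
  frame_of hF hD fun _ ht he => he.maxS (by simpa [ht])

end Cfsg.Lib.Class.SUT
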